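import Mathlib
import Cfsg.Agent.H52.SnDefs

/-!
# S2942 (helper52's SN project), piece SN-FINA (helper91)
-/

set_option autoImplicit false
open Cfsg

namespace Cfsg.Agent.H91.Sn

open Cfsg.Agent.H52.Sn

universe u

lemma closure_normal_of_conj {X : Type*} [Group X] {s : Set X}
    (h : ∀ x ∈ s, ∀ g : X, g * x * g⁻¹ ∈ s) : (Subgroup.closure s).Normal := by
  constructor
  intro n hn g
  induction hn using Subgroup.closure_induction with
  | mem x hx => exact Subgroup.subset_closure (h x hx g)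
  | one => simp
  | mul x y _ _ hx hy =>
      have : g * (x * y) * g⁻¹ = (g * x * g⁻¹) * (g * y * g⁻¹) := by group
      rw [this]; exact mul_mem hx hy
  | inv x _ hx =>
      have : g * x⁻¹ * g⁻¹ = (g * x * g⁻¹)⁻¹ := by group
      rw [this]; exact inv_mem hx

lemma comm_of_closure {A : Type*} [Group A] {s : Set A}
    (hc : ∀ x ∈ s, ∀ y ∈ s, x * y = y * x) :
    ∀ z ∈ Subgroup.closure s, ∀ w ∈ Subgroup.closure s, z * w = w * z := by
  have h1 : Subgroup.closure s ≤ Subgroup.centralizer s := by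
    rw [Subgroup.closure_le]
    intro x hx
    rw [SetLike.mem_coe, Subgroup.mem_centralizer_iff]
    intro y hy
    exact hc y hy x hx
  have h2 : Subgroup.closure s ≤ Subgroup.centralizer (Subgroup.closure s : Set A) := by
    rw [Subgroup.closure_le]
    intro x hx
    rw [SetLike.mem_coe, Subgroup.mem_centralizer_iff]
    intro y hy
    exact (Subgroup.mem_centralizer_iff.mp (h1 hy) x hx).symm
  intro z hz w hw
  exact Subgroup.mem_centralizer_iff.mp (h2 hw) z hz

lemma odd_of_closure {A : Type*} [Group A] {s : Set A}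
    (hc : ∀ x ∈ s, ∀ y ∈ s, x * y = y * x) (ho : ∀ x ∈ s, Odd (orderOf x)) :
    ∀ z ∈ Subgroup.closure s, Odd (orderOf z) := by
  intro z hz
  induction hz using Subgroup.closure_induction with
  | mem x hx => exact ho x hx
  | one => simp
  | mul x y hx hy ihx ihy =>
      have hcomm : Commute x y := comm_of_closure hc x hx y hy
      exact Odd.of_dvd_nat (ihx.mul ihy)
        (hcomm.orderOf_mul_dvd_lcm.trans (Nat.lcm_dvd_mul _ _))
  | inv x hx ihx => rw [orderOf_inv]; exact ihx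

lemma orderOf_conj_eq {X : Type*} [Group X] (g x : X) : orderOf (g * x * g⁻¹) = orderOf x := by
  have := orderOf_injective (MulAut.conj g).toMonoidHom (MulAut.conj g).injective x
  simpa using this

/-- **SN-FINA**. -/
theorem finA : StFinA.{u} := by
  intro X _ _ T C Q M J K O hT hTodd hC hQ hM hTC hJM hcomm hKgen hKJ hOK hO
  have hKM : K ≤ M := by
    rw [← hKJ]
    exact (Subgroup.commutator_mono le_rfl hJM).trans (Subgroup.commutator_le_right K M)
  obtain ⟨π, hπ⟩ : ∃ π : X →* X ⧸ C, π = QuotientGroup.mk' C := ⟨_, rfl⟩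
  have hπ1 : ∀ x : X, π x = 1 ↔ x ∈ C := by
    intro x; rw [hπ]; exact QuotientGroup.eq_one_iff x
  obtain ⟨S, hS⟩ : ∃ S : Set X, S = {x | x ∈ M ∧ Odd (orderOf x)} := ⟨_, rfl⟩
  have hπc : ∀ a ∈ π '' S, ∀ b ∈ π '' S, a * b = b * a := by
    rintro _ ⟨x, hx, rfl⟩ _ ⟨y, hy, rfl⟩
    rw [hS] at hx hy
    obtain ⟨hxM, hxo⟩ := hx
    obtain ⟨hyM, hyo⟩ := hy
    have h := hcomm x hxM y hyM hxo hyo
    have h1 : π (x * y * x⁻¹ * y⁻¹) = 1 := (hπ1 _).mpr h
    rw [map_mul, map_mul, map_mul, map_inv, map_inv] at h1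
    calc π x * π y = (π x * π y * (π x)⁻¹ * (π y)⁻¹) * π y * π x := by group
      _ = π y * π x := by rw [h1, one_mul]
  have hπo : ∀ a ∈ π '' S, Odd (orderOf a) := by
    rintro _ ⟨x, hx, rfl⟩
    rw [hS] at hx
    exact Odd.of_dvd_nat hx.2 (orderOf_map_dvd π x)
  obtain ⟨N, hN⟩ : ∃ N : Subgroup X, N = Subgroup.closure S := ⟨_, rfl⟩
  have hNnormal : N.Normal := by
    rw [hN]
    apply closure_normal_of_conj
    intro x hx g
    rw [hS] at hx ⊢
    exact ⟨hM.conj_mem x hx.1 g, by rw [orderOf_conj_eq]; exact hx.2⟩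
  have hRπ : ∀ r ∈ C ⊔ N, π r ∈ Subgroup.closure (π '' S) := by
    intro r hr
    have h1 : π r ∈ (C ⊔ N).map π := Subgroup.mem_map_of_mem π hr
    rw [Subgroup.map_sup, hN, MonoidHom.map_closure] at h1
    have h2 : C.map π = ⊥ := by rw [hπ]; exact QuotientGroup.map_mk'_self C
    rw [h2, bot_sup_eq] at h1
    exact h1
  have hRR : ∀ r ∈ C ⊔ N, ∀ s ∈ C ⊔ N, r * s * r⁻¹ * s⁻¹ ∈ C := by
    intro r hr s hs
    have h := comm_of_closure hπc (π r) (hRπ r hr) (π s) (hRπ s hs)
    apply (hπ1 _).mp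
    rw [map_mul, map_mul, map_mul, map_inv, map_inv, h]; group
  have hKN : K ≤ N := by
    rw [← hKgen, hN]
    apply Subgroup.closure_mono
    rintro g ⟨hgK, hgo⟩
    rw [hS]
    exact ⟨hKM hgK, hgo⟩
  have hKCR : K ⊔ C ≤ C ⊔ N := sup_le (hKN.trans le_sup_right) le_sup_left
  have hOC : O ≤ C := by
    intro o ho
    have h1 : π o ∈ Subgroup.closure (π '' S) :=
      hRπ o (hKCR ((le_sup_left : K ≤ K ⊔ C) (hOK ho)))
    have h2 : Odd (orderOf (π o)) := odd_of_closure hπc hπo _ h1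
    obtain ⟨j, hj⟩ := hO ⟨o, ho⟩
    have hj' : o ^ 2 ^ j = 1 := by
      have := congrArg Subtype.val hj
      simpa using this
    have h3 : orderOf (π o) ∣ 2 ^ j := by
      apply orderOf_dvd_of_pow_eq_one
      rw [← map_pow, hj', map_one]
    have h4 : orderOf (π o) = 1 := by
      obtain ⟨i, -, hi⟩ := (Nat.dvd_prime_pow Nat.prime_two).mp h3
      rw [hi] at h2 ⊢
      cases i with
      | zero => rfl
      | succ i =>
          exfalso
          rw [pow_succ] at h2
          exact (Nat.not_even_iff_odd.mpr h2) (even_two.mul_left _)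
    exact (hπ1 o).mp (orderOf_eq_one_iff.mp h4)
  refine ⟨?_, C ⊔ N, inferInstance, hKCR, ?_⟩
  · haveI : Fact (Nat.Prime 2) := ⟨Nat.prime_two⟩
    have hndvd : ¬ 2 ∣ T.index := fun h =>
      (Nat.not_even_iff_odd.mpr hTodd) (even_iff_two_dvd.mpr h)
    obtain ⟨P, hP⟩ := hO.exists_le_sylow
    obtain ⟨g, hg⟩ := MulAction.exists_smul_eq X (hT.toSylow hndvd) P
    intro o ho
    have h1 : o ∈ ((g • hT.toSylow hndvd : Sylow 2 X) : Subgroup X) := by
      rw [hg]; exact hP ho
    have h2 : g⁻¹ * o * g ∈ T := by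
      rw [Sylow.coe_subgroup_smul, Subgroup.mem_pointwise_smul_iff_inv_smul_mem] at h1
      simpa using h1
    have h3 : g⁻¹ * o * g ∈ C := by
      have := hC.conj_mem o (hOC ho) g⁻¹
      simpa using this
    have h4 : g⁻¹ * o * g ∈ Q := hTC ⟨h2, h3⟩
    have := hQ.conj_mem _ h4 g
    simpa [mul_assoc] using this
  · have key : ∀ r ∈ C ⊔ N, ∀ h ∈ K ⊔ C, r * h * r⁻¹ ∈ K ⊔ C := by
      intro r hr h hh
      have h1 : r * h * r⁻¹ * h⁻¹ ∈ C := hRR r hr h (hKCR hh)
      have : r * h * r⁻¹ = (r * h * r⁻¹ * h⁻¹) * h := by group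
      rw [this]
      exact mul_mem ((le_sup_right : C ≤ K ⊔ C) h1) hh
    intro r hr
    rw [Subgroup.mem_normalizer_iff]
    intro h
    constructor
    · exact key r hr h
    · intro hh
      have := key r⁻¹ (inv_mem hr) _ hh
      simpa [mul_assoc] using this

example : Cfsg.Agent.H52.Sn.StFinA.{u} := finA

end Cfsg.Agent.H91.Sn
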