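import Mathlib
import Cfsg.Agent.H64.JzDefs
import Cfsg.Agent.Helper55.J48

/-!
# JZ-MAXS (piece of the team project JZ = S2951/S2952, led by helper64)

A nonempty straddling family of `M` has a lexicographically maximal member inside a given Sylow
2-subgroup `S ≤ M` of `G`.
-/

set_option autoImplicit false
open Cfsg

namespace Cfsg.Agent.H91.Jz

open Cfsg.Agent.Helper55 Cfsg.Agent.Helper55.ThJ Cfsg.Agent.Helper55.J48

universe u

variable {G : Type u} [Group G] [Finite G]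

theorem map_conj_inv_map (T : Subgroup G) (g : G) :
    (T.map (MulAut.conj g).toMonoidHom).map (MulAut.conj g⁻¹).toMonoidHom = T := by
  ext x
  simp only [Subgroup.mem_map, MulEquiv.coe_toMonoidHom, MulAut.conj_apply]
  constructor
  · rintro ⟨y, ⟨t, ht, rfl⟩, rfl⟩
    have e : g⁻¹ * (g * t * g⁻¹) * g⁻¹⁻¹ = t := by group
    rw [e]
    exact ht
  · intro hx
    exact ⟨g * x * g⁻¹, ⟨x, hx, rfl⟩, by group⟩

theorem a_le_a_conj (T : Subgroup G) (g : G) :
    maxElemAbelianOrder T ≤ maxElemAbelianOrder (T.map (MulAut.conj g).toMonoidHom) := by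
  obtain ⟨A, hAT, hA, hcard⟩ := gens_nonempty T
  rw [← hcard]
  have h1 : Nat.card ↥(A.map (MulAut.conj g).toMonoidHom) = Nat.card ↥A :=
    Subgroup.card_map_of_injective (MulAut.conj g).injective
  rw [← h1]
  exact card_le_a _ (Subgroup.map_mono hAT) (Cfsg.Agent.H14.elemAb_map' hA _)

theorem a_conj (T : Subgroup G) (g : G) :
    maxElemAbelianOrder (T.map (MulAut.conj g).toMonoidHom) = maxElemAbelianOrder T := by
  apply le_antisymm
  · have h := a_le_a_conj (T.map (MulAut.conj g).toMonoidHom) g⁻¹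
    rw [map_conj_inv_map] at h
    exact h
  · exact a_le_a_conj T g

theorem cardJ_conj (T : Subgroup G) (g : G) :
    Nat.card ↥(thompsonSubgroupOf 2 (T.map (MulAut.conj g).toMonoidHom)) =
      Nat.card ↥(thompsonSubgroupOf 2 T) := by
  rw [← Cfsg.Agent.H14.thompsonSubgroupOf_conj 2 g T]
  exact Subgroup.card_map_of_injective (MulAut.conj g).injective

theorem card_conj (T : Subgroup G) (g : G) :
    Nat.card ↥(T.map (MulAut.conj g).toMonoidHom) = Nat.card ↥T :=
  Subgroup.card_map_of_injective (MulAut.conj g).injective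

theorem twoLocal_conj {L : Subgroup G} (hL : IsTwoLocal L) (g : G) :
    IsTwoLocal (L.map (MulAut.conj g).toMonoidHom) := by
  obtain ⟨Q, hQ2, hQ1, rfl⟩ := hL
  refine ⟨Q.map (MulAut.conj g).toMonoidHom, hQ2.map _, ?_, ?_⟩
  · intro h
    exact hQ1 ((Subgroup.map_eq_bot_iff_of_injective Q (MulAut.conj g).injective).mp h)
  · exact Subgroup.map_equiv_normalizer_eq Q (MulAut.conj g)

theorem straddling_conj {M T : Subgroup G} (hT : T ∈ straddlingTwoSubgroups M) {m : G}
    (hm : m ∈ M) : T.map (MulAut.conj m).toMonoidHom ∈ straddlingTwoSubgroups M := by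
  obtain ⟨hT2, hT1, hTM, L, hL, hTL, hLM⟩ := hT
  refine ⟨hT2.map _, ?_, ?_, L.map (MulAut.conj m).toMonoidHom, twoLocal_conj hL m,
    Subgroup.map_mono hTL, ?_⟩
  · intro h
    exact hT1 ((Subgroup.map_eq_bot_iff_of_injective T (MulAut.conj m).injective).mp h)
  · rintro x ⟨t, ht, rfl⟩
    simp only [MulEquiv.coe_toMonoidHom, MulAut.conj_apply]
    exact M.mul_mem (M.mul_mem hm (hTM ht)) (M.inv_mem hm)
  · intro h
    apply hLM
    intro x hx
    have h1 : m * x * m⁻¹ ∈ M := h ⟨x, hx, by simp⟩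
    have h2 := M.mul_mem (M.mul_mem (M.inv_mem hm) h1) hm
    have e : m⁻¹ * (m * x * m⁻¹) * m = x := by group
    rw [e] at h2
    exact h2

theorem maxStraddling_conj {M T : Subgroup G} (hT : T ∈ maxStraddlingTwoSubgroups M) {m : G}
    (hm : m ∈ M) : T.map (MulAut.conj m).toMonoidHom ∈ maxStraddlingTwoSubgroups M := by
  refine ⟨straddling_conj hT.1 hm, ?_⟩
  intro T' hT'
  rw [a_conj, cardJ_conj, card_conj]
  exact hT.2 T' hT'

theorem exists_maxStraddling {M : Subgroup G} (hne : (straddlingTwoSubgroups M).Nonempty) :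
    ∃ T : Subgroup G, T ∈ maxStraddlingTwoSubgroups M := by
  classical
  have hfin : ∀ s : Set (Subgroup G), s.Finite := fun s => Set.toFinite s
  obtain ⟨T1, hT1, hmax1⟩ := Set.exists_max_image (straddlingTwoSubgroups M)
    (fun T => maxElemAbelianOrder T) (hfin _) hne
  set s2 : Set (Subgroup G) := {T | T ∈ straddlingTwoSubgroups M ∧
    maxElemAbelianOrder T = maxElemAbelianOrder T1} with hs2
  obtain ⟨T2, hT2, hmax2⟩ := Set.exists_max_image s2
    (fun T => Nat.card ↥(thompsonSubgroupOf 2 T)) (hfin _) ⟨T1, hT1, rfl⟩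
  set s3 : Set (Subgroup G) := {T | T ∈ s2 ∧
    Nat.card ↥(thompsonSubgroupOf 2 T) = Nat.card ↥(thompsonSubgroupOf 2 T2)} with hs3
  obtain ⟨T3, hT3, hmax3⟩ := Set.exists_max_image s3
    (fun T => Nat.card ↥T) (hfin _) ⟨T2, hT2, rfl⟩
  refine ⟨T3, hT3.1.1, ?_⟩
  intro T hT
  have ha3 : maxElemAbelianOrder T3 = maxElemAbelianOrder T1 := hT3.1.2
  have hJ3 : Nat.card ↥(thompsonSubgroupOf 2 T3) = Nat.card ↥(thompsonSubgroupOf 2 T2) := hT3.2
  refine ⟨?_, ?_⟩
  · rw [ha3]
    exact hmax1 T hT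
  · intro ha
    have hTs2 : T ∈ s2 := ⟨hT, ha.trans ha3⟩
    refine ⟨?_, ?_⟩
    · rw [hJ3]
      exact hmax2 T hTs2
    · intro hJ
      exact hmax3 T ⟨hTs2, hJ.trans hJ3⟩

/-- JZ-MAXS. -/
theorem maxS : Cfsg.Agent.H64.Jz.StMaxS.{u} := by
  intro G _ _ S M hSM hne
  obtain ⟨T0, hT0⟩ := exists_maxStraddling hne
  obtain ⟨m, hmM, hle⟩ := exists_sylow_conj S M hSM T0 hT0.1.1 hT0.1.2.2.1
  have h2 : ((m • S : Sylow 2 G) : Subgroup G) =
      (S : Subgroup G).map (MulAut.conj m).toMonoidHom := by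
    rw [Sylow.coe_subgroup_smul]
    rfl
  rw [h2] at hle
  refine ⟨T0.map (MulAut.conj m⁻¹).toMonoidHom, maxStraddling_conj hT0 (M.inv_mem hmM), ?_⟩
  have h3 := Subgroup.map_mono (f := (MulAut.conj m⁻¹).toMonoidHom) hle
  rw [map_conj_inv_map] at h3
  exact h3

example : ∀ {G : Type u} [Group G] [Finite G] (S : Sylow 2 G) (M : Subgroup G),
    (S : Subgroup G) ≤ M → (straddlingTwoSubgroups M).Nonempty →
    ∃ T : Subgroup G, T ∈ maxStraddlingTwoSubgroups M ∧ T ≤ (S : Subgroup G) := maxS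

end Cfsg.Agent.H91.Jz
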