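import Mathlib
import Cfsg.Prelude.Def_KGroupFacts

/-!
# helper91: the Schur multiplier of `PSL_n(q)` (S2086) -- shared definitions

`SL_n(K)`, `n ≥ 3`, `(n, q) ≠ (3,2), (3,4), (4,2)`, is centrally closed: every central extension
`ρ : E → SL_n(K)` splits.  Proof (Steinberg, Milnor): write `x_ij(a)` for the elementary matrices.

* `Comm ρ`: any lifts of two commuting elementary matrices commute (free index; torus; for
  `SL_4(3)` a Hall–Witt argument and a permutation matrix).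
* `Ind ρ`: `[lift x_ih(1), lift x_hj(a)]` does not depend on `h`.
* `Rel3 ρ`: `[lift x_ij(a), lift x_jl(b)] = [lift x_ij(1), lift x_jl(ab)]`.
* Then `s_ij(a) := [lift x_ih(1), lift x_hj(a)]` satisfy the Steinberg relations and the
  presentation of `SL_n(K)` (S2401, `Cfsg.Agent.H85.StLin.presentation`) gives the section.
-/

set_option autoImplicit false

namespace Cfsg.Agent.H91.SM

open Matrix Subgroup
open scoped commutatorElement

/-- `SL_n(K)`. -/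
abbrev SLn (n : ℕ) (K : Type*) [Field K] := Matrix.SpecialLinearGroup (Fin n) K

/-- The elementary matrix `x_ij(a) = 1 + a E_ij` in `SL_n(K)`. -/
abbrev tv {n : ℕ} {K : Type*} [Field K] {i j : Fin n} (h : i ≠ j) (a : K) : SLn n K :=
  Matrix.SpecialLinearGroup.transvection h a

section

variable {n : ℕ} {K : Type*} [Field K] {E : Type*} [Group E]

/-- Any two lifts of commuting elementary matrices commute. -/
def Comm (ρ : E →* SLn n K) : Prop :=
  ∀ (i j k l : Fin n) (hij : i ≠ j) (hkl : k ≠ l), i ≠ l → j ≠ k → ∀ (a b : K) (u v : E),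
    ρ u = tv hij a → ρ v = tv hkl b → u * v = v * u

/-- `[lift x_ih(1), lift x_hj(a)]` does not depend on the middle index `h`. -/
def Ind (ρ : E →* SLn n K) : Prop :=
  ∀ (i j h k : Fin n) (hih : i ≠ h) (hhj : h ≠ j) (hik : i ≠ k) (hkj : k ≠ j), i ≠ j → h ≠ k →
    ∀ (a : K) (u v u' v' : E), ρ u = tv hih 1 → ρ v = tv hhj a → ρ u' = tv hik 1 →
      ρ v' = tv hkj a → ⁅u, v⁆ = ⁅u', v'⁆

/-- `[lift x_ij(a), lift x_jl(b)] = [lift x_ij(1), lift x_jl(ab)]`. -/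
def Rel3 (ρ : E →* SLn n K) : Prop :=
  ∀ (i j l : Fin n) (hij : i ≠ j) (hjl : j ≠ l), i ≠ l → ∀ (a b : K) (u w p q : E),
    ρ u = tv hij a → ρ w = tv hjl b → ρ p = tv hij 1 → ρ q = tv hjl (a * b) → ⁅u, w⁆ = ⁅p, q⁆

end

/-- Piece ID: `[u,[v,w]] = [[u,v],w]` when `u, w` commute, `[u,v], [v,w]` commute and `[v,w]`
commutes with `[[u,v],w]`. -/
def IdStmt.{u} : Prop :=
  ∀ {E : Type u} [Group E] (u v w : E), u * w = w * u → ⁅u, v⁆ * ⁅v, w⁆ = ⁅v, w⁆ * ⁅u, v⁆ →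
    ⁅v, w⁆ * ⁅⁅u, v⁆, w⁆ = ⁅⁅u, v⁆, w⁆ * ⁅v, w⁆ → ⁅u, ⁅v, w⁆⁆ = ⁅⁅u, v⁆, w⁆

/-- Piece FREE: lifts of `x_ij(a)`, `x_kl(b)` (`i ≠ l`, `j ≠ k`) commute if some index `h` is
different from `i, j, k, l`. -/
def FreeStmt.{u, v} : Prop :=
  ∀ {n : ℕ} {K : Type u} [Field K] {E : Type v} [Group E] (ρ : E →* SLn n K),
    Function.Surjective ρ → ρ.ker ≤ center E →
    ∀ (i j k l h : Fin n) (hij : i ≠ j) (hkl : k ≠ l), i ≠ l → j ≠ k → h ≠ i → h ≠ j → h ≠ k →
      h ≠ l → ∀ (a b : K) (u v : E), ρ u = tv hij a → ρ v = tv hkl b → u * v = v * u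

/-- Piece C5: `Comm` for `n ≥ 5`. -/
def C5Stmt.{u, v} : Prop :=
  ∀ {n : ℕ} {K : Type u} [Field K] {E : Type v} [Group E] (ρ : E →* SLn n K),
    Function.Surjective ρ → ρ.ker ≤ center E → 5 ≤ n → Comm ρ

/-- Piece C4T: `Comm` for `n = 4` when `K` has an element `r ≠ 0` with `r² ≠ 1` (torus). -/
def C4TStmt.{u, v} : Prop :=
  ∀ {K : Type u} [Field K] {E : Type v} [Group E] (ρ : E →* SLn 4 K),
    Function.Surjective ρ → ρ.ker ≤ center E → ∀ r : K, r ≠ 0 → r ^ 2 ≠ 1 → Comm ρ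

/-- Piece C4H: `Comm` for `n = 4` in characteristic `≠ 2` (Hall–Witt and a permutation matrix). -/
def C4HStmt.{u, v} : Prop :=
  ∀ {K : Type u} [Field K] {E : Type v} [Group E] (ρ : E →* SLn 4 K),
    Function.Surjective ρ → ρ.ker ≤ center E → (2 : K) ≠ 0 → Comm ρ

/-- Piece C3T: `Comm` for `n = 3` when `K` has an element `r ≠ 0` with `r³ ≠ 1` (torus). -/
def C3TStmt.{u, v} : Prop :=
  ∀ {K : Type u} [Field K] {E : Type v} [Group E] (ρ : E →* SLn 3 K),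
    Function.Surjective ρ → ρ.ker ≤ center E → ∀ r : K, r ≠ 0 → r ^ 3 ≠ 1 → Comm ρ

/-- Piece IND: `Comm` implies `Ind`. -/
def IndStmt.{u, v} : Prop :=
  ∀ {n : ℕ} {K : Type u} [Field K] {E : Type v} [Group E] (ρ : E →* SLn n K),
    Function.Surjective ρ → ρ.ker ≤ center E → Comm ρ → Ind ρ

/-- Piece REL4: `Comm` implies `Rel3` for `n ≥ 4`. -/
def Rel4Stmt.{u, v} : Prop :=
  ∀ {n : ℕ} {K : Type u} [Field K] {E : Type v} [Group E] (ρ : E →* SLn n K),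
    Function.Surjective ρ → ρ.ker ≤ center E → 4 ≤ n → Comm ρ → Rel3 ρ

/-- Piece REL3: `Comm` implies `Rel3` for `n = 3` when `K` has `r ≠ 0` with `r³ ≠ 1` (torus). -/
def Rel3Stmt.{u, v} : Prop :=
  ∀ {K : Type u} [Field K] {E : Type v} [Group E] (ρ : E →* SLn 3 K),
    Function.Surjective ρ → ρ.ker ≤ center E → Comm ρ → ∀ r : K, r ≠ 0 → r ^ 3 ≠ 1 → Rel3 ρ

/-- Piece SPLIT: `Comm`, `Ind` and `Rel3` give a section (via the Steinberg presentation). -/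
def SplitStmt.{u, v} : Prop :=
  ∀ {n : ℕ} {K : Type u} [Field K] [Finite K] {E : Type v} [Group E] (ρ : E →* SLn n K),
    Function.Surjective ρ → ρ.ker ≤ center E → 3 ≤ n → Comm ρ → Ind ρ → Rel3 ρ →
      ∃ θ : SLn n K →* E, ρ.comp θ = MonoidHom.id (SLn n K)

/-- Piece ARITH: the field elements used by the torus arguments. -/
def ArithStmt.{u} : Prop :=
  ∀ {K : Type u} [Field K] [Fintype K],
    (Fintype.card K ≠ 2 → Fintype.card K ≠ 4 → ∃ r : K, r ≠ 0 ∧ r ^ 3 ≠ 1) ∧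
    (4 ≤ Fintype.card K → ∃ r : K, r ≠ 0 ∧ r ^ 2 ≠ 1) ∧
    (Fintype.card K = 3 → (2 : K) ≠ 0)

/-- Piece STEM: `SL_n(F) → PSL_n(F)` is a stem extension with kernel cyclic of order
`gcd(n, q - 1)`. -/
def StemStmt.{u} : Prop :=
  ∀ {F : Type u} [Field F] [Fintype F] (n : ℕ), 2 ≤ n → (n = 2 → 4 ≤ Fintype.card F) →
    Cfsg.IsStemExtension (QuotientGroup.mk' (center (SLn n F))) ∧
    Nonempty ((QuotientGroup.mk' (center (SLn n F))).ker ≃*
      Multiplicative (ZMod (Nat.gcd n (Fintype.card F - 1))))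

end Cfsg.Agent.H91.SM
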