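import Cfsg.Agent.H42.UnDefs

/-!
# S5954 team project (helper42), piece UN-SQRT

In a field with `q ^ 2` elements, `q` odd, every element of norm one (`z ^ (q + 1) = 1`) is a
square (Euler's criterion).
-/

set_option autoImplicit false

namespace Cfsg.Agent.H91.Un

universe u

theorem uSqrt : Cfsg.Agent.H42.Un.StUSqrt.{u} := by
  intro F _ _ q hF hq z hz
  have hz0 : z ≠ 0 := by
    rintro rfl
    rw [zero_pow (Nat.succ_ne_zero q)] at hz
    exact zero_ne_one hz
  have hchar : ringChar F ≠ 2 := by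
    intro h
    have := FiniteField.even_card_iff_char_two.mp h
    rw [hF] at this
    obtain ⟨k, rfl⟩ := hq
    have h2 : (2 * k + 1) ^ 2 = 2 * (2 * k ^ 2 + 2 * k) + 1 := by ring
    omega
  have hsq : IsSquare z := by
    rw [FiniteField.isSquare_iff hchar hz0, hF]
    obtain ⟨k, rfl⟩ := hq
    have h2 : (2 * k + 1) ^ 2 / 2 = (2 * k + 1 + 1) * k := by
      have : (2 * k + 1) ^ 2 = 2 * ((2 * k + 1 + 1) * k) + 1 := by ring
      omega
    rw [h2, pow_mul, hz, one_pow]
  obtain ⟨ν, hν⟩ := hsq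
  exact ⟨ν, hν.symm⟩

example : Cfsg.Agent.H42.Un.StUSqrt.{u} := uSqrt

end Cfsg.Agent.H91.Un
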