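import Mathlib
import Cfsg.Prelude.Def_GeometricClasses

/-!
# S5876 team project (helper17), piece S5876-P1

A `G`-orbit of pairwise orthogonal nonzero idempotents (`G` irreducible) gives an
`m`-decomposition stabilized by `G`.
-/

set_option autoImplicit false

open Matrix

namespace Cfsg.Agent.H91.Fp

/-- the image of the range of `M` under `g` is the range of `g M g⁻¹` -/
theorem range_conj {F : Type*} [Field F] {n : ℕ} (g : GL (Fin n) F)
    (M : Matrix (Fin n) (Fin n) F) :
    (LinearMap.range (Matrix.toLin' M)).map (Matrix.toLin' (g : Matrix (Fin n) (Fin n) F)) =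
      LinearMap.range (Matrix.toLin' ((g : Matrix (Fin n) (Fin n) F) * M *
        ((g⁻¹ : GL (Fin n) F) : Matrix (Fin n) (Fin n) F))) := by
  rw [Matrix.toLin'_mul, Matrix.toLin'_mul, ← LinearMap.range_comp]
  have hs : LinearMap.range
      (Matrix.toLin' ((g⁻¹ : GL (Fin n) F) : Matrix (Fin n) (Fin n) F)) = ⊤ := by
    rw [LinearMap.range_eq_top]
    intro v
    refine ⟨Matrix.toLin' (g : Matrix (Fin n) (Fin n) F) v, ?_⟩
    rw [← LinearMap.comp_apply, ← Matrix.toLin'_mul, ← Units.val_mul, inv_mul_cancel,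
      Units.val_one, Matrix.toLin'_one]
    rfl
  rw [LinearMap.range_comp_of_range_eq_top _ hs]

theorem toLin'_unit_injective {F : Type*} [Field F] {n : ℕ} (g : GL (Fin n) F) :
    Function.Injective (Matrix.toLin' (g : Matrix (Fin n) (Fin n) F)) := by
  have hl : Function.LeftInverse
      (Matrix.toLin' ((g⁻¹ : GL (Fin n) F) : Matrix (Fin n) (Fin n) F))
      (Matrix.toLin' (g : Matrix (Fin n) (Fin n) F)) := by
    intro v
    rw [← LinearMap.comp_apply, ← Matrix.toLin'_mul, ← Units.val_mul, inv_mul_cancel,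
      Units.val_one, Matrix.toLin'_one]
    rfl
  exact hl.injective

theorem orbit_decomposition {F : Type*} [Field F] {n : ℕ} (G : Subgroup (GL (Fin n) F))
    (hirr : Cfsg.Geo.ActsIrreducibly (Cfsg.Geo.matrixSet G))
    {t : ℕ} (ht : 2 ≤ t) (e : Fin t → Matrix (Fin n) (Fin n) F)
    (hidem : ∀ i, e i * e i = e i) (hne : ∀ i, e i ≠ 0)
    (horth : ∀ i j, i ≠ j → e i * e j = 0)
    (htrans : ∀ i j, ∃ g ∈ G, (g : Matrix (Fin n) (Fin n) F) * e i *
        ((g⁻¹ : GL (Fin n) F) : Matrix (Fin n) (Fin n) F) = e j)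
    (hperm : ∀ g ∈ G, ∀ i, ∃ j, (g : Matrix (Fin n) (Fin n) F) * e i *
        ((g⁻¹ : GL (Fin n) F) : Matrix (Fin n) (Fin n) F) = e j) :
    ∃ m : ℕ, Cfsg.Geo.IsMDecomposition m (fun i => LinearMap.range (Matrix.toLin' (e i))) ∧
      G ≤ Cfsg.Geo.decompositionStabilizer (fun i => LinearMap.range (Matrix.toLin' (e i))) := by
  classical
  obtain ⟨D, hD⟩ : ∃ D : Fin t → Submodule F (Fin n → F),
      D = fun i => LinearMap.range (Matrix.toLin' (e i)) := ⟨_, rfl⟩
  have hDi : ∀ i, D i = LinearMap.range (Matrix.toLin' (e i)) := fun i => by rw [hD]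
  rw [← hD]
  -- images under `g`
  have hmap : ∀ (g : GL (Fin n) F) (i j : Fin t),
      (g : Matrix (Fin n) (Fin n) F) * e i *
        ((g⁻¹ : GL (Fin n) F) : Matrix (Fin n) (Fin n) F) = e j →
      (D i).map (Matrix.toLin' (g : Matrix (Fin n) (Fin n) F)) = D j := by
    intro g i j h
    rw [hDi, hDi, range_conj, h]
  have hDne : ∀ i, D i ≠ ⊥ := by
    intro i h
    rw [hDi, LinearMap.range_eq_bot] at h
    apply hne i
    have h2 : Matrix.toLin' (e i) = Matrix.toLin' (0 : Matrix (Fin n) (Fin n) F) := by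
      rw [h, map_zero]
    exact Matrix.toLin'.injective h2
  have hfix : ∀ i, ∀ x ∈ D i, Matrix.toLin' (e i) x = x := by
    intro i x hx
    rw [hDi] at hx
    obtain ⟨w, rfl⟩ := hx
    rw [← LinearMap.comp_apply, ← Matrix.toLin'_mul, hidem]
  have hkill : ∀ i j, i ≠ j → D j ≤ LinearMap.ker (Matrix.toLin' (e i)) := by
    intro i j hij x hx
    rw [hDi] at hx
    obtain ⟨w, rfl⟩ := hx
    rw [LinearMap.mem_ker, ← LinearMap.comp_apply, ← Matrix.toLin'_mul, horth i j hij,
      map_zero, LinearMap.zero_apply]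
  have hinj : Function.Injective e := by
    intro i j hij
    by_contra hne'
    apply hne i
    have h1 := horth i j hne'
    rw [← hij, hidem] at h1
    exact h1
  obtain ⟨i₀⟩ : Nonempty (Fin t) := ⟨⟨0, by omega⟩⟩
  refine ⟨Module.finrank F (D i₀), ⟨ht, ?_, ?_, ?_, ?_⟩, ?_⟩
  · -- pos
    apply Nat.pos_of_ne_zero
    intro h
    exact hDne i₀ (Submodule.finrank_eq_zero.mp h)
  · -- finrank_eq
    intro i
    obtain ⟨g, -, hg⟩ := htrans i₀ i
    rw [← hmap g i₀ i hg]
    exact (LinearEquiv.finrank_eq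
      (Submodule.equivMapOfInjective _ (toLin'_unit_injective g) (D i₀))).symm
  · -- indep
    intro i
    rw [Submodule.disjoint_def]
    intro x hx hx'
    have h1 : (⨆ j, ⨆ (_ : j ≠ i), D j) ≤ LinearMap.ker (Matrix.toLin' (e i)) :=
      iSup₂_le fun j hj => hkill i j (Ne.symm hj)
    have h2 := h1 hx'
    rw [LinearMap.mem_ker, hfix i x hx] at h2
    exact h2
  · -- iSup_eq_top
    have hinv : ∀ s ∈ Cfsg.Geo.matrixSet G, (iSup D).map (Matrix.toLin' s) ≤ iSup D := by
      rintro s ⟨g, hg, rfl⟩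
      rw [Submodule.map_iSup]
      apply iSup_le
      intro i
      obtain ⟨j, hj⟩ := hperm g hg i
      rw [hmap g i j hj]
      exact le_iSup D j
    rcases hirr (iSup D) hinv with h | h
    · exfalso
      apply hDne i₀
      rw [eq_bot_iff, ← h]
      exact le_iSup D i₀
    · exact h
  · -- stabilizer
    intro g hg
    obtain ⟨σf, hσf⟩ : ∃ σf : Fin t → Fin t, ∀ i, (g : Matrix (Fin n) (Fin n) F) * e i *
        ((g⁻¹ : GL (Fin n) F) : Matrix (Fin n) (Fin n) F) = e (σf i) :=
      ⟨fun i => Classical.choose (hperm g hg i), fun i => Classical.choose_spec (hperm g hg i)⟩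
    have hσinj : Function.Injective σf := by
      intro i j hij
      apply hinj
      have h1 : (g : Matrix (Fin n) (Fin n) F) * e i *
          ((g⁻¹ : GL (Fin n) F) : Matrix (Fin n) (Fin n) F) =
          (g : Matrix (Fin n) (Fin n) F) * e j *
          ((g⁻¹ : GL (Fin n) F) : Matrix (Fin n) (Fin n) F) := by
        rw [hσf i, hσf j, hij]
      have h2 : ((g⁻¹ : GL (Fin n) F) : Matrix (Fin n) (Fin n) F) *
          (g : Matrix (Fin n) (Fin n) F) = 1 := by
        rw [← Units.val_mul, inv_mul_cancel, Units.val_one]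
      have h3 : ∀ M : Matrix (Fin n) (Fin n) F,
          ((g⁻¹ : GL (Fin n) F) : Matrix (Fin n) (Fin n) F) *
            ((g : Matrix (Fin n) (Fin n) F) * M *
              ((g⁻¹ : GL (Fin n) F) : Matrix (Fin n) (Fin n) F)) *
            (g : Matrix (Fin n) (Fin n) F) = M := by
        intro M
        calc ((g⁻¹ : GL (Fin n) F) : Matrix (Fin n) (Fin n) F) *
            ((g : Matrix (Fin n) (Fin n) F) * M *
              ((g⁻¹ : GL (Fin n) F) : Matrix (Fin n) (Fin n) F)) *
            (g : Matrix (Fin n) (Fin n) F)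
            = (((g⁻¹ : GL (Fin n) F) : Matrix (Fin n) (Fin n) F) *
                (g : Matrix (Fin n) (Fin n) F)) * M *
              (((g⁻¹ : GL (Fin n) F) : Matrix (Fin n) (Fin n) F) *
                (g : Matrix (Fin n) (Fin n) F)) := by
              simp only [Matrix.mul_assoc]
          _ = M := by rw [h2, Matrix.one_mul, Matrix.mul_one]
      rw [← h3 (e i), h1, h3]
    obtain ⟨σ, hσ⟩ : ∃ σ : Equiv.Perm (Fin t), ∀ i, σ i = σf i :=
      ⟨Equiv.ofBijective σf (Finite.injective_iff_bijective.mp hσinj), fun i => rfl⟩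
    refine ⟨σ, fun i => ?_⟩
    rw [hσ i]
    exact hmap g i (σf i) (hσf i)

end Cfsg.Agent.H91.Fp
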