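import Mathlib
import Cfsg.Agent.H86.Ev2Defs

/-!
# EV2-UNIP (helper91, for helper86's EV2 sub-project): shared base

Unipotent isometries `T` (`N = T - 1`, `N ^ 3 = 0`) of a symmetric bilinear form and invariant
nondegenerate subspaces `W`:

* `W' = perp B W` is an invariant complement (`isCompl_perp'`, `perp_inv`);
* `rank (N | W)` is even (`rank_even`: `2 N - N²` is `B`-skew with the same kernel as `N`, and a
  nondegenerate alternating form lives on a space of even dimension, `alt_even`);
* the ranks of `N` and `N²` are additive over `V = W ⊕ W'` (`rank_add`) and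
  `2 rank (N | W) ≤ dim W + rank (N² | W)` (`b1_nonneg`).

`unip_key` packages the resulting numerical facts.
-/

set_option autoImplicit false

namespace Cfsg.Agent.H91.Ev2

open Cfsg.Agent.H45 Module

universe u v

section Base

variable {F : Type u} [Field F] {V : Type v} [AddCommGroup V] [Module F V]

/-- A nondegenerate skew-symmetric form (characteristic `≠ 2`) lives on a space of even
dimension. -/
theorem alt_even (h2 : (2 : F) ≠ 0) {U : Type*} [AddCommGroup U] [Module F U]
    [FiniteDimensional F U] (A : U →ₗ[F] U →ₗ[F] F) (hskew : ∀ x y, A x y = -A y x)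
    (hnd : ∀ x, (∀ y, A y x = 0) → x = 0) : Even (finrank F U) := by
  classical
  let b : Basis (Fin (finrank F U)) F U := Module.finBasis F U
  let G : Matrix (Fin (finrank F U)) (Fin (finrank F U)) F := Matrix.of fun i j => A (b i) (b j)
  have hGT : G.transpose = -G := by
    ext i j
    simp only [Matrix.transpose_apply, Matrix.neg_apply, G, Matrix.of_apply]
    exact hskew (b j) (b i)
  have hdet : G.det ≠ 0 := by
    intro h0
    obtain ⟨c, hc0, hc⟩ := Matrix.exists_mulVec_eq_zero_iff.mpr h0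
    apply hc0
    have hbi : ∀ i, A (b i) (∑ j, c j • b j) = 0 := by
      intro i
      have h1 := congrFun hc i
      simp only [Matrix.mulVec, dotProduct, G, Matrix.of_apply, Pi.zero_apply] at h1
      rw [map_sum, ← h1]
      apply Finset.sum_congr rfl
      intro j _
      rw [map_smul, smul_eq_mul, mul_comm]
    have hx : (∑ j, c j • b j) = 0 := by
      apply hnd
      intro y
      have hy : ∀ z, (∀ i, A (b i) z = 0) → A y z = 0 := by
        intro z hz
        rw [← b.sum_repr y, map_sum, LinearMap.sum_apply]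
        apply Finset.sum_eq_zero
        intro i _
        rw [map_smul, LinearMap.smul_apply, hz i, smul_zero]
      exact hy _ hbi
    have hli := Fintype.linearIndependent_iff.mp b.linearIndependent c hx
    funext i
    exact hli i
  have h1 : G.det = (-1) ^ (finrank F U) * G.det := by
    conv_lhs => rw [← Matrix.det_transpose, hGT, Matrix.det_neg, Fintype.card_fin]
  by_contra hodd
  rw [Nat.not_even_iff_odd] at hodd
  rw [Odd.neg_one_pow hodd] at h1
  have h3 : (2 : F) * G.det = 0 := by linear_combination h1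
  rcases mul_eq_zero.mp h3 with h | h
  · exact h2 h
  · exact hdet h

/-- Rank-nullity for the restriction of `f` to `W`. -/
theorem rn [FiniteDimensional F V] (f : Module.End F V) (W : Submodule F V) :
    finrank F (W.map f) + finrank F (W ⊓ LinearMap.ker f : Submodule F V) = finrank F W := by
  have h1 := LinearMap.finrank_range_add_finrank_ker (f.comp W.subtype)
  have h2 : LinearMap.range (f.comp W.subtype) = W.map f := by
    rw [LinearMap.range_comp, Submodule.range_subtype]
  have h3 : finrank F (LinearMap.ker (f.comp W.subtype)) =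
      finrank F (W ⊓ LinearMap.ker f : Submodule F V) := by
    rw [LinearMap.ker_comp, ← Submodule.map_comap_subtype, Submodule.finrank_map_subtype_eq]
  rw [h2, h3] at h1
  exact h1

/-- The number of Jordan blocks of size one of `N | W` is nonnegative. -/
theorem b1_nonneg [FiniteDimensional F V] (N : Module.End F V) (W : Submodule F V)
    (hW : ∀ x ∈ W, N x ∈ W) :
    2 * finrank F (W.map N) ≤ finrank F W + finrank F (W.map (N * N)) := by
  have h1 := rn N W
  have h2 := rn N (W.map N)
  have h3 : (W.map N).map N = W.map (N * N) := by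
    rw [Module.End.mul_eq_comp, Submodule.map_comp]
  have h4 : W.map N ≤ W := by
    rintro _ ⟨x, hx, rfl⟩
    exact hW x hx
  have h5 : finrank F (W.map N ⊓ LinearMap.ker N : Submodule F V) ≤
      finrank F (W ⊓ LinearMap.ker N : Submodule F V) :=
    Submodule.finrank_mono (inf_le_inf_right _ h4)
  rw [h3] at h2
  omega

/-- The rank is additive over a decomposition into invariant complements. -/
theorem rank_add [FiniteDimensional F V] (f : Module.End F V) (W W' : Submodule F V)
    (hc : IsCompl W W') (hW : ∀ x ∈ W, f x ∈ W) (hW' : ∀ x ∈ W', f x ∈ W') :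
    finrank F (LinearMap.range f) = finrank F (W.map f) + finrank F (W'.map f) := by
  have h1 : W.map f ⊔ W'.map f = LinearMap.range f := by
    rw [← Submodule.map_sup, hc.sup_eq_top, Submodule.map_top]
  have h2 : W.map f ⊓ W'.map f = ⊥ := by
    rw [eq_bot_iff]
    have hle : W.map f ⊓ W'.map f ≤ W ⊓ W' := by
      apply inf_le_inf
      · rintro _ ⟨x, hx, rfl⟩
        exact hW x hx
      · rintro _ ⟨x, hx, rfl⟩
        exact hW' x hx
    rw [hc.inf_eq_bot] at hle
    exact hle
  have h3 := Submodule.finrank_sup_add_finrank_inf_eq (W.map f) (W'.map f)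
  rw [h1, h2, finrank_bot, add_zero] at h3
  exact h3

/-- A nondegenerate subspace is complemented by its orthogonal (any field). -/
theorem isCompl_perp' [FiniteDimensional F V] (B : V →ₗ[F] V →ₗ[F] F) (W : Submodule F V)
    (hW : W ⊓ perp B W = ⊥) : IsCompl W (perp B W) := by
  refine ⟨disjoint_iff.mpr hW, codisjoint_iff.mpr ?_⟩
  let φ : V →ₗ[F] Module.Dual F W := (B.domRestrict W).flip
  have hφ : ∀ (y : V) (u : W), φ y u = B (u : V) y := fun y u => rfl
  have hker : LinearMap.ker φ = perp B W := by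
    ext y
    rw [LinearMap.mem_ker, mem_perp]
    constructor
    · intro h u hu
      have h1 := LinearMap.congr_fun h ⟨u, hu⟩
      rw [hφ] at h1
      exact h1
    · intro h
      apply LinearMap.ext
      intro u
      rw [hφ]
      exact h u u.2
  have h1 := LinearMap.finrank_range_add_finrank_ker φ
  have h2 : finrank F (LinearMap.range φ) ≤ finrank F W := by
    calc finrank F (LinearMap.range φ) ≤ finrank F (Module.Dual F W) := Submodule.finrank_le _
      _ = finrank F W := Subspace.dual_finrank_eq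
  rw [hker] at h1
  have h3 := Submodule.finrank_sup_add_finrank_inf_eq W (perp B W)
  rw [hW, finrank_bot, add_zero] at h3
  have h4 := Submodule.finrank_le (W ⊔ perp B W)
  apply Submodule.eq_top_of_finrank_eq
  omega

variable (B : V →ₗ[F] V →ₗ[F] F) (T : Module.End F V)

/-- The adjoint of `N = T - 1` is `N² - N`. -/
theorem adjN (hiso : ∀ x y, B (T x) (T y) = B x y)
    (hN3 : ∀ z, (T - 1) ((T - 1) ((T - 1) z)) = 0) (x y : V) :
    B ((T - 1) x) y = B x ((T - 1) ((T - 1) y)) - B x ((T - 1) y) := by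
  have hT : ∀ z, T z = (T - 1) z + z := by
    intro z
    simp
  have hS : T (y - (T - 1) y + (T - 1) ((T - 1) y)) = y := by
    rw [hT, map_add, map_sub, hN3]
    abel
  have h1 : B (T x) y = B x (y - (T - 1) y + (T - 1) ((T - 1) y)) := by
    conv_lhs => rw [← hS]
    exact hiso _ _
  have h2 : (T - 1) x = T x - x := by simp
  rw [h2, map_sub, LinearMap.sub_apply, h1, map_add, map_sub]
  abel

/-- `N²` is self-adjoint. -/
theorem adjN2 (hiso : ∀ x y, B (T x) (T y) = B x y)
    (hN3 : ∀ z, (T - 1) ((T - 1) ((T - 1) z)) = 0) (x y : V) :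
    B ((T - 1) ((T - 1) x)) y = B x ((T - 1) ((T - 1) y)) := by
  rw [adjN B T hiso hN3 ((T - 1) x) y, adjN B T hiso hN3 x ((T - 1) ((T - 1) y)),
    adjN B T hiso hN3 x ((T - 1) y), hN3, hN3]
  simp

/-- The orthogonal of an `N`-invariant subspace is `N`-invariant. -/
theorem perp_inv (hsym : ∀ x y, B x y = B y x) (hiso : ∀ x y, B (T x) (T y) = B x y)
    (hN3 : ∀ z, (T - 1) ((T - 1) ((T - 1) z)) = 0) (W : Submodule F V)
    (hW : ∀ x ∈ W, (T - 1) x ∈ W) : ∀ y ∈ perp B W, (T - 1) y ∈ perp B W := by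
  intro y hy u hu
  rw [hsym, adjN B T hiso hN3, hsym y, hsym y, hy _ (hW _ (hW u hu)), hy _ (hW u hu), sub_zero]

/-- On an invariant nondegenerate subspace, `N` has even rank. -/
theorem rank_even [FiniteDimensional F V] (h2 : (2 : F) ≠ 0) (hsym : ∀ x y, B x y = B y x)
    (hiso : ∀ x y, B (T x) (T y) = B x y)
    (hN3 : ∀ z, (T - 1) ((T - 1) ((T - 1) z)) = 0) (W : Submodule F V)
    (hW : ∀ x ∈ W, (T - 1) x ∈ W) (hnd : W ⊓ perp B W = ⊥) :
    Even (finrank F (W.map (T - 1))) := by
  classical
  let M : Module.End F V := (2 : F) • (T - 1) - (T - 1) * (T - 1)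
  have hM : ∀ z, M z = (2 : F) • (T - 1) z - (T - 1) ((T - 1) z) := fun z => rfl
  have hskew : ∀ x y, B (M x) y = -B x (M y) := by
    intro x y
    rw [hM, hM, map_sub, LinearMap.sub_apply, map_smul, LinearMap.smul_apply,
      adjN B T hiso hN3, adjN2 B T hiso hN3, map_sub, map_smul, smul_eq_mul, smul_eq_mul]
    ring
  have hker : ∀ z, M z = 0 → (T - 1) z = 0 := by
    intro z hz
    rw [hM, sub_eq_zero] at hz
    have h1 : (2 : F) • (T - 1) ((T - 1) z) = 0 := by
      rw [← map_smul, hz, hN3]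
    have h3 : (T - 1) ((T - 1) z) = 0 := by
      rcases smul_eq_zero.mp h1 with h | h
      · exact absurd h h2
      · exact h
    rw [h3] at hz
    rcases smul_eq_zero.mp hz with h | h
    · exact absurd h h2
    · exact h
  have hkerN : ∀ z, (T - 1) z = 0 → M z = 0 := by
    intro z hz
    rw [hM, hz, map_zero, smul_zero, sub_zero]
  obtain ⟨C₀, hC₀⟩ := Submodule.exists_isCompl (W ⊓ LinearMap.ker (T - 1))
  have hKC : (W ⊓ LinearMap.ker (T - 1)) ⊔ (W ⊓ C₀) = W := by
    rw [inf_comm W C₀, ← sup_inf_assoc_of_le C₀ (inf_le_left : W ⊓ LinearMap.ker (T - 1) ≤ W),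
      hC₀.sup_eq_top, top_inf_eq]
  have hKC' : (W ⊓ LinearMap.ker (T - 1)) ⊓ (W ⊓ C₀) = ⊥ := by
    rw [eq_bot_iff, ← hC₀.inf_eq_bot]
    exact inf_le_inf_left _ inf_le_right
  have hdim : finrank F (W ⊓ C₀ : Submodule F V) = finrank F (W.map (T - 1)) := by
    have h1 := Submodule.finrank_sup_add_finrank_inf_eq (W ⊓ LinearMap.ker (T - 1)) (W ⊓ C₀)
    rw [hKC, hKC', finrank_bot, add_zero] at h1
    have h3 := rn (T - 1) W
    omega
  rw [← hdim]
  let A : (W ⊓ C₀ : Submodule F V) →ₗ[F] (W ⊓ C₀ : Submodule F V) →ₗ[F] F :=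
    B.compl₁₂ (W ⊓ C₀).subtype (M.comp (W ⊓ C₀).subtype)
  have hA : ∀ x y : (W ⊓ C₀ : Submodule F V), A x y = B (x : V) (M (y : V)) := fun x y => rfl
  apply alt_even h2 A
  · intro x y
    rw [hA, hA, hsym (y : V) (M (x : V)), hskew, neg_neg]
  · intro x hx
    have hxW : (x : V) ∈ W := (inf_le_left : W ⊓ C₀ ≤ W) x.2
    have hMW : M (x : V) ∈ W := by
      rw [hM]
      exact W.sub_mem (W.smul_mem _ (hW _ hxW)) (hW _ (hW _ hxW))
    have hMp : M (x : V) ∈ perp B W := by
      intro u hu
      rw [← hKC] at hu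
      obtain ⟨k, hk, c, hc, rfl⟩ := Submodule.mem_sup.mp hu
      rw [map_add, LinearMap.add_apply]
      have h1 : B k (M (x : V)) = 0 := by
        have hk0 : (T - 1) k = 0 := LinearMap.mem_ker.mp hk.2
        rw [hsym, hskew, hkerN k hk0, map_zero, neg_zero]
      have h3 : B c (M (x : V)) = 0 := hx ⟨c, hc⟩
      rw [h1, h3, add_zero]
    have h0 : M (x : V) = 0 := by
      have h4 : M (x : V) ∈ W ⊓ perp B W := ⟨hMW, hMp⟩
      rw [hnd] at h4
      exact (Submodule.mem_bot F).mp h4
    have hxK : (x : V) ∈ (W ⊓ LinearMap.ker (T - 1)) ⊓ (W ⊓ C₀) :=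
      ⟨⟨hxW, LinearMap.mem_ker.mpr (hker _ h0)⟩, x.2⟩
    rw [hKC'] at hxK
    exact Subtype.ext ((Submodule.mem_bot F).mp hxK)

/-- The numerical facts behind EV2-UNIP1/2/3. -/
theorem unip_key [FiniteDimensional F V] (h2 : (2 : F) ≠ 0) (hsym : ∀ x y, B x y = B y x)
    (hiso : ∀ x y, B (T x) (T y) = B x y)
    (hN3 : ∀ z, (T - 1) ((T - 1) ((T - 1) z)) = 0) (W : Submodule F V)
    (hW : W ∈ T.invtSubmodule) (hnd : W ⊓ perp B W = ⊥) :
    ∃ r1 r2 r1' r2' d' : ℕ, finrank F W + d' = finrank F V ∧
      r1 + r1' = finrank F (LinearMap.range (T - 1)) ∧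
      r2 + r2' = finrank F (LinearMap.range ((T - 1) * (T - 1))) ∧
      2 * r1 ≤ finrank F W + r2 ∧ 2 * r1' ≤ d' + r2' ∧ Even r1 ∧
      r2 ≤ finrank F (LinearMap.range ((T - 1) * (T - 1))) := by
  have hWT : ∀ x ∈ W, T x ∈ W := (Module.End.mem_invtSubmodule_iff_forall_mem_of_mem T).mp hW
  have hWN : ∀ x ∈ W, (T - 1) x ∈ W := by
    intro x hx
    have h1 : (T - 1) x = T x - x := by simp
    rw [h1]
    exact W.sub_mem (hWT x hx) hx
  have hW'N : ∀ y ∈ perp B W, (T - 1) y ∈ perp B W := perp_inv B T hsym hiso hN3 W hWN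
  have hc := isCompl_perp' B W hnd
  have hWNN : ∀ x ∈ W, ((T - 1) * (T - 1)) x ∈ W := fun x hx => hWN _ (hWN x hx)
  have hW'NN : ∀ y ∈ perp B W, ((T - 1) * (T - 1)) y ∈ perp B W :=
    fun y hy => hW'N _ (hW'N y hy)
  have hadd := rank_add ((T - 1) * (T - 1)) W _ hc hWNN hW'NN
  refine ⟨finrank F (W.map (T - 1)), finrank F (W.map ((T - 1) * (T - 1))),
    finrank F ((perp B W).map (T - 1)), finrank F ((perp B W).map ((T - 1) * (T - 1))),
    finrank F (perp B W), Submodule.finrank_add_eq_of_isCompl hc,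
    (rank_add (T - 1) W _ hc hWN hW'N).symm, hadd.symm,
    b1_nonneg (T - 1) W hWN, b1_nonneg (T - 1) (perp B W) hW'N,
    rank_even B T h2 hsym hiso hN3 W hWN hnd, ?_⟩
  omega

end Base

end Cfsg.Agent.H91.Ev2
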