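import Mathlib
import Cfsg.Agent.H59.JzKillDefs
import Cfsg.Agent.H52.SrDefs
import Cfsg.Agent.H82.JtDich
import Cfsg.Agent.S2950
import Cfsg.Agent.Helper55.UqBase
import Cfsg.Agent.H63.SnIfV

/-!
# K-FOUR (sub-piece of JZ-KILL, S2951 / S2952) via the `S₃^r` picture

`kFour (hSR : H52.Sr.StStruct) (hZ2 : StZ2) (hNV : StKNV) : StKFour`: the three-fold fixed-point
statement for `V = Ω₁Z(O₂(L))`, from helper52's structure statement `StStruct` (with `T := S`) and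
helper82's block core `H82.Jt.core`.  No solvability / Fitting argument is needed.
-/

set_option autoImplicit false
open Cfsg

namespace Cfsg.Agent.H91.JzK

open Cfsg.Agent.H64.Jz Cfsg.Agent.H59.JzK

universe u

/-- in a subgroup of order 2 two non-identity elements are equal -/
theorem eq_of_card_two' {G : Type u} [Group G] (H : Subgroup G) (h : Nat.card ↥H = 2) {a b : G}
    (ha : a ∈ H) (hb : b ∈ H) (ha1 : a ≠ 1) (hb1 : b ≠ 1) : a = b := by
  obtain ⟨y, -, hy⟩ := (Nat.card_eq_two_iff' (1 : ↥H)).mp h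
  have h1 : (⟨a, ha⟩ : ↥H) = y := hy _ (fun h0 => ha1 (congrArg Subtype.val h0))
  have h2 : (⟨b, hb⟩ : ↥H) = y := hy _ (fun h0 => hb1 (congrArg Subtype.val h0))
  exact congrArg Subtype.val (h1.trans h2.symm)

/-- The `S₃^r` picture in the residual situation (T = S): the hypotheses of `StStruct` hold. -/
theorem struct_of_base (hSR : Cfsg.Agent.H52.Sr.StStruct.{u}) {G : Type u} [Group G] [Finite G]
    (S : Sylow 2 G) (M K L : Subgroup G) (hB : Base S M (S : Subgroup G) K L)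
    (hcardZ : Nat.card ↥(omegaCenterOf (S : Subgroup G)) = 2) :
    L ∈ jOvergroups (S : Subgroup G) ∧
    (⨆ i : Cfsg.Agent.H52.Sr.Orb (S : Subgroup G) K, wOf i.1) = omegaCenterOf (pCoreOf 2 L) ∧
    iSupIndep (fun i : Cfsg.Agent.H52.Sr.Orb (S : Subgroup G) K => wOf i.1) ∧
    (∀ i : Cfsg.Agent.H52.Sr.Orb (S : Subgroup G) K,
      IsJComponent (S : Subgroup G) i.1 ∧ i.1 ≤ L ∧ Nat.card ↥(wOf i.1) = 4) ∧
    (∀ l ∈ L, ∀ i : Cfsg.Agent.H52.Sr.Orb (S : Subgroup G) K,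
      ∃ j : Cfsg.Agent.H52.Sr.Orb (S : Subgroup G) K,
        (wOf i.1).map (MulAut.conj l).toMonoidHom = wOf j.1) ∧
    (∀ i j : Cfsg.Agent.H52.Sr.Orb (S : Subgroup G) K, i ≠ j →
      wOf i.1 ≤ Subgroup.centralizer (j.1 : Set G)) ∧
    (∀ i : Cfsg.Agent.H52.Sr.Orb (S : Subgroup G) K,
      wOf i.1 ⊓ Subgroup.centralizer (i.1 : Set G) = ⊥) := by
  obtain ⟨⟨hL, hN, hZ⟩, hO, hM, hMJ, hSmax, -, hKout, hLmax, hKL⟩ := hB
  have hS1 : (S : Subgroup G) ≠ ⊥ := hSmax.1.2.1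
  have hS2 : IsPGroup 2 ↥(S : Subgroup G) := S.isPGroup'
  have hJc : IsJComponent (S : Subgroup G) K := hKout.1.1
  obtain ⟨L₀, hL₀max, hKJL₀, huniq, hsub, hsyl⟩ :=
    Cfsg.Agent.S2950.result hL hN hZ hO S M hM hMJ (S : Subgroup G) hSmax K hKout
  obtain ⟨L₁, hL₁max, hXL₁, hL₁M, hov, hsub₁⟩ :=
    Cfsg.Agent.Helper55.Uq.exists_max hL hN hZ S M hMJ (S : Subgroup G) hSmax K hKout
  have e1 : L = L₀ := huniq L hLmax hKL
  have e2 : L₁ = L₀ := huniq L₁ hL₁max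
    ((sup_le_sup_left (Cfsg.Agent.Helper55.ThJ.J_le _) K).trans hXL₁)
  have hovL : L ∈ jOvergroups (S : Subgroup G) := by
    rw [e1, ← e2]
    exact hov
  have hKleL : K ≤ L := le_sup_left.trans hKL
  have hfix : ∀ v ∈ omegaCenterOf (pCoreOf 2 L),
      v ∈ Subgroup.centralizer ((S : Subgroup G) : Set G) →
      v ∈ Subgroup.centralizer (K : Set G) → v = 1 := by
    intro v hv hvS hvK
    by_contra hv1
    obtain ⟨hvO, -, hv2⟩ := Cfsg.Agent.H63.Sn.mem_omegaCenterOf _ hv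
    have hvS' : v ∈ (S : Subgroup G) :=
      Cfsg.Agent.Helper55.J48.pCoreOf_le_of_sylowIn hovL.1 hvO
    have hvZ : v ∈ omegaCenterOf (S : Subgroup G) :=
      Cfsg.Agent.H63.Sn.omegaCenterOf_mem _ hvS' hvS hv2
    have hKC : K ≤ Subgroup.centralizer (omegaCenterOf (S : Subgroup G) : Set G) := by
      intro k hk
      rw [Subgroup.mem_centralizer_iff]
      intro x hx
      by_cases hx1 : x = 1
      · rw [hx1, one_mul, mul_one]
      · have hxv : x = v := eq_of_card_two' _ hcardZ hx hvZ hx1 hv1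
        rw [hxv]
        exact ((Subgroup.mem_centralizer_iff.mp hvK) k hk).symm
    exact hKout.2.1 (hKC.trans ((hZ S).trans
      ((Cfsg.Agent.Helper55.ThJ.normalizer_le _).trans hMJ)))
  exact ⟨hovL, hSR hL hN hZ (S : Subgroup G) hS2 hS1 L hovL K hJc hKleL hfix⟩

/-- K-FOUR, from the structure statement. -/
theorem kFour (hSR : Cfsg.Agent.H52.Sr.StStruct.{u}) (hZ2 : StZ2.{u}) (hNV : StKNV.{u}) :
    StKFour.{u} := by
  intro G _ _ S M K L T' K' L' hR b₁ hb₁ b₂ hb₂ hb₁2 hb₂2 hcomm hfixeq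
  have hNVeq : Subgroup.normalizer (Vof L : Set G) = L := hNV S M K L T' K' L' hR
  obtain ⟨hB, -, hB', hT'⟩ := hR
  have hcardZ : Nat.card ↥(omegaCenterOf (S : Subgroup G)) = 2 := hZ2 S L T' K' L' hB' hT'
  obtain ⟨-, hsup, hind, hcomp, hperm, -, -⟩ := struct_of_base hSR S M K L hB hcardZ
  have hb₁L : b₁ ∈ L := hNVeq ▸ hb₁
  have hb₂L : b₂ ∈ L := hNVeq ▸ hb₂
  have hV2 : ∀ v ∈ Vof L, v * v = 1 := by
    intro v hv
    have h := (Cfsg.Agent.H63.Sn.mem_omegaCenterOf _ hv).2.2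
    rwa [pow_two] at h
  have hWV : ∀ i : Cfsg.Agent.H52.Sr.Orb (S : Subgroup G) K, wOf i.1 ≤ Vof L := by
    intro i
    have h := le_iSup (fun i : Cfsg.Agent.H52.Sr.Orb (S : Subgroup G) K => wOf i.1) i
    rw [hsup] at h
    exact h
  have hblk : ∀ l ∈ L, ∀ i : Cfsg.Agent.H52.Sr.Orb (S : Subgroup G) K,
      ∃ j : Cfsg.Agent.H52.Sr.Orb (S : Subgroup G) K, ∀ w ∈ wOf i.1, l * w * l⁻¹ ∈ wOf j.1 := by
    intro l hl i
    obtain ⟨j, hj⟩ := hperm l hl i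
    refine ⟨j, ?_⟩
    intro w hw
    rw [← hj]
    exact ⟨w, hw, by simp [MulAut.conj_apply]⟩
  have hiff : ∀ v ∈ Vof L,
      (b₁ * v = v * b₁ ↔ v ∈ Vof L ⊓ Subgroup.centralizer ({b₁} : Set G)) := by
    intro v hv
    constructor
    · intro e
      refine Subgroup.mem_inf.mpr ⟨hv, ?_⟩
      rw [Subgroup.mem_centralizer_iff]
      intro h hh
      rw [Set.mem_singleton_iff.mp hh]
      exact e
    · intro h
      exact (Subgroup.mem_centralizer_iff.mp (Subgroup.mem_inf.mp h).2) b₁ (Set.mem_singleton b₁)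
  have hsq : b₂ * b₁ * (b₂ * b₁) = 1 := by
    calc b₂ * b₁ * (b₂ * b₁) = b₂ * (b₁ * b₂) * b₁ := by group
      _ = b₂ * (b₂ * b₁) * b₁ := by rw [hcomm]
      _ = (b₂ * b₂) * (b₁ * b₁) := by group
      _ = 1 := by rw [hb₁2, hb₂2, one_mul]
  have hcore := Cfsg.Agent.H82.Jt.core (Vof L) (Vof L ⊓ Subgroup.centralizer ({b₁} : Set G))
    (fun i : Cfsg.Agent.H52.Sr.Orb (S : Subgroup G) K => wOf i.1) hV2 hWV hind
    (fun i => (hcomp i).2.2) b₁ b₂ (by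
      intro u hu
      rcases hu with rfl | rfl | rfl
      · exact ⟨hb₁2, hblk _ hb₁L, hiff⟩
      · exact ⟨hb₂2, hblk _ hb₂L, fun v hv => ((hfixeq v hv).1).symm.trans (hiff v hv)⟩
      · refine ⟨hsq, hblk _ (L.mul_mem hb₂L hb₁L), fun v hv => ?_⟩
        rw [← hcomm]
        exact ((hfixeq v hv).2).symm.trans (hiff v hv))
  left
  rw [Subgroup.mem_centralizer_iff]
  intro v hv
  have hvV : v ∈ Vof L := hv
  have hle : Vof L ≤ Vof L ⊓ Subgroup.centralizer ({b₁} : Set G) := by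
    have h : (⨆ i : Cfsg.Agent.H52.Sr.Orb (S : Subgroup G) K, wOf i.1) ≤
        Vof L ⊓ Subgroup.centralizer ({b₁} : Set G) := iSup_le hcore
    rw [hsup] at h
    exact h
  exact ((hiff v hvV).mpr (hle hvV)).symm

example (hSR : Cfsg.Agent.H52.Sr.StStruct.{u}) (hZ2 : StZ2.{u}) (hNV : StKNV.{u}) :
    ∀ {G : Type u} [Group G] [Finite G] (S : Sylow 2 G)
    (M K L T' K' L' : Subgroup G), RCtx S M K L T' K' L' →
  ∀ b₁ ∈ Subgroup.normalizer (Vof L : Set G), ∀ b₂ ∈ Subgroup.normalizer (Vof L : Set G),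
    b₁ * b₁ = 1 → b₂ * b₂ = 1 → b₁ * b₂ = b₂ * b₁ →
    (∀ v ∈ Vof L, (b₁ * v = v * b₁ ↔ b₂ * v = v * b₂) ∧
      (b₁ * v = v * b₁ ↔ (b₁ * b₂) * v = v * (b₁ * b₂))) →
    b₁ ∈ Subgroup.centralizer (Vof L : Set G) ∨ b₂ ∈ Subgroup.centralizer (Vof L : Set G) ∨
      b₁ * b₂ ∈ Subgroup.centralizer (Vof L : Set G) := kFour hSR hZ2 hNV

end Cfsg.Agent.H91.JzK
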