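import Mathlib
import Cfsg.Agent.H91.JkFour

/-!
# K-CARD (sub-piece of JZ-KILL, S2951 / S2952) via the `S₃^r` picture

`kCard (hSR : H52.Sr.StStruct) (hZ2 : StZ2) : StKCard`: if `S` does not normalize `K`, the orbit
of `K` under `S` has two different members `K`, `K^s`, the four-groups `W_K`, `W_{K^s}` are
independent inside `V = Ω₁Z(O₂(L))`, so `|V| ≥ 16`.
-/

set_option autoImplicit false
open Cfsg

namespace Cfsg.Agent.H91.JzK

open Cfsg.Agent.H64.Jz Cfsg.Agent.H59.JzK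

universe u

/-- two subgroups of order 4 with trivial intersection inside a finite subgroup `V`: `|V| ≥ 16` -/
theorem card_ge_sixteen {G : Type u} [Group G] [Finite G] (V A B : Subgroup G) (hA : A ≤ V)
    (hB : B ≤ V) (hAB : A ⊓ B = ⊥) (hcA : Nat.card ↥A = 4) (hcB : Nat.card ↥B = 4) :
    16 ≤ Nat.card ↥V := by
  let f : ↥A × ↥B → ↥V := fun p => ⟨(p.1 : G) * (p.2 : G), V.mul_mem (hA p.1.2) (hB p.2.2)⟩
  have hf : Function.Injective f := by
    rintro ⟨a, b⟩ ⟨a', b'⟩ h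
    have h1 : (a : G) * (b : G) = (a' : G) * (b' : G) := congrArg Subtype.val h
    have h2 : (a' : G)⁻¹ * (a : G) = (b' : G) * (b : G)⁻¹ := by
      calc (a' : G)⁻¹ * (a : G) = (a' : G)⁻¹ * ((a : G) * (b : G)) * (b : G)⁻¹ := by group
        _ = (a' : G)⁻¹ * ((a' : G) * (b' : G)) * (b : G)⁻¹ := by rw [h1]
        _ = (b' : G) * (b : G)⁻¹ := by group
    have h3 : (a' : G)⁻¹ * (a : G) ∈ A ⊓ B := by
      refine Subgroup.mem_inf.mpr ⟨A.mul_mem (A.inv_mem a'.2) a.2, ?_⟩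
      rw [h2]
      exact B.mul_mem b'.2 (B.inv_mem b.2)
    rw [hAB, Subgroup.mem_bot] at h3
    have h4 : (a : G) = (a' : G) := by
      have := inv_mul_eq_one.mp h3
      exact this.symm
    have h5 : (b : G) = (b' : G) := by
      rw [h4] at h1
      exact mul_left_cancel h1
    exact Prod.ext (Subtype.ext h4) (Subtype.ext h5)
  have h := Nat.card_le_card_of_injective f hf
  rw [Nat.card_prod, hcA, hcB] at h
  exact h

/-- K-CARD, from the structure statement. -/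
theorem kCard (hSR : Cfsg.Agent.H52.Sr.StStruct.{u}) (hZ2 : StZ2.{u}) : StKCard.{u} := by
  intro G _ _ S M K L T' K' L' hR hn
  obtain ⟨hB, -, hB', hT'⟩ := hR
  have hcardZ : Nat.card ↥(omegaCenterOf (S : Subgroup G)) = 2 := hZ2 S L T' K' L' hB' hT'
  obtain ⟨-, hsup, hind, hcomp, -, -, -⟩ := struct_of_base hSR S M K L hB hcardZ
  obtain ⟨s, hsS, hsN⟩ := SetLike.not_le_iff_exists.mp hn
  have hne : K.map (MulAut.conj s).toMonoidHom ≠ K := by
    intro h
    apply hsN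
    rw [Subgroup.mem_normalizer_iff_map_conj_eq]
    exact h
  let i : Cfsg.Agent.H52.Sr.Orb (S : Subgroup G) K :=
    ⟨K.map (MulAut.conj (1 : G)).toMonoidHom, 1, Subgroup.one_mem _, rfl⟩
  let j : Cfsg.Agent.H52.Sr.Orb (S : Subgroup G) K :=
    ⟨K.map (MulAut.conj s).toMonoidHom, s, hsS, rfl⟩
  have hK1 : K.map (MulAut.conj (1 : G)).toMonoidHom = K := by
    ext x
    simp [Subgroup.mem_map]
  have hij : i ≠ j := by
    intro h
    have h1 : K.map (MulAut.conj (1 : G)).toMonoidHom = K.map (MulAut.conj s).toMonoidHom :=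
      congrArg Subtype.val h
    rw [hK1] at h1
    exact hne h1.symm
  have hWV : ∀ i : Cfsg.Agent.H52.Sr.Orb (S : Subgroup G) K, wOf i.1 ≤ Vof L := by
    intro i
    have h := le_iSup (fun i : Cfsg.Agent.H52.Sr.Orb (S : Subgroup G) K => wOf i.1) i
    rw [hsup] at h
    exact h
  have hdisj : wOf i.1 ⊓ wOf j.1 = ⊥ := disjoint_iff.mp (hind.pairwiseDisjoint hij)
  exact card_ge_sixteen (Vof L) (wOf i.1) (wOf j.1) (hWV i) (hWV j) hdisj (hcomp i).2.2
    (hcomp j).2.2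

example (hSR : Cfsg.Agent.H52.Sr.StStruct.{u}) (hZ2 : StZ2.{u}) :
    ∀ {G : Type u} [Group G] [Finite G] (S : Sylow 2 G)
    (M K L T' K' L' : Subgroup G), RCtx S M K L T' K' L' →
  ¬ (S : Subgroup G) ≤ Subgroup.normalizer (K : Set G) → 16 ≤ Nat.card ↥(Vof L) :=
  kCard hSR hZ2

end Cfsg.Agent.H91.JzK
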