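import Mathlib

/-!
# S2115-COUNT (helper91, for helper41): a counting lemma for perfect central quotients
-/

set_option autoImplicit false

namespace Cfsg.Agent.H91.TitsPc

theorem comm_inj {H G : Type*} [Group H] [Group G] [Finite H] (ψ : H →* G)
    (hψ : Function.Surjective ψ) (s : H →* Multiplicative (ZMod 2)) (hs : Function.Surjective s)
    (hperf : commutator G = ⊤) (hcard : Nat.card H ≤ 2 * Nat.card G) :
    ∀ e ∈ commutator H, ψ e = 1 → e = 1 := by
  have hGfin : Finite G := Finite.of_surjective ψ hψ
  -- `commutator H ≤ ker s`, and `|ker s| * 2 = |H|`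
  have hle : commutator H ≤ s.ker := Abelianization.commutator_subset_ker s
  have hidx : s.ker.index = 2 := by
    rw [Subgroup.index_ker, MonoidHom.range_eq_top.mpr hs, Subgroup.card_top]
    simp [Nat.card_eq_fintype_card]
  have hker : Nat.card s.ker * 2 = Nat.card H := by
    have h := Subgroup.card_mul_index s.ker
    rw [hidx] at h
    exact h
  have hC : Nat.card (commutator H) ≤ Nat.card G := by
    have h1 : Nat.card (commutator H) ≤ Nat.card s.ker := Subgroup.card_le_of_le hle
    omega
  -- `ψ` maps `commutator H` onto `G`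
  have hmap : (commutator H).map ψ = ⊤ := by
    rw [commutator_def, Subgroup.map_commutator, Subgroup.map_top_of_surjective ψ hψ,
      ← commutator_def, hperf]
  have hsurj : Function.Surjective (fun c : commutator H => ψ c.1) := by
    intro g
    have hg : g ∈ (commutator H).map ψ := by rw [hmap]; trivial
    obtain ⟨c, hc, rfl⟩ := Subgroup.mem_map.mp hg
    exact ⟨⟨c, hc⟩, rfl⟩
  have hbij := hsurj.bijective_of_nat_card_le hC
  intro e he he1
  have h2 : (⟨e, he⟩ : commutator H) = ⟨1, Subgroup.one_mem _⟩ := by
    apply hbij.1
    show ψ e = ψ 1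
    rw [he1, map_one]
  exact congrArg Subtype.val h2

end Cfsg.Agent.H91.TitsPc
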