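import Mathlib

/-!
# S2115-STEP (helper91, for helper41): lifting an odd dihedral relation through a central extension
-/

set_option autoImplicit false

namespace Cfsg.Agent.H91.TitsPc

theorem odd_step {Γ G : Type*} [Group Γ] [Group G] (σ : Γ →* G)
    (hc : ∀ k : Γ, σ k = 1 → ∀ g : Γ, k * g = g * k) (u v0 z : Γ) (k : ℕ)
    (hz : ∀ g : Γ, z * g = g * z) (hu : u * u = z) (hU : σ u * σ u = 1)
    (hV : σ v0 * σ v0 = 1) (hUV : (σ u * σ v0) ^ (2 * k + 1) = 1) :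
    ∃ v : Γ, σ v = σ v0 ∧ v * v = z ∧ (u * v) ^ (2 * k + 1) = z ^ (2 * k + 1) := by
  obtain ⟨s, hs⟩ : ∃ s : Γ, s = u * v0 := ⟨_, rfl⟩
  obtain ⟨v, hv⟩ : ∃ v : Γ, v = s ^ k * u * (s ^ k)⁻¹ := ⟨_, rfl⟩
  -- (1) the image of `v`
  have h1 : σ v = σ v0 := by
    obtain ⟨U, hUdef⟩ : ∃ U : G, U = σ u := ⟨_, rfl⟩
    obtain ⟨V, hVdef⟩ : ∃ V : G, V = σ v0 := ⟨_, rfl⟩
    rw [← hUdef] at hU hUV
    rw [← hVdef] at hV hUV ⊢
    obtain ⟨S, hS⟩ : ∃ S : G, S = U * V := ⟨_, rfl⟩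
    rw [← hS] at hUV
    have hUinv : U⁻¹ = U := inv_eq_of_mul_eq_one_left hU
    have hVinv : V⁻¹ = V := inv_eq_of_mul_eq_one_left hV
    have hSinv : S⁻¹ = V * U := by rw [hS, mul_inv_rev, hUinv, hVinv]
    have hsc : SemiconjBy U S S⁻¹ := by
      unfold SemiconjBy
      rw [hSinv, hS, ← mul_assoc, hU, one_mul, mul_assoc, hU, mul_one]
    have hsck : U * (S ^ k)⁻¹ = S ^ k * U := by
      have := (hsc.pow_right k).inv_right
      unfold SemiconjBy at this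
      rw [inv_pow, inv_inv] at this
      exact this
    have hS2k : S ^ k * S ^ k = S⁻¹ := by
      apply eq_inv_of_mul_eq_one_left
      rw [← pow_add, ← pow_succ]
      have e : k + k + 1 = 2 * k + 1 := by ring
      rw [e]; exact hUV
    have hσv : σ v = S ^ k * U * (S ^ k)⁻¹ := by
      rw [hv, map_mul, map_mul, map_inv, map_pow, hs, map_mul, ← hUdef, ← hVdef, ← hS]
    rw [hσv, mul_assoc, hsck, ← mul_assoc, hS2k, hSinv, mul_assoc, hU, mul_one]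
  -- (2) the square of `v`
  have h2 : v * v = z := by
    calc v * v = s ^ k * (u * u) * (s ^ k)⁻¹ := by rw [hv]; group
      _ = s ^ k * z * (s ^ k)⁻¹ := by rw [hu]
      _ = z := by rw [← hz (s ^ k)]; group
  refine ⟨v, h1, h2, ?_⟩
  -- (3) the power of `t = u * v`
  obtain ⟨t, ht⟩ : ∃ t : Γ, t = u * v := ⟨_, rfl⟩
  rw [← ht]
  obtain ⟨κ, hκ⟩ : ∃ κ : Γ, κ = t⁻¹ * s := ⟨_, rfl⟩
  have hκ1 : σ κ = 1 := by
    rw [hκ, ht, hs, map_mul, map_inv, map_mul, map_mul, h1]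
    exact inv_mul_cancel _
  have hκc : ∀ g : Γ, κ * g = g * κ := hc κ hκ1
  have hst : s = t * κ := by rw [hκ]; group
  obtain ⟨c, hcdef⟩ : ∃ c : Γ, c = κ ^ k := ⟨_, rfl⟩
  have hcc : ∀ g : Γ, c * g = g * c := by
    intro g
    have h : Commute κ g := hκc g
    rw [hcdef]
    exact h.pow_left k
  have hsk : s ^ k = t ^ k * c := by
    have h : Commute t κ := (hκc t).symm
    rw [hst, h.mul_pow, hcdef]
  have hvt : v * t ^ k = t ^ k * u := by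
    rw [hv, hsk, mul_inv_rev]
    have hcu : c * u = u * c := hcc u
    calc t ^ k * c * u * (c⁻¹ * (t ^ k)⁻¹) * t ^ k = t ^ k * (c * u) * c⁻¹ := by group
      _ = t ^ k * (u * c) * c⁻¹ := by rw [hcu]
      _ = t ^ k * u := by group
  have hzv : z * v⁻¹ = v := by rw [← h2]; group
  have hut : u * t * u⁻¹ = z ^ 2 * t⁻¹ := by
    calc u * t * u⁻¹ = (u * u) * v * u⁻¹ := by rw [ht]; group
      _ = z * (z * v⁻¹) * u⁻¹ := by rw [hu, hzv]
      _ = z ^ 2 * t⁻¹ := by rw [ht, mul_inv_rev, pow_two]; simp only [mul_assoc]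
  have hz2 : Commute (z ^ 2) t⁻¹ := by
    have h : Commute z t⁻¹ := hz t⁻¹
    exact h.pow_left 2
  have htk : t * t ^ k = u * (v * t ^ k) := by rw [← mul_assoc, ← ht]
  have h3 : t ^ (k + 1) = (z ^ 2) ^ k * (t⁻¹) ^ k * z := by
    calc t ^ (k + 1) = t * t ^ k := pow_succ' t k
      _ = u * (v * t ^ k) := htk
      _ = u * (t ^ k * u) := by rw [hvt]
      _ = (u * t ^ k * u⁻¹) * (u * u) := by group
      _ = (u * t * u⁻¹) ^ k * z := by rw [conj_pow, hu]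
      _ = (z ^ 2 * t⁻¹) ^ k * z := by rw [hut]
      _ = (z ^ 2) ^ k * (t⁻¹) ^ k * z := by rw [hz2.mul_pow]
  calc t ^ (2 * k + 1) = t ^ (k + 1) * t ^ k := by rw [← pow_add]; congr 1; ring
    _ = (z ^ 2) ^ k * (t⁻¹) ^ k * z * t ^ k := by rw [h3]
    _ = (z ^ 2) ^ k * z * ((t⁻¹) ^ k * t ^ k) := by
        rw [mul_assoc ((z ^ 2) ^ k) ((t⁻¹) ^ k) z, ← hz ((t⁻¹) ^ k)]
        simp only [mul_assoc]
    _ = z ^ (2 * k + 1) := by
        rw [inv_pow, inv_mul_cancel, mul_one, ← pow_mul, ← pow_succ]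

end Cfsg.Agent.H91.TitsPc
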