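import Mathlib
import Cfsg.Agent.H51.RsDefs

/-!
# RS-STEP3 (helper91, for helper51's S2113 project)

`ζ` is a torus-equivariant homomorphic lift of `U₂`, and `[Û₁, Û] ⊆ ζ(K)`.
-/

set_option autoImplicit false

namespace Cfsg.Agent.H91.Rs

open Cfsg.Agent.H96.Ro Cfsg.Agent.H51.Rs

universe u v w

section

variable {K : Type u} [Field K] {G : Type v} [Group G] {n : ℕ} {Γ : Type w} [Group Γ]
  (E : Ext K G n Γ)

theorem s3_cm_R (hn : n ≠ 0) (u v t u' v' : K) :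
    cm (E.D.R 0 u v) (E.D.R t u' v') = E.D.R 0 0 (-(t * u)) := by
  apply cm_eq_of_mul_eq
  rw [E.D.R_mul t u' v' 0 u v, R_U1_mul_left, R_U1_mul_left]
  congr 1 <;> simp [zero_pow hn] <;> ring

theorem s3_inU2_cm (hn : n ≠ 0) {a x : Γ} (ha : E.InU1 a) (hx : E.InU x) :
    E.InU2 (cm a x) := by
  obtain ⟨u, v, ha⟩ := ha
  obtain ⟨t, u', v', hx⟩ := hx
  exact ⟨-(t * u), by rw [cm_map, ha, hx, s3_cm_R E hn]⟩

theorem s3_conj_fix (h2 : ∀ z x : Γ, E.InU2 z → E.InU x → z * x = x * z) {z x : Γ}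
    (hz : E.InU2 z) (hx : E.InU x) : x * z * x⁻¹ = z := by
  rw [← h2 z x hz hx]; group

theorem s3_mul_l (hn : n ≠ 0) (h2 : ∀ z x : Γ, E.InU2 z → E.InU x → z * x = x * z)
    {a₁ a₂ x : Γ} (h₁ : E.InU1 a₁) (h₂ : E.InU1 a₂) (hx : E.InU x) :
    cm (a₁ * a₂) x = cm a₁ x * cm a₂ x := by
  rw [cm_mul_left, s3_conj_fix E h2 (s3_inU2_cm E hn h₂ hx) (Ext.InU1.inU E h₁)]
  exact h2 _ _ (s3_inU2_cm E hn h₂ hx)
    (Ext.InU1.inU E (Ext.InU2.inU1 E (s3_inU2_cm E hn h₁ hx)))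

theorem s3_mul_r (hn : n ≠ 0) (h2 : ∀ z x : Γ, E.InU2 z → E.InU x → z * x = x * z)
    {a x₁ x₂ : Γ} (ha : E.InU1 a) (h₁ : E.InU x₁) (h₂ : E.InU x₂) :
    cm a (x₁ * x₂) = cm a x₁ * cm a x₂ := by
  rw [cm_mul_right, s3_conj_fix E h2 (s3_inU2_cm E hn ha h₂) h₁]

theorem s3_c_add_u (hn : n ≠ 0) (h2 : ∀ z x : Γ, E.InU2 z → E.InU x → z * x = x * z)
    (u u' t : K) : E.c (u + u') t = E.c u t * E.c u' t := by
  unfold Ext.c
  rw [← s3_mul_l E hn h2 (E.inU1_r u 0) (E.inU1_r u' 0) (E.inU_r t 0 0)]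
  apply E.cm_congr _ rfl
  rw [map_mul, E.σ_r, E.σ_r, E.σ_r, R_U1_mul]; simp

theorem s3_c_add_t (hn : n ≠ 0) (h1 : ∀ x y : Γ, E.InU1 x → E.InU1 y → x * y = y * x)
    (h2 : ∀ z x : Γ, E.InU2 z → E.InU x → z * x = x * z) (u t t' : K) :
    E.c u (t + t') = E.c u t * E.c u t' := by
  have e : cm (E.r 0 u 0) (E.r t 0 0 * E.r t' 0 0) =
      cm (E.r 0 u 0) (E.r (t + t') 0 0 *
        E.r 0 (-(t' ^ n * t)) (t' ^ n * t * t' - t' ^ n * t ^ 2)) := by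
    apply E.cm_congr rfl
    rw [map_mul, map_mul, E.σ_r, E.σ_r, E.σ_r, E.σ_r, R_t_mul E.D hn]
  rw [s3_mul_r E hn h2 (E.inU1_r u 0) (E.inU_r t 0 0) (E.inU_r t' 0 0),
    s3_mul_r E hn h2 (E.inU1_r u 0) (E.inU_r (t + t') 0 0)
      (Ext.InU1.inU E (E.inU1_r _ _))] at e
  have e2 : cm (E.r 0 u 0) (E.r 0 (-(t' ^ n * t)) (t' ^ n * t * t' - t' ^ n * t ^ 2)) = 1 :=
    cm_eq_one_iff.2 (h1 _ _ (E.inU1_r _ _) (E.inU1_r _ _))
  rw [e2, mul_one] at e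
  exact e.symm

theorem s3_c_conj {g : Γ} {κ : Kˣ} (hg : E.σ g = E.D.h κ) (u t : K) :
    g * E.c u t * g⁻¹ = E.c ((κ : K) ^ (n + 1) * u) ((κ : K) * t) := by
  unfold Ext.c
  rw [cm_conj]
  apply E.cm_congr
  · rw [map_mul, map_mul, map_inv, hg, E.σ_r, E.σ_r, h_conj_u]
  · rw [map_mul, map_mul, map_inv, hg, E.σ_r, E.σ_r, h_conj_t]

theorem s3_aux {Γ : Type*} [Group Γ] (A A' B B' : Γ)
    (h : ∀ x : Γ, (A' * B'⁻¹) * x = x * (A' * B'⁻¹)) :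
    A * A' * (B * B')⁻¹ = A * B⁻¹ * (A' * B'⁻¹) := by
  rw [mul_inv_rev]
  calc A * A' * (B'⁻¹ * B⁻¹) = A * ((A' * B'⁻¹) * B⁻¹) := by group
    _ = A * (B⁻¹ * (A' * B'⁻¹)) := by rw [h]
    _ = A * B⁻¹ * (A' * B'⁻¹) := by group

theorem s3_aux2 {Γ : Type*} [Group Γ] (g A B : Γ) (h : (A * B⁻¹) * g = g * (A * B⁻¹)) :
    g * A * g⁻¹ * (g * B * g⁻¹)⁻¹ = A * B⁻¹ := by
  calc g * A * g⁻¹ * (g * B * g⁻¹)⁻¹ = g * (A * B⁻¹) * g⁻¹ := by group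
    _ = (A * B⁻¹) * g * g⁻¹ := by rw [h]
    _ = A * B⁻¹ := by group

theorem s3_c_swap (hn : n ≠ 0) (hPV : PairVanish.{u, w} K (n + 1) 1)
    (h1 : ∀ x y : Γ, E.InU1 x → E.InU1 y → x * y = y * x)
    (h2 : ∀ z x : Γ, E.InU2 z → E.InU x → z * x = x * z) (l u t : K) :
    E.c (l * u) t = E.c u (l * t) := by
  have hcen : ∀ x y : K, E.σ (E.c (l * x) y * (E.c x (l * y))⁻¹) = 1 := by
    intro x y
    rw [map_mul, map_inv, E.σ_c hn, E.σ_c hn]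
    have : -(y * (l * x)) = -(l * y * x) := by ring
    rw [this, mul_inv_cancel]
  have key := hPV Γ (fun x y => E.c (l * x) y * (E.c x (l * y))⁻¹) ?_ ?_ ?_ ?_ u t
  · exact mul_inv_eq_one.1 key
  · intro x y x' y'
    exact E.central' (hcen x y) _
  · intro x x' y
    show E.c (l * (x + x')) y * (E.c (x + x') (l * y))⁻¹ =
      E.c (l * x) y * (E.c x (l * y))⁻¹ * (E.c (l * x') y * (E.c x' (l * y))⁻¹)
    rw [mul_add, s3_c_add_u E hn h2, s3_c_add_u E hn h2]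
    exact s3_aux _ _ _ _ (fun z => E.central' (hcen x' y) z)
  · intro x y y'
    show E.c (l * x) (y + y') * (E.c x (l * (y + y')))⁻¹ =
      E.c (l * x) y * (E.c x (l * y))⁻¹ * (E.c (l * x) y' * (E.c x (l * y'))⁻¹)
    rw [mul_add, s3_c_add_t E hn h1 h2, s3_c_add_t E hn h1 h2]
    exact s3_aux _ _ _ _ (fun z => E.central' (hcen x y') z)
  · intro κ hκ x y
    show E.c (l * (κ ^ (n + 1) * x)) (κ ^ 1 * y) *
        (E.c (κ ^ (n + 1) * x) (l * (κ ^ 1 * y)))⁻¹ =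
      E.c (l * x) y * (E.c x (l * y))⁻¹
    have hg := E.σ_hh (Units.mk0 κ hκ)
    have e1 := s3_c_conj E hg (l * x) y
    have e2 := s3_c_conj E hg x (l * y)
    rw [Units.val_mk0] at e1 e2
    have a1 : l * (κ ^ (n + 1) * x) = κ ^ (n + 1) * (l * x) := by ring
    have a2 : κ ^ 1 * y = κ * y := by ring
    have a3 : l * (κ ^ 1 * y) = κ * (l * y) := by ring
    rw [a1, a3, a2, ← e1, ← e2]
    exact s3_aux2 _ _ _ (E.central' (hcen x y) _)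

end

/-- RS-STEP3. -/
theorem step3 (hP : StPairs.{u, w}) (h1 : StStep1.{u, v, w}) (h2 : StStep2.{u, v, w}) :
    StStep3.{u, v, w} := by
  intro K _ _ _ m hm hcard G _ Γ _ E
  have hn : 3 ^ (m + 1) ≠ 0 := by positivity
  have hPV : PairVanish.{u, w} K (3 ^ (m + 1) + 1) 1 := (hP K m hm hcard).2.1
  have h1' := h1 K m hm hcard G Γ E
  have h2' := h2 K m hm hcard G Γ E
  have hsw : ∀ u t : K, E.c u t = E.c (t * u) 1 := by
    intro u t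
    have := s3_c_swap E hn hPV h1' h2' t u 1
    rw [mul_one] at this
    exact this.symm
  refine ⟨?_, ?_, ?_⟩
  · intro v v'
    unfold Ext.ζ
    rw [neg_add, s3_c_add_u E hn h2']
  · intro κ g hg v
    unfold Ext.ζ
    rw [s3_c_conj E hg, hsw]
    congr 1
    ring
  · intro a x ha hx
    obtain ⟨u, v, ha'⟩ := ha
    obtain ⟨t, u', v', hx'⟩ := hx
    refine ⟨-(t * u), ?_⟩
    have e : cm a x = cm (E.r 0 u 0 * E.r 0 0 v) (E.r t 0 0 * E.r 0 u' v') := by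
      apply E.cm_congr
      · rw [ha', map_mul, E.σ_r, E.σ_r, ← R_split2]
      · rw [hx', map_mul, E.σ_r, E.σ_r, ← R_split1 E.D hn]
    have hX : E.InU (E.r t 0 0 * E.r 0 u' v') :=
      Ext.InU.mul E (E.inU_r t 0 0) (E.inU_r 0 u' v')
    have e1 : cm (E.r 0 0 v) (E.r t 0 0 * E.r 0 u' v') = 1 :=
      cm_eq_one_iff.2 (h2' _ _ (E.inU2_r v) hX)
    have e2 : cm (E.r 0 u 0) (E.r 0 u' v') = 1 :=
      cm_eq_one_iff.2 (h1' _ _ (E.inU1_r u 0) (E.inU1_r u' v'))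
    rw [e, s3_mul_l E hn h2' (E.inU1_r u 0) (E.inU1_r 0 v) hX, e1, mul_one,
      s3_mul_r E hn h2' (E.inU1_r u 0) (E.inU_r t 0 0) (E.inU_r 0 u' v'), e2, mul_one]
    show E.c u t = E.ζ (-(t * u))
    unfold Ext.ζ
    rw [neg_neg]
    exact hsw u t

example (hP : Cfsg.Agent.H51.Rs.StPairs.{u, w}) (h1 : Cfsg.Agent.H51.Rs.StStep1.{u, v, w})
    (h2 : Cfsg.Agent.H51.Rs.StStep2.{u, v, w}) : Cfsg.Agent.H51.Rs.StStep3.{u, v, w} :=
  step3 hP h1 h2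

end Cfsg.Agent.H91.Rs
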