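import Mathlib
import Cfsg.Prelude.Def_Classical

/-!
# helper91: involutions of `U₆(2)` lift to involutions in any central extension by `Z₂` (S5452)
-- shared definitions

`K` is a field with 4 elements, `V = K⁶` with the Hermitian form `Σ uᵢ vᵢ²` (`Cfsg.hermForm 6 K 2`).
`W = {(a, a) : a ∈ K³}` is a maximal totally isotropic subspace; the unipotent radical of its
stabilizer is `E = {xmat M : M = M*}` (`M` a Hermitian `3 × 3` matrix), `xmat M = [1+M, M; M, 1+M]`,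
elementary abelian of order `2⁹`.  The "points" are the `xmat (v v*)`, `v ≠ 0` (21 of them).

Plan: if `ρ : D ↠ PSU₆(2)` has central kernel `K₀` of exponent 2, then the squaring map
`q : Ê/K₀ → K₀` on the preimage `Ê` of `E` is constant (`= c₁`) on points, and on sums of two
distinct points (`= c₂`) by fusion; so `[p̂, p̂'] = c₂` for distinct points.  A collinear triple
`v, w, v+w` has sum of the same type as `v v* + w w*`, whence `c₁ = 1`; the five points of a line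
sum to `0`, whence (commuting with a sixth point) `c₂ = 1`.  So `Ê` is generated by commuting
involutions, and every involution of `SU₆(2)` is conjugate into `E` (Witt).
-/

set_option autoImplicit false

namespace Cfsg.Agent.H91.U62

open Subgroup

/-- The index map `Fin 6 → Fin 3`, `i ↦ i mod 3`. -/
def r3 : Fin 6 → Fin 3 := ![0, 1, 2, 0, 1, 2]

/-- Conjugate transpose of a `3 × 3` matrix, for the involution `x ↦ x²`. -/
def cj {K : Type*} [Field K] (M : Matrix (Fin 3) (Fin 3) K) : Matrix (Fin 3) (Fin 3) K :=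
  Matrix.of fun i j => (M j i) ^ 2

/-- The rank-one Hermitian matrix `v v*`. -/
def vv {K : Type*} [Field K] (v : Fin 3 → K) : Matrix (Fin 3) (Fin 3) K :=
  Matrix.of fun i j => v i * (v j) ^ 2

/-- The `6 × 6` matrix `[1+M, M; M, 1+M]`. -/
def xmat {K : Type*} [Field K] (M : Matrix (Fin 3) (Fin 3) K) : Matrix (Fin 6) (Fin 6) K :=
  1 + M.submatrix r3 r3

/-- The points: elements of `SU₆(K)` with matrix `xmat (v v*)`, `v ≠ 0`. -/
def pts (K : Type*) [Field K] : Set ↥(Cfsg.SU 6 K 2) :=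
  {s | ∃ v : Fin 3 → K, v ≠ 0 ∧ (s.1.1 : Matrix (Fin 6) (Fin 6) K) = xmat (vv v)}

/-- Piece EA3 (abstract): a central extension `ρ : D ↠ Ḡ` with kernel of exponent 2, and commuting
involutions `p i` of `Ḡ` with the listed fusion pattern: every element of `D` over
`closure (range p)` has square 1. -/
def Ea3Stmt.{u, v, w} : Prop :=
  ∀ {D : Type u} [Group D] {Gb : Type v} [Group Gb] (ρ : D →* Gb), Function.Surjective ρ →
    ρ.ker ≤ center D → (∀ z ∈ ρ.ker, z * z = 1) →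
    ∀ {ι : Type w} (p : ι → Gb), (∀ i j, Commute (p i) (p j)) → (∀ i, p i * p i = 1) →
    (∀ i j, IsConj (p i) (p j)) →
    (∀ i j i' j', p i ≠ p j → p i' ≠ p j' → IsConj (p i * p j) (p i' * p j')) →
    (∃ i j k, p i ≠ p j ∧ p k ≠ p i ∧ p k ≠ p j ∧ IsConj (p i * p j * p k) (p i * p j)) →
    (∃ i₁ i₂ i₃ i₄ i₅ i₆, p i₁ * p i₂ * p i₃ * p i₄ * p i₅ = 1 ∧ p i₆ ≠ p i₁ ∧ p i₆ ≠ p i₂ ∧
      p i₆ ≠ p i₃ ∧ p i₆ ≠ p i₄ ∧ p i₆ ≠ p i₅) →
    ∀ y : D, ρ y ∈ closure (Set.range p) → y * y = 1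

/-- Piece X: `xmat M` lies in `SU₆(K)` for Hermitian `M`. -/
def XStmt.{u} : Prop :=
  ∀ {K : Type u} [Field K] [Fintype K], Fintype.card K = 4 →
    ∀ M : Matrix (Fin 3) (Fin 3) K, cj M = M →
    ∃ s : ↥(Cfsg.SU 6 K 2), (s.1.1 : Matrix (Fin 6) (Fin 6) K) = xmat M

/-- Piece LEVI: for `A ∈ SL₃(K)` some `g ∈ SU₆(K)` conjugates `xmat M` to `xmat (A M A*)`. -/
def LeviStmt.{u} : Prop :=
  ∀ {K : Type u} [Field K] [Fintype K], Fintype.card K = 4 →
    ∀ A : Matrix (Fin 3) (Fin 3) K, A.det = 1 →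
    ∃ g : ↥(Cfsg.SU 6 K 2), ∀ (M : Matrix (Fin 3) (Fin 3) K) (s t : ↥(Cfsg.SU 6 K 2)),
      (s.1.1 : Matrix (Fin 6) (Fin 6) K) = xmat M →
      (t.1.1 : Matrix (Fin 6) (Fin 6) K) = xmat (A * M * cj A) → g * s * g⁻¹ = t

/-- Piece WITT: every involution of `SU₆(K)` is conjugate to some `xmat M`, `M` Hermitian. -/
def WittStmt.{u} : Prop :=
  ∀ {K : Type u} [Field K] [Fintype K], Fintype.card K = 4 →
    ∀ s : ↥(Cfsg.SU 6 K 2), s * s = 1 →
    ∃ g : ↥(Cfsg.SU 6 K 2), ∃ M : Matrix (Fin 3) (Fin 3) K, cj M = M ∧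
      ((g * s * g⁻¹).1.1 : Matrix (Fin 6) (Fin 6) K) = xmat M

/-- Piece SPAN: the elements `xmat M`, `M` Hermitian, lie in the subgroup generated by the points. -/
def SpanStmt.{u} : Prop :=
  ∀ {K : Type u} [Field K] [Fintype K], Fintype.card K = 4 →
    ∀ s : ↥(Cfsg.SU 6 K 2),
    (∃ M : Matrix (Fin 3) (Fin 3) K, cj M = M ∧ (s.1.1 : Matrix (Fin 6) (Fin 6) K) = xmat M) →
    s ∈ closure (pts K)

/-- Piece FUS1: the points are commuting involutions. -/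
def Fus1Stmt.{u} : Prop :=
  ∀ {K : Type u} [Field K] [Fintype K], Fintype.card K = 4 →
    (∀ s ∈ pts K, ∀ t ∈ pts K, Commute s t) ∧ (∀ s ∈ pts K, s * s = 1)

/-- Piece FUS2: the points are fused, and so are the products of two distinct points. -/
def Fus2Stmt.{u} : Prop :=
  ∀ {K : Type u} [Field K] [Fintype K], Fintype.card K = 4 →
    (∀ s ∈ pts K, ∀ t ∈ pts K, IsConj s t) ∧
    (∀ s ∈ pts K, ∀ t ∈ pts K, ∀ s' ∈ pts K, ∀ t' ∈ pts K, s ≠ t → s' ≠ t' →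
      IsConj (s * t) (s' * t'))

/-- Piece FUS3: a collinear triple, and five collinear points with product 1 plus a sixth point. -/
def Fus3Stmt.{u} : Prop :=
  ∀ {K : Type u} [Field K] [Fintype K], Fintype.card K = 4 →
    (∃ s ∈ pts K, ∃ t ∈ pts K, ∃ r ∈ pts K, s ≠ t ∧ r ≠ s ∧ r ≠ t ∧
      IsConj (s * t * r) (s * t)) ∧
    (∃ s₁ ∈ pts K, ∃ s₂ ∈ pts K, ∃ s₃ ∈ pts K, ∃ s₄ ∈ pts K, ∃ s₅ ∈ pts K, ∃ s₆ ∈ pts K,
      s₁ * s₂ * s₃ * s₄ * s₅ = 1 ∧ s₆ ≠ s₁ ∧ s₆ ≠ s₂ ∧ s₆ ≠ s₃ ∧ s₆ ≠ s₄ ∧ s₆ ≠ s₅)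

end Cfsg.Agent.H91.U62
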