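import Mathlib
import Cfsg.Agent.H86.Ev2Defs
import Cfsg.Agent.H91.Ev2UnipBase

/-!
# EV2-UNIP2 (helper91, for helper86): Jordan type `(1, 1, 2^(d-1))`

A unipotent isometry with `(T - 1)² = 0` and `2 rank (T - 1) + 2 = dim V`: an invariant
nondegenerate subspace of odd dimension has dimension `≡ 1 (mod 4)`.
-/

set_option autoImplicit false

namespace Cfsg.Agent.H91.Ev2

open Cfsg.Agent.H45 Cfsg.Agent.H42.Spd Cfsg.Agent.H42.Ti Cfsg.Agent.H14.Ot Cfsg.Agent.H95.Oh
  Cfsg.Agent.H86.Ev2 Module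

universe u v

theorem unip2 : StUnip2.{u, v} := by
  intro F _ V _ _ _ B T h2 hsym _ hiso hN2 hrank W hW hnd hodd
  have hN3 : ∀ z, (T - 1) ((T - 1) ((T - 1) z)) = 0 := by
    intro z
    have h1 := LinearMap.congr_fun hN2 ((T - 1) z)
    rw [Module.End.mul_apply] at h1
    exact h1
  obtain ⟨r1, r2, r1', r2', d', h1, h3, h4, h5, h6, h7, -⟩ :=
    unip_key B T h2 hsym hiso hN3 W hW hnd
  have hr0 : finrank F (LinearMap.range ((T - 1) * (T - 1))) = 0 := by
    rw [hN2, LinearMap.range_zero, finrank_bot]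
  rw [hr0] at h4
  obtain ⟨k, hk⟩ := h7
  obtain ⟨j, hj⟩ := hodd
  omega

example : ∀ (F : Type u) [Field F] (V : Type v) [AddCommGroup V] [Module F V]
    [FiniteDimensional F V]
    (B : V →ₗ[F] V →ₗ[F] F) (T : Module.End F V), (2 : F) ≠ 0 →
    (∀ x y, B x y = B y x) → (∀ x, (∀ y, B x y = 0) → x = 0) →
    (∀ x y, B (T x) (T y) = B x y) → (T - 1) * (T - 1) = 0 →
    2 * Module.finrank F ↥(LinearMap.range (T - 1)) + 2 = Module.finrank F V →
    ∀ W : Submodule F V, W ∈ T.invtSubmodule → W ⊓ perp B W = ⊥ →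
      Odd (Module.finrank F W) → Module.finrank F W % 4 = 1 :=
  unip2

end Cfsg.Agent.H91.Ev2
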