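import Mathlib
import Cfsg.Agent.H79.BrDefs

/-!
# S4504 team project (helper79), piece S4504-PAIRARITH

Pure finite-sum arithmetic: from the three orthogonality sums, there is exactly one index of
type `±(η, η')`, exactly one of type `±(η', η)`, and exactly `f` indices with `u i = ±1`.
-/

set_option autoImplicit false

namespace Cfsg.Agent.H91.Br

open Cfsg
open scoped ComplexConjugate

universe u

theorem re_mul_conj (z w : ℂ) : (z * conj w).re = z.re * w.re + z.im * w.im := by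
  simp [Complex.mul_re]

theorem im_mul_conj (z w : ℂ) : (z * conj w).im = z.im * w.re - z.re * w.im := by
  simp [Complex.mul_im]
  ring

theorem nat_mul_re (n : ℕ) (z : ℂ) : ((n : ℂ) * z).re = (n : ℝ) * z.re := by simp

theorem nat_mul_im (n : ℕ) (z : ℂ) : ((n : ℂ) * z).im = (n : ℝ) * z.im := by simp

/-- the counting core, in real coordinates -/
theorem pairArith_real (a b c f : ℕ) (x y x' y' : ℝ)
    (hs : x + x' = -1)
    (hq : x * x + y * y + (x' * x' + y' * y') = (f : ℝ) + 1)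
    (hcase : (x' = x ∧ y' = -y) ∨ (y = 0 ∧ y' = 0))
    (E1 : (a : ℝ) + (b : ℝ) * (x * x + y * y) + (c : ℝ) * (x' * x' + y' * y') = 2 * (f : ℝ) + 1)
    (E2 : (a : ℝ) + (b : ℝ) * (x' * x' + y' * y') + (c : ℝ) * (x * x + y * y) = 2 * (f : ℝ) + 1)
    (E3r : (a : ℝ) + (b : ℝ) * (x * x' + y * y') + (c : ℝ) * (x' * x + y' * y) = 0)
    (E3i : (b : ℝ) * (y * x' - x * y') + (c : ℝ) * (y' * x - x' * y) = 0) :
    b = 1 ∧ c = 1 ∧ a = f := by
  have hF : (0 : ℝ) ≤ (f : ℝ) := Nat.cast_nonneg f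
  have hF1 : 2 * (f : ℝ) + 1 ≠ 0 := by linarith
  rcases hcase with ⟨hx', hy'⟩ | ⟨hy, hy'⟩
  · -- `η' = conj η`
    rw [hx', hy'] at hq E1 E2 E3r E3i
    rw [hx'] at hs
    have hx : x = -1 / 2 := by linarith
    have hy2 : y * y = (2 * (f : ℝ) + 1) / 4 := by
      rw [hx] at hq
      linarith
    have hy0 : y ≠ 0 := by
      intro h
      rw [h] at hy2
      linarith
    have hBC : (b : ℝ) = (c : ℝ) := by
      have h1 : y * ((b : ℝ) - (c : ℝ)) = 0 := by
        linear_combination (-1) * E3i + (2 * y * ((b : ℝ) - (c : ℝ))) * hx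
      rcases mul_eq_zero.mp h1 with h | h
      · exact absurd h hy0
      · linarith
    have E1' : (a : ℝ) + ((b : ℝ) + (c : ℝ)) * (1 / 4 + y * y) = 2 * (f : ℝ) + 1 := by
      rw [hx] at E1
      linear_combination E1
    have E3' : (a : ℝ) + ((b : ℝ) + (c : ℝ)) * (1 / 4 - y * y) = 0 := by
      rw [hx] at E3r
      linear_combination E3r
    rw [hy2, ← hBC] at E1' E3'
    have hB1 : ((b : ℝ) - 1) * (2 * (f : ℝ) + 1) = 0 := by
      linear_combination E1' - E3'
    have hB : (b : ℝ) = 1 := by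
      rcases mul_eq_zero.mp hB1 with h | h
      · linarith
      · exact absurd h hF1
    have hC : (c : ℝ) = 1 := by rw [← hBC]; exact hB
    have hA : (a : ℝ) = (f : ℝ) := by
      rw [hB] at E3'
      linarith
    exact ⟨by exact_mod_cast hB, by exact_mod_cast hC, by exact_mod_cast hA⟩
  · -- `η`, `η'` real
    rw [hy, hy'] at hq E1 E2 E3r
    have hq' : x * x + x' * x' = (f : ℝ) + 1 := by linear_combination hq
    have hxx : x * x' = -(f : ℝ) / 2 := by
      linear_combination (1 / 2) * (x + x' - 1) * hs - (1 / 2) * hq'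
    have E1' : (a : ℝ) + (b : ℝ) * (x * x) + (c : ℝ) * (x' * x') = 2 * (f : ℝ) + 1 := by
      linear_combination E1
    have E2' : (a : ℝ) + (b : ℝ) * (x' * x') + (c : ℝ) * (x * x) = 2 * (f : ℝ) + 1 := by
      linear_combination E2
    have E3' : (a : ℝ) + ((b : ℝ) + (c : ℝ)) * (x * x') = 0 := by
      linear_combination E3r
    have hBC2' : ((b : ℝ) + (c : ℝ) - 2) * (2 * (f : ℝ) + 1) = 0 := by
      linear_combination E1' + E2' - 2 * E3' - ((b : ℝ) + (c : ℝ)) * hq' +
        2 * ((b : ℝ) + (c : ℝ)) * hxx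
    have hBC2 : (b : ℝ) + (c : ℝ) = 2 := by
      rcases mul_eq_zero.mp hBC2' with h | h
      · linarith
      · exact absurd h hF1
    have hne : x - x' ≠ 0 := by
      intro h
      have h1 : x = -1 / 2 := by linarith
      have h2 : x' = -1 / 2 := by linarith
      rw [h1, h2] at hq'
      linarith
    have hBC : (b : ℝ) = (c : ℝ) := by
      have h1 : ((b : ℝ) - (c : ℝ)) * (x - x') = 0 := by
        linear_combination (-1) * (E1' - E2') + ((b : ℝ) - (c : ℝ)) * (x - x') * hs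
      rcases mul_eq_zero.mp h1 with h | h
      · linarith
      · exact absurd h hne
    have hB : (b : ℝ) = 1 := by linarith
    have hC : (c : ℝ) = 1 := by linarith
    have hA : (a : ℝ) = (f : ℝ) := by
      linear_combination E3' - ((b : ℝ) + (c : ℝ)) * hxx + ((f : ℝ) / 2) * hBC2
    exact ⟨by exact_mod_cast hB, by exact_mod_cast hC, by exact_mod_cast hA⟩

theorem pairArith : Cfsg.Agent.H79.Br.StPairArith.{u} := by
  intro ι _ f p η η' u v hp hpf hf2 hsum hsq hcase htype hu hv huv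
  classical
  -- base facts on `η`, `η'`
  have hfC : ∀ n : ℕ, (f : ℂ) = (n : ℂ) → f = n := fun n h => by exact_mod_cast h
  have F2 : η ≠ -1 := by
    intro h
    have h' : η' = 0 := by linear_combination hsum - h
    rw [h, h'] at hsq
    simp only [map_neg, map_one, map_zero, mul_zero, add_zero] at hsq
    have h0 : (f : ℂ) = ((0 : ℕ) : ℂ) := by
      push_cast
      linear_combination -hsq
    have := hfC 0 h0
    omega
  have F4 : η' ≠ -1 := by
    intro h
    have h' : η = 0 := by linear_combination hsum - h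
    rw [h, h'] at hsq
    simp only [map_neg, map_one, map_zero, mul_zero, zero_add] at hsq
    have h0 : (f : ℂ) = ((0 : ℕ) : ℂ) := by
      push_cast
      linear_combination -hsq
    have := hfC 0 h0
    omega
  have F1 : η ≠ 1 := by
    intro h
    have h' : η' = -2 := by linear_combination hsum - h
    rw [h, h'] at hsq
    simp only [map_neg, map_one, map_ofNat] at hsq
    have h0 : (f : ℂ) = ((4 : ℕ) : ℂ) := by
      push_cast
      linear_combination -hsq
    have h4 := hfC 4 h0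
    have h9 : p = 3 * 3 := by omega
    rw [h9] at hp
    exact Nat.not_prime_mul (by norm_num) (by norm_num) hp
  have F3 : η' ≠ 1 := by
    intro h
    have h' : η = -2 := by linear_combination hsum - h
    rw [h, h'] at hsq
    simp only [map_neg, map_one, map_ofNat] at hsq
    have h0 : (f : ℂ) = ((4 : ℕ) : ℂ) := by
      push_cast
      linear_combination -hsq
    have h4 := hfC 4 h0
    have h9 : p = 3 * 3 := by omega
    rw [h9] at hp
    exact Nat.not_prime_mul (by norm_num) (by norm_num) hp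
  have F6 : η ≠ -η' := by
    intro h
    have h1 : (0 : ℂ) = -1 := by linear_combination hsum - h
    norm_num at h1
  have F7 : η ≠ 0 := by
    intro h
    exact F4 (by linear_combination hsum - h)
  have F8 : η' ≠ 0 := by
    intro h
    exact F2 (by linear_combination hsum - h)
  -- real coordinates
  have hs_re : η.re + η'.re = -1 := by
    have := congrArg Complex.re hsum
    simpa using this
  have hs_im : η.im + η'.im = 0 := by
    have := congrArg Complex.im hsum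
    simpa using this
  have hq : η.re * η.re + η.im * η.im + (η'.re * η'.re + η'.im * η'.im) = (f : ℝ) + 1 := by
    have := congrArg Complex.re hsq
    rw [Complex.add_re, re_mul_conj, re_mul_conj] at this
    simpa using this
  have F5 : η ≠ η' := by
    intro h
    have h1 : η.re = η'.re := by rw [← h]
    have h2 : η.im = η'.im := by rw [← h]
    have h3 : η.re = -1 / 2 := by linarith
    have h4 : η.im = 0 := by linarith
    rw [← h1, ← h2, h3, h4] at hq
    have hF : (0 : ℝ) ≤ (f : ℝ) := Nat.cast_nonneg f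
    linarith
  have hcase' : (η'.re = η.re ∧ η'.im = -η.im) ∨ (η.im = 0 ∧ η'.im = 0) := by
    rcases hcase with h | ⟨h1, h2⟩
    · left
      rw [h]
      simp
    · right
      exact ⟨Complex.conj_eq_iff_im.mp h1, Complex.conj_eq_iff_im.mp h2⟩
  -- exclusivity lemmas
  have LA : ∀ X : ℂ, (X = η ∨ X = η' ∨ X = -η ∨ X = -η' ∨ X = 0) → ¬ (X = 1 ∨ X = -1) := by
    rintro X (rfl | rfl | rfl | rfl | rfl) (h | h)
    · exact F1 h
    · exact F2 h
    · exact F3 h
    · exact F4 h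
    · exact F2 (by linear_combination -h)
    · exact F1 (by linear_combination -h)
    · exact F4 (by linear_combination -h)
    · exact F3 (by linear_combination -h)
    · norm_num at h
    · norm_num at h
  have LB : ∀ X Y : ℂ, ((X = 0 ∧ Y = 0) ∨ (X = 1 ∧ Y = 1) ∨ (X = -1 ∧ Y = -1) ∨
      (X = η' ∧ Y = η) ∨ (X = -η' ∧ Y = -η)) →
      ¬ ((X = η ∧ Y = η') ∨ (X = -η ∧ Y = -η')) := by
    rintro X Y (⟨rfl, rfl⟩ | ⟨rfl, rfl⟩ | ⟨rfl, rfl⟩ | ⟨rfl, rfl⟩ | ⟨rfl, rfl⟩)
      (⟨h1, h2⟩ | ⟨h1, h2⟩)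
    · exact F7 h1.symm
    · exact F7 (by linear_combination h1)
    · exact F1 h1.symm
    · exact F2 (by linear_combination h1)
    · exact F2 h1.symm
    · exact F1 (by linear_combination h1)
    · exact F5 h1.symm
    · exact F6 (by linear_combination h1)
    · exact F6 (by linear_combination -h1)
    · exact F5 (by linear_combination h1)
  have LC : ∀ X Y : ℂ, ((X = 0 ∧ Y = 0) ∨ (X = 1 ∧ Y = 1) ∨ (X = -1 ∧ Y = -1) ∨
      (X = η ∧ Y = η') ∨ (X = -η ∧ Y = -η')) →
      ¬ ((X = η' ∧ Y = η) ∨ (X = -η' ∧ Y = -η)) := by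
    rintro X Y (⟨rfl, rfl⟩ | ⟨rfl, rfl⟩ | ⟨rfl, rfl⟩ | ⟨rfl, rfl⟩ | ⟨rfl, rfl⟩)
      (⟨h1, h2⟩ | ⟨h1, h2⟩)
    · exact F8 h1.symm
    · exact F8 (by linear_combination h1)
    · exact F3 h1.symm
    · exact F4 (by linear_combination h1)
    · exact F4 h1.symm
    · exact F3 (by linear_combination h1)
    · exact F5 h1
    · exact F6 h1
    · exact F6 (by linear_combination -h1)
    · exact F5 (by linear_combination -h1)
  -- indicators
  obtain ⟨α, hα⟩ : ∃ α : ι → ℂ, ∀ i, α i = if (u i = 1 ∨ u i = -1) then 1 else 0 :=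
    ⟨fun i => if (u i = 1 ∨ u i = -1) then 1 else 0, fun i => rfl⟩
  obtain ⟨β, hβ⟩ : ∃ β : ι → ℂ, ∀ i, β i =
      if ((u i = η ∧ v i = η') ∨ (u i = -η ∧ v i = -η')) then 1 else 0 :=
    ⟨fun i => if ((u i = η ∧ v i = η') ∨ (u i = -η ∧ v i = -η')) then 1 else 0, fun i => rfl⟩
  obtain ⟨γ, hγ⟩ : ∃ γ : ι → ℂ, ∀ i, γ i =
      if ((u i = η' ∧ v i = η) ∨ (u i = -η' ∧ v i = -η)) then 1 else 0 :=
    ⟨fun i => if ((u i = η' ∧ v i = η) ∨ (u i = -η' ∧ v i = -η)) then 1 else 0, fun i => rfl⟩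
  have hcl : ∀ i,
      (α i = 0 ∧ β i = 0 ∧ γ i = 0 ∧ u i = 0 ∧ v i = 0) ∨
      (α i = 1 ∧ β i = 0 ∧ γ i = 0 ∧ ((u i = 1 ∧ v i = 1) ∨ (u i = -1 ∧ v i = -1))) ∨
      (α i = 0 ∧ β i = 1 ∧ γ i = 0 ∧ ((u i = η ∧ v i = η') ∨ (u i = -η ∧ v i = -η'))) ∨
      (α i = 0 ∧ β i = 0 ∧ γ i = 1 ∧ ((u i = η' ∧ v i = η) ∨ (u i = -η' ∧ v i = -η))) := by
    intro i
    rcases htype i with h | h | h | h | h | h | h
    · left
      exact ⟨by rw [hα, if_neg (LA _ (Or.inr (Or.inr (Or.inr (Or.inr h.1)))))],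
        by rw [hβ, if_neg (LB _ _ (Or.inl h))],
        by rw [hγ, if_neg (LC _ _ (Or.inl h))], h.1, h.2⟩
    · right; left
      exact ⟨by rw [hα, if_pos (Or.inl h.1)],
        by rw [hβ, if_neg (LB _ _ (Or.inr (Or.inl h)))],
        by rw [hγ, if_neg (LC _ _ (Or.inr (Or.inl h)))], Or.inl h⟩
    · right; left
      exact ⟨by rw [hα, if_pos (Or.inr h.1)],
        by rw [hβ, if_neg (LB _ _ (Or.inr (Or.inr (Or.inl h))))],
        by rw [hγ, if_neg (LC _ _ (Or.inr (Or.inr (Or.inl h))))], Or.inr h⟩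
    · right; right; left
      exact ⟨by rw [hα, if_neg (LA _ (Or.inl h.1))],
        by rw [hβ, if_pos (Or.inl h)],
        by rw [hγ, if_neg (LC _ _ (Or.inr (Or.inr (Or.inr (Or.inl h)))))], Or.inl h⟩
    · right; right; right
      exact ⟨by rw [hα, if_neg (LA _ (Or.inr (Or.inl h.1)))],
        by rw [hβ, if_neg (LB _ _ (Or.inr (Or.inr (Or.inr (Or.inl h)))))],
        by rw [hγ, if_pos (Or.inl h)], Or.inl h⟩
    · right; right; left
      exact ⟨by rw [hα, if_neg (LA _ (Or.inr (Or.inr (Or.inl h.1))))],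
        by rw [hβ, if_pos (Or.inr h)],
        by rw [hγ, if_neg (LC _ _ (Or.inr (Or.inr (Or.inr (Or.inr h)))))], Or.inr h⟩
    · right; right; right
      exact ⟨by rw [hα, if_neg (LA _ (Or.inr (Or.inr (Or.inr (Or.inl h.1)))))],
        by rw [hβ, if_neg (LB _ _ (Or.inr (Or.inr (Or.inr (Or.inr h)))))],
        by rw [hγ, if_pos (Or.inr h)], Or.inr h⟩
  -- pointwise formulas
  have hP1 : ∀ i, u i * conj (u i) =
      α i + β i * (η * conj η) + γ i * (η' * conj η') := by
    intro i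
    rcases hcl i with ⟨ha, hb, hc, h1, h2⟩ | ⟨ha, hb, hc, ⟨h1, h2⟩ | ⟨h1, h2⟩⟩ |
      ⟨ha, hb, hc, ⟨h1, h2⟩ | ⟨h1, h2⟩⟩ | ⟨ha, hb, hc, ⟨h1, h2⟩ | ⟨h1, h2⟩⟩ <;>
    · rw [ha, hb, hc, h1]
      try simp only [map_neg, map_one, map_zero]
      ring
  have hP2 : ∀ i, v i * conj (v i) =
      α i + β i * (η' * conj η') + γ i * (η * conj η) := by
    intro i
    rcases hcl i with ⟨ha, hb, hc, h1, h2⟩ | ⟨ha, hb, hc, ⟨h1, h2⟩ | ⟨h1, h2⟩⟩ |
      ⟨ha, hb, hc, ⟨h1, h2⟩ | ⟨h1, h2⟩⟩ | ⟨ha, hb, hc, ⟨h1, h2⟩ | ⟨h1, h2⟩⟩ <;>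
    · rw [ha, hb, hc, h2]
      try simp only [map_neg, map_one, map_zero]
      ring
  have hP3 : ∀ i, u i * conj (v i) =
      α i + β i * (η * conj η') + γ i * (η' * conj η) := by
    intro i
    rcases hcl i with ⟨ha, hb, hc, h1, h2⟩ | ⟨ha, hb, hc, ⟨h1, h2⟩ | ⟨h1, h2⟩⟩ |
      ⟨ha, hb, hc, ⟨h1, h2⟩ | ⟨h1, h2⟩⟩ | ⟨ha, hb, hc, ⟨h1, h2⟩ | ⟨h1, h2⟩⟩ <;>
    · rw [ha, hb, hc, h1, h2]
      try simp only [map_neg, map_one, map_zero]
      ring
  -- the counts
  obtain ⟨sA, hsA⟩ : ∃ s : Finset ι, s = Finset.univ.filter (fun i => u i = 1 ∨ u i = -1) :=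
    ⟨_, rfl⟩
  obtain ⟨sB, hsB⟩ : ∃ s : Finset ι, s = Finset.univ.filter
      (fun i => (u i = η ∧ v i = η') ∨ (u i = -η ∧ v i = -η')) := ⟨_, rfl⟩
  obtain ⟨sC, hsC⟩ : ∃ s : Finset ι, s = Finset.univ.filter
      (fun i => (u i = η' ∧ v i = η) ∨ (u i = -η' ∧ v i = -η)) := ⟨_, rfl⟩
  have hsumα : ∑ i, α i = (sA.card : ℂ) := by
    simp only [hα]
    rw [Finset.sum_boole, hsA]
  have hsumβ : ∑ i, β i = (sB.card : ℂ) := by
    simp only [hβ]
    rw [Finset.sum_boole, hsB]
  have hsumγ : ∑ i, γ i = (sC.card : ℂ) := by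
    simp only [hγ]
    rw [Finset.sum_boole, hsC]
  have hS : ∀ gB gC : ℂ, ∑ i, (α i + β i * gB + γ i * gC) =
      (sA.card : ℂ) + (sB.card : ℂ) * gB + (sC.card : ℂ) * gC := by
    intro gB gC
    rw [Finset.sum_add_distrib, Finset.sum_add_distrib, ← Finset.sum_mul, ← Finset.sum_mul,
      hsumα, hsumβ, hsumγ]
  have E1 : (sA.card : ℂ) + (sB.card : ℂ) * (η * conj η) + (sC.card : ℂ) * (η' * conj η') =
      (p : ℂ) := by
    rw [← hS, ← hu]
    exact Finset.sum_congr rfl (fun i _ => (hP1 i).symm)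
  have E2 : (sA.card : ℂ) + (sB.card : ℂ) * (η' * conj η') + (sC.card : ℂ) * (η * conj η) =
      (p : ℂ) := by
    rw [← hS, ← hv]
    exact Finset.sum_congr rfl (fun i _ => (hP2 i).symm)
  have E3 : (sA.card : ℂ) + (sB.card : ℂ) * (η * conj η') + (sC.card : ℂ) * (η' * conj η) =
      0 := by
    rw [← hS, ← huv]
    exact Finset.sum_congr rfl (fun i _ => (hP3 i).symm)
  have hpr : (p : ℝ) = 2 * (f : ℝ) + 1 := by
    rw [← hpf]
    push_cast
    ring
  have E1r := congrArg Complex.re E1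
  have E2r := congrArg Complex.re E2
  have E3r := congrArg Complex.re E3
  have E3i := congrArg Complex.im E3
  simp only [Complex.add_re, Complex.add_im, nat_mul_re, nat_mul_im, re_mul_conj, im_mul_conj,
    Complex.natCast_re, Complex.natCast_im, Complex.zero_re, Complex.zero_im, zero_add]
    at E1r E2r E3r E3i
  rw [hpr] at E1r E2r
  obtain ⟨hb, hc, ha⟩ := pairArith_real sA.card sB.card sC.card f η.re η.im η'.re η'.im
    hs_re hq hcase' E1r E2r E3r E3i
  obtain ⟨iB, hiB⟩ := Finset.card_eq_one.mp hb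
  obtain ⟨iC, hiC⟩ := Finset.card_eq_one.mp hc
  have memB : ∀ i, i ∈ sB ↔ ((u i = η ∧ v i = η') ∨ (u i = -η ∧ v i = -η')) := by
    intro i
    rw [hsB, Finset.mem_filter]
    simp
  have memC : ∀ i, i ∈ sC ↔ ((u i = η' ∧ v i = η) ∨ (u i = -η' ∧ v i = -η)) := by
    intro i
    rw [hsC, Finset.mem_filter]
    simp
  refine ⟨⟨iB, (memB iB).mp (by rw [hiB]; exact Finset.mem_singleton_self _)⟩, ?_,
    ⟨iC, (memC iC).mp (by rw [hiC]; exact Finset.mem_singleton_self _)⟩, ?_, ?_⟩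
  · intro i j hi hj
    have h1 := (memB i).mpr hi
    have h2 := (memB j).mpr hj
    rw [hiB, Finset.mem_singleton] at h1 h2
    rw [h1, h2]
  · intro i j hi hj
    have h1 := (memC i).mpr hi
    have h2 := (memC j).mpr hj
    rw [hiC, Finset.mem_singleton] at h1 h2
    rw [h1, h2]
  · rw [Nat.card_eq_fintype_card, Fintype.card_subtype, ← hsA]
    exact ha

example : Cfsg.Agent.H79.Br.StPairArith.{u} := pairArith

end Cfsg.Agent.H91.Br
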