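import Cfsg.Agent.H91.ESOut2

/-!
# Non-splitting of the automorphism group of a cocycle group

`no_complement`: if the quadratic space of the cocycle group `MG A` (centre of order two) contains
three pairwise orthogonal non-singular vectors `a, b, c` and vectors `u0, a', b'` with suitable
inner products, then `Inn (MG A)` has no complement in `MulAut (MG A)`. (The four-group generated
by the isometries `t_a t_b t_c` and `t_a t_{a+b+c}` does not lift to a four-group of automorphisms.)
-/

set_option autoImplicit false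
set_option linter.unusedSectionVars false

namespace Cfsg.Agent.H91

open Matrix

section transv

variable {ι : Type} [Fintype ι] [DecidableEq ι] (A : Matrix ι ι (ZMod 2))

/-- the cocycle -/
def bt (u w : ι → ZMod 2) : ZMod 2 := u ⬝ᵥ A *ᵥ w

/-- the polar form -/
def pol (u w : ι → ZMod 2) : ZMod 2 := bt A u w + bt A w u

theorem z2_mul_self : ∀ c : ZMod 2, c * c = c := by decide

theorem bt_add_left (u u' w : ι → ZMod 2) : bt A (u + u') w = bt A u w + bt A u' w := by
  unfold bt; rw [add_dotProduct]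

theorem bt_add_right (u w w' : ι → ZMod 2) : bt A u (w + w') = bt A u w + bt A u w' := by
  unfold bt; rw [mulVec_add, dotProduct_add]

theorem bt_smul_left (c : ZMod 2) (u w : ι → ZMod 2) : bt A (c • u) w = c * bt A u w := by
  unfold bt; rw [smul_dotProduct, smul_eq_mul]

theorem bt_smul_right (c : ZMod 2) (u w : ι → ZMod 2) : bt A u (c • w) = c * bt A u w := by
  unfold bt; rw [mulVec_smul, dotProduct_smul, smul_eq_mul]

theorem pol_self (u : ι → ZMod 2) : pol A u u = 0 := z2_add_self _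

theorem pol_comm (u w : ι → ZMod 2) : pol A u w = pol A w u := add_comm _ _

theorem pol_add_left (u u' w : ι → ZMod 2) : pol A (u + u') w = pol A u w + pol A u' w := by
  unfold pol; rw [bt_add_left, bt_add_right]; abel

theorem pol_add_right (u w w' : ι → ZMod 2) : pol A u (w + w') = pol A u w + pol A u w' := by
  unfold pol; rw [bt_add_left, bt_add_right]; abel

theorem pol_smul_left (c : ZMod 2) (u w : ι → ZMod 2) : pol A (c • u) w = c * pol A u w := by
  unfold pol; rw [bt_smul_left, bt_smul_right]; ring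

theorem pol_smul_right (c : ZMod 2) (u w : ι → ZMod 2) : pol A u (c • w) = c * pol A u w := by
  unfold pol; rw [bt_smul_left, bt_smul_right]; ring

theorem qf_eq_bt (u : ι → ZMod 2) : qf A u = bt A u u := rfl

theorem qf_add (u w : ι → ZMod 2) : qf A (u + w) = qf A u + qf A w + pol A u w := by
  rw [qf_eq_bt, qf_eq_bt, qf_eq_bt, bt_add_left, bt_add_right, bt_add_right]
  unfold pol; abel

theorem qf_smul (c : ZMod 2) (u : ι → ZMod 2) : qf A (c • u) = c * qf A u := by
  rw [qf_eq_bt, qf_eq_bt, bt_smul_left, bt_smul_right, ← mul_assoc, z2_mul_self]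

/-- the orthogonal transvection with centre `v` -/
def tv (v u : ι → ZMod 2) : ι → ZMod 2 := u + pol A u v • v

theorem tv_add (v u w : ι → ZMod 2) : tv A v (u + w) = tv A v u + tv A v w := by
  unfold tv; rw [pol_add_left, add_smul]; abel

theorem tv_qf (v : ι → ZMod 2) (hv : qf A v = 1) (u : ι → ZMod 2) : qf A (tv A v u) = qf A u := by
  unfold tv
  rw [qf_add, qf_smul, hv, pol_smul_right, mul_one]
  have h : ∀ c : ZMod 2, c + c * c = 0 := by decide
  rw [add_assoc, h, add_zero]

theorem tv_tv (v u : ι → ZMod 2) : tv A v (tv A v u) = u := by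
  unfold tv
  rw [pol_add_left, pol_smul_left, pol_self, mul_zero, add_zero, add_assoc, ← add_smul,
    z2_add_self, zero_smul, add_zero]

theorem tv_comm (v w : ι → ZMod 2) (h : pol A v w = 0) (u : ι → ZMod 2) :
    tv A v (tv A w u) = tv A w (tv A v u) := by
  have h' : pol A w v = 0 := by rw [pol_comm]; exact h
  unfold tv
  rw [pol_add_left, pol_add_left, pol_smul_left, pol_smul_left, h, h', mul_zero, mul_zero,
    add_zero, add_zero]
  abel

end transv

section compl

variable {ι : Type} [Fintype ι] [DecidableEq ι] {A : Matrix ι ι (ZMod 2)}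

/-- an additive involutive isometry is given by an element of the isometry group -/
theorem exists_iso_of_fun (T : (ι → ZMod 2) → (ι → ZMod 2))
    (hadd : ∀ u w, T (u + w) = T u + T w) (hinv : ∀ u, T (T u) = u)
    (hq : ∀ u, qf A (T u) = qf A u) :
    ∃ M : ↥(Cfsg.isometryGroup (ZMod 2) (qf A)),
      ∀ u, ((M : GL ι (ZMod 2)) : Matrix ι ι (ZMod 2)) *ᵥ u = T u := by
  obtain ⟨N, hN⟩ := exists_matrix T hadd
  have hNN : N * N = 1 := by
    apply mulVec_ext'
    intro w
    rw [← Matrix.mulVec_mulVec, hN, hN, hinv, Matrix.one_mulVec]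
  refine ⟨⟨⟨N, N, hNN, hNN⟩, mem_iso_iff.mpr (fun u => ?_)⟩, fun u => hN u⟩
  show qf A (N *ᵥ u) = qf A u
  rw [hN, hq]

theorem lift_in_compl (hc : Nat.card (Subgroup.center (MG A)) = 2)
    {L : Subgroup (MulAut (MG A))} (hL : (Cfsg.Inn (MG A)).IsComplement' L)
    (M : ↥(Cfsg.isometryGroup (ZMod 2) (qf A))) : ∃ l ∈ L, autHom hc l = M := by
  obtain ⟨φ, hφ⟩ := autHom_surj hc M
  obtain ⟨⟨⟨i, hi⟩, ⟨l, hl⟩⟩, h⟩ := hL.2 φ
  refine ⟨l, hl, ?_⟩
  have hi' : i ∈ (autHom hc).ker := by rw [ker_eq_inn hc]; exact hi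
  have h2 : autHom hc φ = autHom hc l := by
    rw [← h]
    show autHom hc (i * l) = _
    rw [map_mul, MonoidHom.mem_ker.mp hi', one_mul]
  rw [← h2, hφ]

theorem inj_on_compl (hc : Nat.card (Subgroup.center (MG A)) = 2)
    {L : Subgroup (MulAut (MG A))} (hL : (Cfsg.Inn (MG A)).IsComplement' L)
    (l : MulAut (MG A)) (hl : l ∈ L) (h : autHom hc l = 1) : l = 1 := by
  have h1 : l ∈ Cfsg.Inn (MG A) := by rw [← ker_eq_inn hc]; exact h
  exact Subgroup.disjoint_def.mp hL.disjoint h1 hl

theorem aut_apply (hc : Nat.card (Subgroup.center (MG A)) = 2) (φ : MulAut (MG A)) (g : MG A) :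
    φ g = ⟨g.a + kerL φ g.v, autT φ g.v⟩ := by
  conv_lhs => rw [mg_split g]
  rw [map_mul, aut_cen hc φ g.a]
  apply MG.ext
  · rw [mg_mul_a]
    show g.a + (φ ⟨0, g.v⟩).a + (0 : ι → ZMod 2) ⬝ᵥ A *ᵥ _ = _
    rw [zero_dotProduct, add_zero]
    rfl
  · rw [mg_mul_v]
    show 0 + (φ ⟨0, g.v⟩).v = _
    rw [zero_add]
    rfl

theorem z2_move : ∀ x y z : ZMod 2, x + y = z → y = z + x := by decide

theorem kerL_add' (hc : Nat.card (Subgroup.center (MG A)) = 2) (φ : MulAut (MG A))
    (u w : ι → ZMod 2) :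
    kerL φ (u + w) = kerL φ u + kerL φ w + bt A (autT φ u) (autT φ w) + bt A u w := by
  have h1 : φ ((⟨0, u⟩ : MG A) * ⟨0, w⟩) = φ ⟨0, u⟩ * φ ⟨0, w⟩ := map_mul φ _ _
  rw [aut_apply hc φ, aut_apply hc φ ⟨0, u⟩, aut_apply hc φ ⟨0, w⟩] at h1
  have h2 := congrArg MG.a h1
  rw [mg_mul_a] at h2
  change (0 : ZMod 2) + 0 + bt A u w + kerL φ (u + w)
    = 0 + kerL φ u + (0 + kerL φ w) + bt A (autT φ u) (autT φ w) at h2
  rw [zero_add, zero_add, zero_add, zero_add] at h2
  exact z2_move _ _ _ h2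

theorem kerL_mul (hc : Nat.card (Subgroup.center (MG A)) = 2) (φ ψ : MulAut (MG A))
    (u : ι → ZMod 2) : kerL (φ * ψ) u = kerL ψ u + kerL φ (autT ψ u) := by
  show ((φ * ψ) ⟨0, u⟩).a = _
  rw [MulAut.mul_apply, aut_apply hc ψ, aut_apply hc φ]
  show (0 + kerL ψ u) + kerL φ (autT ψ u) = _
  rw [zero_add]

theorem kerL_inv (hc : Nat.card (Subgroup.center (MG A)) = 2) (φ : MulAut (MG A))
    (hφ : φ * φ = 1) (u : ι → ZMod 2) : kerL φ (autT φ u) = kerL φ u := by
  have h := kerL_mul hc φ φ u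
  rw [hφ] at h
  have h0 : kerL (1 : MulAut (MG A)) u = 0 := rfl
  rw [h0] at h
  exact (z2_eq_of_add _ _ h.symm).symm

theorem kerL_inv_add (hc : Nat.card (Subgroup.center (MG A)) = 2) (φ : MulAut (MG A))
    (hφ : φ * φ = 1) (u : ι → ZMod 2) :
    kerL φ (autT φ u + u) = pol A u (autT φ u) := by
  have hT : autT φ (autT φ u) = u := by rw [← autT_mul hc, hφ, autT_one]
  rw [kerL_add' hc, kerL_inv hc φ hφ, z2_add_self, zero_add, hT]
  rfl

theorem kerL_comm (hc : Nat.card (Subgroup.center (MG A)) = 2) (φ ψ : MulAut (MG A))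
    (h : φ * ψ = ψ * φ) (u : ι → ZMod 2) :
    kerL ψ u + kerL φ (autT ψ u) = kerL φ u + kerL ψ (autT φ u) := by
  rw [← kerL_mul hc, ← kerL_mul hc, h]

theorem z2_final : ∀ x1 x2 lp y z lr y' z' : ZMod 2,
    x1 + (x2 + lp + (y + z) + y) = x2 + (x1 + lr + (y' + z') + y') → lp + lr = z' + z := by
  decide

/-- two commuting involutive isometries `T`, `S` whose lifts cannot commute -/
theorem no_complement_of_maps (hc : Nat.card (Subgroup.center (MG A)) = 2)
    (T S : (ι → ZMod 2) → (ι → ZMod 2))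
    (hTadd : ∀ u w, T (u + w) = T u + T w) (hTinv : ∀ u, T (T u) = u)
    (hTq : ∀ u, qf A (T u) = qf A u)
    (hSadd : ∀ u w, S (u + w) = S u + S w) (hSinv : ∀ u, S (S u) = u)
    (hSq : ∀ u, qf A (S u) = qf A u)
    (hTS : ∀ u, T (S u) = S (T u))
    (u0 p r a' b' : ι → ZMod 2)
    (hT0 : T u0 = u0 + r) (hS0 : S u0 = u0 + p) (hTp : T p = p) (hSr : S r = r)
    (hTa : T a' = a' + p) (hSb : S b' = b' + r)
    (hne : pol A a' p + pol A b' r ≠ pol A p r)
    (L : Subgroup (MulAut (MG A))) : ¬ (Cfsg.Inn (MG A)).IsComplement' L := by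
  intro hL
  obtain ⟨Mg, hMg⟩ := exists_iso_of_fun T hTadd hTinv hTq
  obtain ⟨Mh, hMh⟩ := exists_iso_of_fun S hSadd hSinv hSq
  obtain ⟨φ, hφL, hφ⟩ := lift_in_compl hc hL Mg
  obtain ⟨ψ, hψL, hψ⟩ := lift_in_compl hc hL Mh
  have hTφ : ∀ u, autT φ u = T u := by
    intro u
    rw [← autM_mulVec hc, ← autHom_coe hc, hφ, hMg]
  have hSψ : ∀ u, autT ψ u = S u := by
    intro u
    rw [← autM_mulVec hc, ← autHom_coe hc, hψ, hMh]
  have hφφ : φ * φ = 1 := by
    apply inj_on_compl hc hL _ (L.mul_mem hφL hφL)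
    apply Subtype.ext
    apply Units.ext
    show autM (φ * φ) = 1
    apply mulVec_ext'
    intro w
    rw [autM_mulVec hc, autT_mul hc, hTφ, hTφ, hTinv, Matrix.one_mulVec]
  have hψψ : ψ * ψ = 1 := by
    apply inj_on_compl hc hL _ (L.mul_mem hψL hψL)
    apply Subtype.ext
    apply Units.ext
    show autM (ψ * ψ) = 1
    apply mulVec_ext'
    intro w
    rw [autM_mulVec hc, autT_mul hc, hSψ, hSψ, hSinv, Matrix.one_mulVec]
  have hcomm : φ * ψ = ψ * φ := by
    have h1 : autHom hc (φ * ψ) = autHom hc (ψ * φ) := by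
      apply Subtype.ext
      apply Units.ext
      show autM (φ * ψ) = autM (ψ * φ)
      apply mulVec_ext'
      intro w
      rw [autM_mulVec hc, autM_mulVec hc, autT_mul hc, autT_mul hc, hTφ, hSψ, hTφ, hSψ, hTS]
    have h2 : φ * ψ * (ψ * φ)⁻¹ = 1 := by
      apply inj_on_compl hc hL _
        (L.mul_mem (L.mul_mem hφL hψL) (L.inv_mem (L.mul_mem hψL hφL)))
      rw [map_mul, map_inv, h1, mul_inv_cancel]
    exact mul_inv_eq_one.mp h2
  have hE := kerL_comm hc φ ψ hcomm u0
  have hp : autT φ a' + a' = p := by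
    rw [hTφ, hTa, add_comm, ← add_assoc, vec_add_self, zero_add]
  have hr : autT ψ b' + b' = r := by
    rw [hSψ, hSb, add_comm, ← add_assoc, vec_add_self, zero_add]
  have hlp : kerL φ p = pol A a' p := by
    have h := kerL_inv_add hc φ hφφ a'
    rw [hp, hTφ, hTa, pol_add_right, pol_self, zero_add] at h
    exact h
  have hlr : kerL ψ r = pol A b' r := by
    have h := kerL_inv_add hc ψ hψψ b'
    rw [hr, hSψ, hSb, pol_add_right, pol_self, zero_add] at h
    exact h
  rw [hSψ, hTφ, hS0, hT0, kerL_add' hc, kerL_add' hc, hTφ, hTφ, hSψ, hSψ, hT0, hS0, hTp, hSr,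
    hlp, hlr, bt_add_left, bt_add_left] at hE
  exact hne (z2_final _ _ _ _ _ _ _ _ hE)

/-- non-splitting from three pairwise orthogonal non-singular vectors -/
theorem no_complement (hc : Nat.card (Subgroup.center (MG A)) = 2) (a b c u0 a' b' : ι → ZMod 2)
    (ha : qf A a = 1) (hb : qf A b = 1) (hcq : qf A c = 1)
    (hab : pol A a b = 0) (hac : pol A a c = 0) (hbc : pol A b c = 0)
    (h1 : pol A u0 a = 1) (h2 : pol A u0 b = 0) (h3 : pol A u0 c = 0)
    (h4 : pol A a' a = 0) (h5 : pol A a' b = 1) (h6 : pol A a' c = 1)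
    (h7 : pol A b' a = 1) (h8 : pol A b' b + pol A b' c = 1)
    (L : Subgroup (MulAut (MG A))) : ¬ (Cfsg.Inn (MG A)).IsComplement' L := by
  have hba : pol A b a = 0 := by rw [pol_comm]; exact hab
  have hca : pol A c a = 0 := by rw [pol_comm]; exact hac
  have hcb : pol A c b = 0 := by rw [pol_comm]; exact hbc
  have hqd : qf A (a + b + c) = 1 := by
    rw [qf_add, qf_add, ha, hb, hcq, hab, pol_add_left, hac, hbc]
    decide
  have hda : pol A (a + b + c) a = 0 := by
    rw [pol_add_left, pol_add_left, pol_self, hba, hca]; decide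
  have hdb : pol A (a + b + c) b = 0 := by
    rw [pol_add_left, pol_add_left, pol_self, hab, hcb]; decide
  have hdc : pol A (a + b + c) c = 0 := by
    rw [pol_add_left, pol_add_left, pol_self, hac, hbc]; decide
  have had : pol A a (a + b + c) = 0 := by rw [pol_comm]; exact hda
  have hbd : pol A b (a + b + c) = 0 := by rw [pol_comm]; exact hdb
  have hcd : pol A c (a + b + c) = 0 := by rw [pol_comm]; exact hdc
  refine no_complement_of_maps hc
    (fun u => tv A a (tv A b (tv A c u))) (fun u => tv A a (tv A (a + b + c) u))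
    (fun u w => by simp only [tv_add]) (fun u => ?_) (fun u => by simp only [tv_qf, ha, hb, hcq])
    (fun u w => by simp only [tv_add]) (fun u => ?_) (fun u => by simp only [tv_qf, ha, hqd])
    (fun u => ?_) u0 (b + c) a a' b' ?_ ?_ ?_ ?_ ?_ ?_ ?_ L
  · show tv A a (tv A b (tv A c (tv A a (tv A b (tv A c u))))) = u
    rw [tv_comm A c a hca, tv_comm A c b hcb, tv_tv, tv_comm A b a hba, tv_tv, tv_tv]
  · show tv A a (tv A (a + b + c) (tv A a (tv A (a + b + c) u))) = u
    rw [tv_comm A (a + b + c) a hda, tv_tv, tv_tv]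
  · show tv A a (tv A b (tv A c (tv A a (tv A (a + b + c) u))))
      = tv A a (tv A (a + b + c) (tv A a (tv A b (tv A c u))))
    rw [tv_comm A c a hca, tv_comm A c (a + b + c) hcd, tv_comm A b a hba,
      tv_comm A b (a + b + c) hbd, tv_comm A a (a + b + c) had]
  · show tv A a (tv A b (tv A c u0)) = u0 + a
    unfold tv
    rw [h3, zero_smul, add_zero, h2, zero_smul, add_zero, h1, one_smul]
  · show tv A a (tv A (a + b + c) u0) = u0 + (b + c)
    unfold tv
    rw [pol_add_right, pol_add_right, h1, h2, h3, add_zero, add_zero, one_smul, pol_add_left, h1,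
      hda, add_zero, one_smul]
    rw [add_assoc, add_assoc, add_assoc]
    congr 1
    rw [add_comm a, add_assoc, add_assoc, vec_add_self, add_zero]
  · show tv A a (tv A b (tv A c (b + c))) = b + c
    unfold tv
    rw [pol_add_left, hbc, pol_self, add_zero, zero_smul, add_zero, pol_add_left, pol_self, hcb,
      add_zero, zero_smul, add_zero, pol_add_left, hba, hca, add_zero, zero_smul, add_zero]
  · show tv A a (tv A (a + b + c) a) = a
    unfold tv
    rw [had, zero_smul, add_zero, pol_self, zero_smul, add_zero]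
  · show tv A a (tv A b (tv A c a')) = a' + (b + c)
    unfold tv
    rw [h6, one_smul, pol_add_left, h5, hcb, add_zero, one_smul, pol_add_left, pol_add_left, h4,
      hca, hba, add_zero, add_zero, zero_smul, add_zero, add_assoc, add_comm c b]
  · show tv A a (tv A (a + b + c) b') = b' + a
    have h9 : pol A b' (a + b + c) = 0 := by
      rw [pol_add_right, pol_add_right, h7, add_assoc, h8]; decide
    unfold tv
    rw [h9, zero_smul, add_zero, h7, one_smul]
  · rw [pol_add_right, h5, h6, h7, pol_add_left, hba, hca]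
    decide

end compl

section plus
variable {n : ℕ}

/-- basis vectors -/
def vE (i : Fin n) : Fin n ⊕ Fin n → ZMod 2 := Pi.single (Sum.inl i) 1
def vF (i : Fin n) : Fin n ⊕ Fin n → ZMod 2 := Pi.single (Sum.inr i) 1

theorem bt_EF (i j : Fin n) : bt (Aplus n) (vE i) (vF j) = if i = j then 1 else 0 := by
  unfold bt
  rw [aplus_form]
  by_cases h : i = j
  · subst h
    simp [vE, vF, Pi.single_apply]
  · have h' : ¬ j = i := fun e => h e.symm
    simp [vE, vF, Pi.single_apply, h, h']

theorem bt_EE (i j : Fin n) : bt (Aplus n) (vE i) (vE j) = 0 := by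
  unfold bt
  rw [aplus_form]
  simp [vE, Pi.single_apply]

theorem bt_FE (i j : Fin n) : bt (Aplus n) (vF i) (vE j) = 0 := by
  unfold bt
  rw [aplus_form]
  simp [vE, vF]

theorem bt_FF (i j : Fin n) : bt (Aplus n) (vF i) (vF j) = 0 := by
  unfold bt
  rw [aplus_form]
  simp [vF, Pi.single_apply]

theorem no_complement_plus (hc : Nat.card (Subgroup.center (MG (Aplus n))) = 2) (hn : 3 ≤ n)
    (L : Subgroup (MulAut (MG (Aplus n)))) : ¬ (Cfsg.Inn (MG (Aplus n))).IsComplement' L := by
  let i0 : Fin n := ⟨0, by omega⟩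
  let i1 : Fin n := ⟨1, by omega⟩
  let i2 : Fin n := ⟨2, by omega⟩
  have h01 : i0 ≠ i1 := Fin.ne_of_val_ne (show (0 : ℕ) ≠ 1 by decide)
  have h02 : i0 ≠ i2 := Fin.ne_of_val_ne (show (0 : ℕ) ≠ 2 by decide)
  have h12 : i1 ≠ i2 := Fin.ne_of_val_ne (show (1 : ℕ) ≠ 2 by decide)
  have h10 : i1 ≠ i0 := h01.symm
  have h20 : i2 ≠ i0 := h02.symm
  have h21 : i2 ≠ i1 := h12.symm
  refine no_complement hc (vE i0 + vF i0) (vE i1 + vF i1) (vE i2 + vF i2) (vE i0)
    (vE i1 + vE i2) (vE i0 + vE i1) ?_ ?_ ?_ ?_ ?_ ?_ ?_ ?_ ?_ ?_ ?_ ?_ ?_ ?_ L <;>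
  simp only [qf_eq_bt, pol, bt_add_left, bt_add_right, bt_EF, bt_EE, bt_FE, bt_FF, if_true,
    if_neg h01, if_neg h02, if_neg h12, if_neg h10, if_neg h20, if_neg h21] <;> decide

end plus

section transport

universe u v

theorem inn_map_congr {G : Type u} {H : Type v} [Group G] [Group H] (e : G ≃* H) :
    (Cfsg.Inn G).map (MulAut.congr e : MulAut G →* MulAut H) = Cfsg.Inn H := by
  ext ψ
  constructor
  · rintro ⟨φ, ⟨g, rfl⟩, rfl⟩
    refine ⟨e g, ?_⟩
    ext x
    simp [MulAut.congr]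
  · rintro ⟨h, rfl⟩
    refine ⟨MulAut.conj (e.symm h), ⟨e.symm h, rfl⟩, ?_⟩
    ext x
    simp [MulAut.congr]

theorem complement_congr {G : Type u} {H : Type v} [Group G] [Group H] [Finite G] (e : G ≃* H)
    (L : Subgroup (MulAut G)) (hL : (Cfsg.Inn G).IsComplement' L) :
    (Cfsg.Inn H).IsComplement' (L.map (MulAut.congr e : MulAut G →* MulAut H)) := by
  have : Finite H := Finite.of_equiv G e.toEquiv
  have hinj : Function.Injective (MulAut.congr e : MulAut G →* MulAut H) :=
    (MulAut.congr e).injective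
  rw [← inn_map_congr e]
  apply Subgroup.isComplement'_of_card_mul_and_disjoint
  · rw [Subgroup.card_map_of_injective hinj, Subgroup.card_map_of_injective hinj,
      hL.card_mul_card]
    exact Nat.card_congr (MulAut.congr e).toEquiv
  · rw [Subgroup.disjoint_def]
    rintro x ⟨a, ha, rfl⟩ ⟨b, hb, hab⟩
    have hba : b = a := hinj hab
    subst hba
    have := Subgroup.disjoint_def.mp hL.disjoint ha hb
    rw [this, map_one]

end transport

end Cfsg.Agent.H91
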