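import Mathlib
import Cfsg.Agent.H83.ESDefs

/-!
# ES-SVNCORE (helper91, for helper83's S3084 project): Stone–von Neumann over `ZMod 3`

`2n` involutions `x i`, `z i` of `(ZMod 3)^(2^n)` satisfying the Pauli commutation relations are
simultaneously conjugate to the standard `X (e_i)`, `Z (e_i)`.
-/

set_option autoImplicit false

namespace Cfsg.Agent.H91.ES

open Matrix Cfsg.Agent.H83.ES

theorem sgn_mul_self (t : ZMod 2) : sgn t * sgn t = 1 := by
  revert t
  unfold sgn
  decide

theorem sgn_mul_ne (s t : ZMod 2) (h : s ≠ t) : sgn t * sgn s = -1 := by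
  revert s t
  unfold sgn
  decide

theorem dot_single {n : ℕ} (i : Fin n) (a : Idx n) : dot (Pi.single i 1) a = a i := by
  unfold dot
  rw [Finset.sum_eq_single i]
  · simp
  · intro k _ hk
    simp [Pi.single_eq_of_ne hk]
  · intro h
    exact absurd (Finset.mem_univ i) h

theorem pow_flip {n : ℕ} (Y : Matrix (Idx n) (Idx n) (ZMod 3)) (hY : Y * Y = 1) (t : ZMod 2) :
    Y ^ (t + 1).val = Y * Y ^ t.val := by
  have h1 : ∀ t : ZMod 2, t = 0 ∨ t = 1 := by decide
  rcases h1 t with rfl | rfl
  · have h2 : ((0 : ZMod 2) + 1).val = 1 := by decide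
    have h3 : (0 : ZMod 2).val = 0 := by decide
    rw [h2, h3, pow_zero, pow_one, mul_one]
  · have h2 : ((1 : ZMod 2) + 1).val = 0 := by decide
    have h3 : (1 : ZMod 2).val = 1 := by decide
    rw [h2, h3, pow_zero, pow_one, hY]

/-- A common fixed vector of the `z i`. -/
theorem exists_fixed (n : ℕ) (x z : Fin n → Matrix (Idx n) (Idx n) (ZMod 3))
    (hx : ∀ i, x i * x i = 1) (hz : ∀ i, z i * z i = 1)
    (hzc : ∀ i j, z i * z j = z j * z i)
    (hzx : ∀ i j, z j * x i = (if i = j then (-1 : ZMod 3) else 1) • (x i * z j)) :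
    ∃ v : Idx n → ZMod 3, v ≠ 0 ∧ ∀ i, z i *ᵥ v = v := by
  have key : ∀ j : ℕ, j ≤ n →
      ∃ v : Idx n → ZMod 3, v ≠ 0 ∧ ∀ i : Fin n, i.val < j → z i *ᵥ v = v := by
    intro j
    induction j with
    | zero =>
      intro _
      refine ⟨fun _ => 1, ?_, fun i hi => absurd hi (Nat.not_lt_zero _)⟩
      intro h
      have h1 := congrFun h 0
      have h2 : (1 : ZMod 3) ≠ 0 := by decide
      exact h2 h1
    | succ j ih =>
      intro hj
      obtain ⟨v, hv0, hv⟩ := ih (by omega)
      by_cases h : v + z ⟨j, by omega⟩ *ᵥ v = 0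
      · have hzv : z ⟨j, by omega⟩ *ᵥ v = -v := (eq_neg_of_add_eq_zero_right h)
        refine ⟨x ⟨j, by omega⟩ *ᵥ v, ?_, ?_⟩
        · intro h0
          apply hv0
          have h1 : (x ⟨j, by omega⟩ * x ⟨j, by omega⟩) *ᵥ v = v := by rw [hx, one_mulVec]
          rw [← h1, ← mulVec_mulVec, h0, mulVec_zero]
        · intro i hi
          rw [mulVec_mulVec]
          by_cases hij : i = ⟨j, by omega⟩
          · rw [hij, hzx ⟨j, by omega⟩ ⟨j, by omega⟩, if_pos rfl, smul_mulVec, ← mulVec_mulVec,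
              hzv, mulVec_neg, neg_smul, one_smul, neg_neg]
          · have hlt : i.val < j := by
              have h1 : i.val ≠ j := fun h' => hij (Fin.ext h')
              omega
            rw [hzx ⟨j, by omega⟩ i, if_neg (Ne.symm hij), one_smul, ← mulVec_mulVec, hv i hlt]
      · refine ⟨v + z ⟨j, by omega⟩ *ᵥ v, h, ?_⟩
        intro i hi
        rw [mulVec_add, mulVec_mulVec]
        by_cases hij : i = ⟨j, by omega⟩
        · rw [hij, hz, one_mulVec, add_comm]
        · have hlt : i.val < j := by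
            have h1 : i.val ≠ j := fun h' => hij (Fin.ext h')
            omega
          rw [hzc i ⟨j, by omega⟩, ← mulVec_mulVec, hv i hlt]
  obtain ⟨v, hv0, hv⟩ := key n le_rfl
  exact ⟨v, hv0, fun i => hv i i.2⟩

theorem xp_comm {n : ℕ} (x : Fin n → Matrix (Idx n) (Idx n) (ZMod 3))
    (hxc : ∀ i j, x i * x j = x j * x i) (a : Idx n) (S : Finset (Fin n)) :
    (S : Set (Fin n)).Pairwise (Function.onFun Commute (fun i => x i ^ (ZMod.val (a i)))) :=
  fun i _ j _ _ => (show Commute (x i) (x j) from hxc i j).pow_pow _ _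

/-- The product of the `x i` with `a i = 1`. -/
noncomputable def xp {n : ℕ} (x : Fin n → Matrix (Idx n) (Idx n) (ZMod 3))
    (hxc : ∀ i j, x i * x j = x j * x i) (a : Idx n) : Matrix (Idx n) (Idx n) (ZMod 3) :=
  Finset.univ.noncommProd (fun i => x i ^ (ZMod.val (a i))) (xp_comm x hxc a _)

/-- The same product without the factor `j`. -/
noncomputable def xpe {n : ℕ} (x : Fin n → Matrix (Idx n) (Idx n) (ZMod 3))
    (hxc : ∀ i j, x i * x j = x j * x i) (a : Idx n) (j : Fin n) :
    Matrix (Idx n) (Idx n) (ZMod 3) :=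
  (Finset.univ.erase j).noncommProd (fun i => x i ^ (ZMod.val (a i))) (xp_comm x hxc a _)

theorem xp_eq {n : ℕ} (x : Fin n → Matrix (Idx n) (Idx n) (ZMod 3))
    (hxc : ∀ i j, x i * x j = x j * x i) (a : Idx n) (j : Fin n) :
    xp x hxc a = x j ^ (ZMod.val (a j)) * xpe x hxc a j :=
  (Finset.mul_noncommProd_erase Finset.univ (Finset.mem_univ j)
    (fun i => x i ^ (ZMod.val (a i))) (xp_comm x hxc a _) (xp_comm x hxc a _)).symm

theorem xp_add_single {n : ℕ} (x : Fin n → Matrix (Idx n) (Idx n) (ZMod 3))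
    (hx : ∀ i, x i * x i = 1) (hxc : ∀ i j, x i * x j = x j * x i) (a : Idx n) (i : Fin n) :
    xp x hxc (a + Pi.single i 1) = x i * xp x hxc a := by
  rw [xp_eq x hxc (a + Pi.single i 1) i, xp_eq x hxc a i, ← mul_assoc]
  congr 1
  · simp only [Pi.add_apply, Pi.single_eq_same]
    exact pow_flip (x i) (hx i) (a i)
  · unfold xpe
    apply Finset.noncommProd_congr rfl
    intro k hk
    have hki : k ≠ i := Finset.ne_of_mem_erase hk
    simp [Pi.single_eq_of_ne hki]

theorem z_xp {n : ℕ} (x z : Fin n → Matrix (Idx n) (Idx n) (ZMod 3))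
    (hxc : ∀ i j, x i * x j = x j * x i)
    (hzx : ∀ i j, z j * x i = (if i = j then (-1 : ZMod 3) else 1) • (x i * z j))
    (a : Idx n) (j : Fin n) :
    z j * xp x hxc a = sgn (a j) • (xp x hxc a * z j) := by
  have hR := xp_eq x hxc a j
  have hcR : Commute (z j) (xpe x hxc a j) := by
    unfold xpe
    apply Finset.noncommProd_commute
    intro k hk
    have hkj : k ≠ j := Finset.ne_of_mem_erase hk
    have h1 : Commute (z j) (x k) := by
      have h2 := hzx k j
      rw [if_neg hkj, one_smul] at h2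
      exact h2
    exact h1.pow_right _
  have h1 : z j * x j ^ (ZMod.val (a j)) = sgn (a j) • (x j ^ (ZMod.val (a j)) * z j) := by
    have h2 : ∀ t : ZMod 2, t = 0 ∨ t = 1 := by decide
    rcases h2 (a j) with h | h
    · rw [h]
      have h3 : (0 : ZMod 2).val = 0 := by decide
      have h4 : sgn 0 = 1 := by unfold sgn; decide
      rw [h3, h4, pow_zero, mul_one, one_mul, one_smul]
    · rw [h]
      have h3 : (1 : ZMod 2).val = 1 := by decide
      have h4 : sgn 1 = -1 := by unfold sgn; decide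
      have h5 := hzx j j
      rw [if_pos rfl] at h5
      rw [h3, h4, pow_one, h5]
  calc z j * xp x hxc a = (z j * x j ^ (ZMod.val (a j))) * xpe x hxc a j := by
        rw [hR, mul_assoc]
    _ = sgn (a j) • (x j ^ (ZMod.val (a j)) * (z j * xpe x hxc a j)) := by
        rw [h1, smul_mul_assoc, mul_assoc]
    _ = sgn (a j) • (x j ^ (ZMod.val (a j)) * (xpe x hxc a j * z j)) := by rw [hcR.eq]
    _ = sgn (a j) • (xp x hxc a * z j) := by rw [hR, mul_assoc]

theorem xp_isUnit {n : ℕ} (x : Fin n → Matrix (Idx n) (Idx n) (ZMod 3))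
    (hx : ∀ i, x i * x i = 1) (hxc : ∀ i j, x i * x j = x j * x i) (a : Idx n) :
    IsUnit (xp x hxc a) := by
  unfold xp
  exact Finset.noncommProd_induction _ _ _ IsUnit (fun a b ha hb => ha.mul hb) isUnit_one
    (fun i _ => (isUnit_iff_exists.mpr ⟨x i, hx i, hx i⟩).pow _)

theorem svnCore : StSvNCore := by
  intro n x z hx hz hxc hzc hzx
  obtain ⟨v₀, hv0, hv⟩ := exists_fixed n x z hx hz hzc hzx
  let M : Matrix (Idx n) (Idx n) (ZMod 3) := Matrix.of (fun r a => (xp x hxc a *ᵥ v₀) r)
  have hM : ∀ r a, M r a = (xp x hxc a *ᵥ v₀) r := fun r a => rfl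
  have hwne : ∀ a, xp x hxc a *ᵥ v₀ ≠ 0 := by
    intro a h0
    obtain ⟨u, hu⟩ := xp_isUnit x hx hxc a
    apply hv0
    have h1 : ((↑u⁻¹ : Matrix (Idx n) (Idx n) (ZMod 3)) * xp x hxc a) *ᵥ v₀ = v₀ := by
      rw [← hu, Units.inv_mul, one_mulVec]
    rw [← h1, ← mulVec_mulVec, h0, mulVec_zero]
  have hzw : ∀ i a, z i *ᵥ (xp x hxc a *ᵥ v₀) = sgn (a i) • (xp x hxc a *ᵥ v₀) := by
    intro i a
    rw [mulVec_mulVec, z_xp x z hxc hzx a i, smul_mulVec, ← mulVec_mulVec, hv i]
  have hMX : ∀ i, M * X (Pi.single i 1) = x i * M := by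
    intro i
    ext r a
    rw [Matrix.mul_apply, Matrix.mul_apply]
    have h1 : ∑ b, M r b * X (Pi.single i 1) b a = M r (a + Pi.single i 1) := by
      rw [Finset.sum_eq_single (a + Pi.single i 1)]
      · simp [X]
      · intro b _ hb
        simp [X, hb]
      · intro h
        exact absurd (Finset.mem_univ _) h
    rw [h1, hM, xp_add_single x hx hxc a i, ← mulVec_mulVec]
    rfl
  have hMZ : ∀ i, M * Z (Pi.single i 1) = z i * M := by
    intro i
    ext r a
    rw [Z, Matrix.mul_diagonal, Matrix.mul_apply, dot_single, hM]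
    have h2 := congrFun (hzw i a) r
    rw [mul_comm]
    exact h2.symm
  have hK1 : ∀ (f : Idx n → ZMod 3) (i : Fin n), M *ᵥ f = 0 →
      M *ᵥ (fun a => sgn (a i) * f a) = 0 := by
    intro f i hf
    have h1 : (fun a => sgn (a i) * f a) = Z (Pi.single i 1) *ᵥ f := by
      funext a
      rw [Z, Matrix.mulVec_diagonal, dot_single]
    rw [h1, mulVec_mulVec, hMZ, ← mulVec_mulVec, hf, mulVec_zero]
  have hK2 : ∀ (b : Idx n) (S : Finset (Fin n)) (f : Idx n → ZMod 3), M *ᵥ f = 0 →
      M *ᵥ (fun a => if ∀ i ∈ S, a i = b i then f a else 0) = 0 := by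
    intro b S
    induction S using Finset.induction_on with
    | empty =>
      intro f hf
      simpa using hf
    | insert i S hi ih =>
      intro f hf
      have h1 := ih f hf
      have h2 := hK1 _ i h1
      have h3 : (fun a => if ∀ k ∈ insert i S, a k = b k then f a else 0) =
          -((fun a => if ∀ k ∈ S, a k = b k then f a else 0) +
            sgn (b i) • (fun a => sgn (a i) * (if ∀ k ∈ S, a k = b k then f a else 0))) := by
        funext a
        simp only [Finset.forall_mem_insert, Pi.neg_apply, Pi.add_apply, Pi.smul_apply,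
          smul_eq_mul]
        by_cases hS : ∀ k ∈ S, a k = b k
        · by_cases hab : a i = b i
          · rw [if_pos ⟨hab, hS⟩, if_pos hS, hab]
            have h4 := sgn_mul_self (b i)
            have h5 : (3 : ZMod 3) = 0 := by decide
            linear_combination (f a) * h4 + (f a) * h5
          · rw [if_neg (fun h => hab h.1), if_pos hS]
            have h4 := sgn_mul_ne (a i) (b i) hab
            linear_combination (f a) * h4
        · rw [if_neg (fun h => hS h.2), if_neg hS]
          simp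
      rw [h3, mulVec_neg, mulVec_add, mulVec_smul, h1, h2]
      simp
  have hker : ∀ f : Idx n → ZMod 3, M *ᵥ f = 0 → f = 0 := by
    intro f hf
    funext b
    obtain ⟨r, hr⟩ := Function.ne_iff.mp (hwne b)
    have h1 := congrFun (hK2 b Finset.univ f hf) r
    simp only [Matrix.mulVec, dotProduct, Pi.zero_apply] at h1
    rw [Finset.sum_eq_single b] at h1
    · rw [if_pos (fun i _ => rfl), hM] at h1
      rcases mul_eq_zero.mp h1 with h | h
      · exact absurd h hr
      · exact h
    · intro a _ hab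
      rw [if_neg, mul_zero]
      intro h
      exact hab (funext fun i => h i (Finset.mem_univ i))
    · intro h
      exact absurd (Finset.mem_univ _) h
  refine ⟨M, ?_, hMX, hMZ⟩
  rw [isUnit_iff_ne_zero]
  intro hdet
  obtain ⟨f, hf0, hf⟩ := Matrix.exists_mulVec_eq_zero_iff.mpr hdet
  exact hf0 (hker f hf)

example : ∀ (n : ℕ) (x z : Fin n → Matrix (Idx n) (Idx n) (ZMod 3)),
    (∀ i, x i * x i = 1) → (∀ i, z i * z i = 1) → (∀ i j, x i * x j = x j * x i) →
    (∀ i j, z i * z j = z j * z i) →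
    (∀ i j, z j * x i = (if i = j then (-1 : ZMod 3) else 1) • (x i * z j)) →
    ∃ M : Matrix (Idx n) (Idx n) (ZMod 3), IsUnit M.det ∧
      (∀ i, M * X (Pi.single i 1) = x i * M) ∧ (∀ i, M * Z (Pi.single i 1) = z i * M) :=
  svnCore

end Cfsg.Agent.H91.ES
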