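import Mathlib
import Cfsg.Agent.H83.ESDefs
import Cfsg.Agent.H91.ESSvNCore

/-!
# ES-SVN (helper91, for helper83's S3084 project)

Every isometry `g` of the standard quadratic form `q0` on `F_2^n × F_2^n` lifts to an invertible
matrix `M` with `M * P u = ± P (g u) * M` for all `u`.
-/

set_option autoImplicit false

namespace Cfsg.Agent.H91.ES

open Matrix Cfsg.Agent.H83.ES

theorem sgn_pm (t : ZMod 2) : sgn t = 1 ∨ sgn t = -1 := by
  unfold sgn
  split_ifs
  · exact Or.inl rfl
  · exact Or.inr rfl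

theorem pm_mul (ε δ : ZMod 3) (hε : ε = 1 ∨ ε = -1) (hδ : δ = 1 ∨ δ = -1) :
    ε * δ = 1 ∨ ε * δ = -1 := by
  rcases hε with rfl | rfl <;> rcases hδ with rfl | rfl <;> simp

theorem svn (hPB : StPB) (hCore : StSvNCore) : StSvN := by
  intro n g hg
  obtain ⟨pb1, pb2, pb3, pb4, pb5, pb6, -, -⟩ := hPB n
  have hb0 : ∀ u v, b0 (g u) (g v) = b0 u v := by
    intro u v
    rw [pb6, pb6, ← map_add, hg, hg, hg]
  have hq1 : ∀ i : Fin n, q0 ((Pi.single i 1, 0) : Idx n × Idx n) = 0 := by
    intro i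
    simp [q0, dot]
  have hq2 : ∀ i : Fin n, q0 ((0, Pi.single i 1) : Idx n × Idx n) = 0 := by
    intro i
    simp [q0, dot]
  have hs0 : sgn 0 = 1 := by
    unfold sgn
    simp
  have hs1 : sgn 1 = -1 := by
    unfold sgn
    decide
  have hbxx : ∀ i j : Fin n,
      b0 ((Pi.single i 1, 0) : Idx n × Idx n) (Pi.single j 1, 0) = 0 := by
    intro i j
    simp [b0, dot]
  have hbzz : ∀ i j : Fin n,
      b0 ((0, Pi.single i 1) : Idx n × Idx n) (0, Pi.single j 1) = 0 := by
    intro i j
    simp [b0, dot]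
  have hbzx : ∀ i j : Fin n,
      b0 ((0, Pi.single j 1) : Idx n × Idx n) (Pi.single i 1, 0) = if i = j then 1 else 0 := by
    intro i j
    have h1 : b0 ((0, Pi.single j 1) : Idx n × Idx n) (Pi.single i 1, 0) =
        dot (0 : Idx n) (0 : Idx n) + dot (Pi.single j 1) (Pi.single i 1 : Idx n) := rfl
    rw [h1, dot_single, Pi.single_apply]
    have h2 : dot (0 : Idx n) (0 : Idx n) = 0 := by simp [dot]
    rw [h2, zero_add]
    by_cases h : i = j
    · rw [if_pos h, if_pos h.symm]
    · rw [if_neg h, if_neg (Ne.symm h)]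
  obtain ⟨M, hMdet, hMX, hMZ⟩ := hCore n (fun i => P (g (Pi.single i 1, 0)))
    (fun i => P (g (0, Pi.single i 1)))
    (by
      intro i
      rw [pb3, hg, hq1, hs0, one_smul])
    (by
      intro i
      rw [pb3, hg, hq2, hs0, one_smul])
    (by
      intro i j
      rw [pb4, hb0, hbxx, hs0, one_smul])
    (by
      intro i j
      rw [pb4, hb0, hbzz, hs0, one_smul])
    (by
      intro i j
      rw [pb4, hb0, hbzx]
      by_cases h : i = j
      · rw [if_pos h, if_pos h, hs1]
      · rw [if_neg h, if_neg h, hs0])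
  refine ⟨M, hMdet, ?_⟩
  let T : Submodule (ZMod 2) (Idx n × Idx n) :=
    { carrier := {u | ∃ ε : ZMod 3, (ε = 1 ∨ ε = -1) ∧ M * P u = ε • (P (g u) * M)}
      add_mem' := by
        rintro u v ⟨ε, hε, hu⟩ ⟨δ, hδ, hv⟩
        refine ⟨sgn (dot u.2 v.1) * ε * δ * sgn (dot (g u).2 (g v).1),
          pm_mul _ _ (pm_mul _ _ (pm_mul _ _ (sgn_pm _) hε) hδ) (sgn_pm _), ?_⟩
        have h1 : P (u + v) = sgn (dot u.2 v.1) • (P u * P v) := by
          rw [pb2, smul_smul, sgn_mul_self, one_smul]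
        have h2 : P (g u) * P (g v) = sgn (dot (g u).2 (g v).1) • P (g (u + v)) := by
          rw [pb2, map_add]
        calc M * P (u + v) = sgn (dot u.2 v.1) • (M * P u * P v) := by
              rw [h1, Matrix.mul_smul, mul_assoc]
          _ = sgn (dot u.2 v.1) • (ε • (P (g u) * (M * P v))) := by
              rw [hu, Matrix.smul_mul, mul_assoc]
          _ = sgn (dot u.2 v.1) • (ε • (δ • (P (g u) * P (g v) * M))) := by
              rw [hv, Matrix.mul_smul, mul_assoc]
          _ = (sgn (dot u.2 v.1) * ε * δ * sgn (dot (g u).2 (g v).1)) • (P (g (u + v)) * M) := by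
              rw [h2, Matrix.smul_mul, smul_smul, smul_smul, smul_smul]
      zero_mem' := ⟨1, Or.inl rfl, by rw [map_zero, pb1, mul_one, one_mul, one_smul]⟩
      smul_mem' := by
        intro c u hu
        have hc : ∀ c : ZMod 2, c = 0 ∨ c = 1 := by decide
        rcases hc c with rfl | rfl
        · rw [zero_smul]
          exact ⟨1, Or.inl rfl, by rw [map_zero, pb1, mul_one, one_mul, one_smul]⟩
        · rw [one_smul]
          exact hu }
  have hex : ∀ i : Fin n, ((Pi.single i 1, 0) : Idx n × Idx n) ∈ T := by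
    intro i
    refine ⟨1, Or.inl rfl, ?_⟩
    rw [(pb5 i).1, one_smul]
    exact hMX i
  have hez : ∀ i : Fin n, ((0, Pi.single i 1) : Idx n × Idx n) ∈ T := by
    intro i
    refine ⟨1, Or.inl rfl, ?_⟩
    rw [(pb5 i).2, one_smul]
    exact hMZ i
  intro u
  have hdecomp : u = ∑ i, u.1 i • ((Pi.single i 1, 0) : Idx n × Idx n) +
      ∑ i, u.2 i • ((0, Pi.single i 1) : Idx n × Idx n) := by
    apply Prod.ext
    · simp only [Prod.fst_add, Prod.fst_sum, Prod.smul_fst, smul_zero, Finset.sum_const_zero,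
        add_zero]
      funext k
      simp [Finset.sum_apply, Pi.single_apply]
    · simp only [Prod.snd_add, Prod.snd_sum, Prod.smul_snd, smul_zero, Finset.sum_const_zero,
        zero_add]
      funext k
      simp [Finset.sum_apply, Pi.single_apply]
  have hu : u ∈ T := by
    rw [hdecomp]
    exact T.add_mem (T.sum_mem fun i _ => T.smul_mem _ (hex i))
      (T.sum_mem fun i _ => T.smul_mem _ (hez i))
  exact hu

example (hPB : StPB) (hCore : StSvNCore) :
    ∀ (n : ℕ) (g : Module.End (ZMod 2) (Idx n × Idx n)), (∀ u, q0 (g u) = q0 u) →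
    ∃ M : Matrix (Idx n) (Idx n) (ZMod 3), IsUnit M.det ∧
      ∀ u, ∃ ε : ZMod 3, (ε = 1 ∨ ε = -1) ∧ M * P u = ε • (P (g u) * M) :=
  svn hPB hCore

end Cfsg.Agent.H91.ES
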