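import Mathlib
import Cfsg.Prelude.Def_FischerSpaces

set_option autoImplicit false

/-!
Helper library of helper91: line systems with three-point lines, the relation
"`b` is the image of `a` under the map t(p)", its transport along isomorphisms, and the fact
that in the two model planes (dual affine plane of order 2, affine plane of order 3) the map
t(p) sends lines into lines.
-/

namespace Cfsg.Agent.H91

open Cfsg Cfsg.LineSystem

variable {X : Type*} {Y : Type*}

/-- `b` is the image of `a` under the map t(p) of the line system `M`: the third point of a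
line `{p, a, b}`, or `a` itself when there is no such line. -/
def Third (M : Set (Set Y)) (p a b : Y) : Prop :=
  (b ≠ p ∧ b ≠ a ∧ p ≠ a ∧ ({p, a, b} : Set Y) ∈ M) ∨
  ((¬ ∃ z : Y, z ≠ p ∧ z ≠ a ∧ p ≠ a ∧ ({p, a, z} : Set Y) ∈ M) ∧ b = a)

theorem third_lineMap (L : Set (Set X)) (x y : X) : Third L x y (lineMap L x y) := by
  unfold lineMap
  by_cases h : ∃ z : X, z ≠ x ∧ z ≠ y ∧ x ≠ y ∧ ({x, y, z} : Set X) ∈ L
  · left
    rw [dif_pos h]
    exact h.choose_spec
  · right
    exact ⟨h, by rw [dif_neg h]⟩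

theorem third_unique {M : Set (Set Y)} (hPL : IsPartialLinear M) {p a b b' : Y}
    (h : Third M p a b) (h' : Third M p a b') : b = b' := by
  rcases h with ⟨h1, h2, h3, h4⟩ | ⟨h1, h2⟩
  · rcases h' with ⟨h1', h2', h3', h4'⟩ | ⟨h1', h2'⟩
    · have heq := hPL _ h4 _ h4' p a h3 (by simp) (by simp) (by simp) (by simp)
      have hb : b ∈ ({p, a, b'} : Set Y) := by rw [← heq]; simp
      rcases hb with h | h | h
      · exact absurd h h1
      · exact absurd h h2
      · exact h
    · exact absurd ⟨b, h1, h2, h3, h4⟩ h1'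
  · rcases h' with ⟨h1', h2', h3', h4'⟩ | ⟨h1', h2'⟩
    · exact absurd ⟨b', h1', h2', h3', h4'⟩ h1
    · rw [h2, h2']

theorem third_iso {N : Set (Set X)} {M : Set (Set Y)} {e : X ≃ Y} (he : IsIso N M e)
    {p a b : X} (h : Third N p a b) : Third M (e p) (e a) (e b) := by
  rcases h with ⟨h1, h2, h3, h4⟩ | ⟨h1, h2⟩
  · left
    refine ⟨e.injective.ne h1, e.injective.ne h2, e.injective.ne h3, ?_⟩
    have := (he _).mp h4
    rwa [Set.image_insert_eq, Set.image_insert_eq, Set.image_singleton] at this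
  · right
    refine ⟨?_, by rw [h2]⟩
    rintro ⟨z, hz1, hz2, hz3, hz4⟩
    apply h1
    refine ⟨e.symm z, ?_, ?_, ?_, ?_⟩
    · intro h; apply hz1; rw [← h, e.apply_symm_apply]
    · intro h; apply hz2; rw [← h, e.apply_symm_apply]
    · intro h; apply hz3; rw [h]
    · rw [he, Set.image_insert_eq, Set.image_insert_eq, Set.image_singleton,
        e.apply_symm_apply]
      exact hz4

/-- the maps t(p) of `M` send every line into a line -/
def ThirdLineProp (M : Set (Set Y)) : Prop :=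
  ∀ p : Y, ∀ l ∈ M, ∃ l' ∈ M, ∀ a ∈ l, ∀ b, Third M p a b → b ∈ l'

theorem thirdLineProp_iso {N : Set (Set X)} {M : Set (Set Y)} {e : X ≃ Y} (he : IsIso N M e)
    (hM : ThirdLineProp M) : ThirdLineProp N := by
  intro p l hl
  obtain ⟨l', hl', h⟩ := hM (e p) (e '' l) ((he l).mp hl)
  refine ⟨e ⁻¹' l', ?_, ?_⟩
  · rw [he, Set.image_preimage_eq _ e.surjective]; exact hl'
  · intro a ha b hb
    exact h (e a) (Set.mem_image_of_mem e ha) (e b) (third_iso he hb)

/-! ### The dual affine plane of order two -/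

/-- decidable version of `Third` in the dual affine plane -/
def daT (p a b : DualAffinePoint) : Prop :=
  (b ≠ p ∧ b ≠ a ∧ p ≠ a ∧ ∃ k : Fin 4, k ∉ p.val ∧ k ∉ a.val ∧ k ∉ b.val) ∨
  ((¬ ∃ z : DualAffinePoint, ∃ k : Fin 4,
      z ≠ p ∧ z ≠ a ∧ p ≠ a ∧ k ∉ p.val ∧ k ∉ a.val ∧ k ∉ z.val) ∧ b = a)

instance daT_decidable (p a b : DualAffinePoint) : Decidable (daT p a b) := by
  unfold daT; infer_instance

theorem da_three : ∀ (k : Fin 4) (p a z s : DualAffinePoint),
    k ∉ p.val → k ∉ a.val → k ∉ z.val → z ≠ p → z ≠ a → p ≠ a → k ∉ s.val →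
    (s = p ∨ s = a ∨ s = z) := by
  decide

set_option maxRecDepth 100000 in
theorem da_line : ∀ (p : DualAffinePoint) (j : Fin 4), ∃ i : Fin 4, ∀ a : DualAffinePoint,
    j ∉ a.val → ∀ b : DualAffinePoint, daT p a b → i ∉ b.val := by
  decide

/-- three different points off `k` form the line of `k` -/
theorem da_mem {k : Fin 4} {p a z : DualAffinePoint} (hp : k ∉ p.val) (ha : k ∉ a.val)
    (hz : k ∉ z.val) (hzp : z ≠ p) (hza : z ≠ a) (hpa : p ≠ a) :
    ({p, a, z} : Set DualAffinePoint) ∈ dualAffinePlaneTwo := by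
  refine ⟨k, ?_⟩
  ext s
  constructor
  · intro hs
    rcases hs with h | h | h
    · rw [h]; exact hp
    · rw [h]; exact ha
    · have h' : s = z := h
      rw [h']; exact hz
  · intro hs
    rcases da_three k p a z s hp ha hz hzp hza hpa hs with h | h | h
    · left; exact h
    · right; left; exact h
    · right; right; exact h

theorem third_da {p a b : DualAffinePoint} (h : Third dualAffinePlaneTwo p a b) : daT p a b := by
  rcases h with ⟨h1, h2, h3, h4⟩ | ⟨h1, h2⟩
  · left
    obtain ⟨k, hk⟩ := h4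
    refine ⟨h1, h2, h3, k, ?_, ?_, ?_⟩
    · have : p ∈ ({p, a, b} : Set DualAffinePoint) := by simp
      rw [hk] at this; exact this
    · have : a ∈ ({p, a, b} : Set DualAffinePoint) := by simp
      rw [hk] at this; exact this
    · have : b ∈ ({p, a, b} : Set DualAffinePoint) := by simp
      rw [hk] at this; exact this
  · right
    refine ⟨?_, h2⟩
    rintro ⟨z, k, hz1, hz2, hz3, hkp, hka, hkz⟩
    exact h1 ⟨z, hz1, hz2, hz3, da_mem hkp hka hkz hz1 hz2 hz3⟩

theorem thirdLineProp_dualAffine : ThirdLineProp dualAffinePlaneTwo := by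
  intro p l hl
  obtain ⟨j, rfl⟩ := hl
  obtain ⟨i, hi⟩ := da_line p j
  exact ⟨{s | i ∉ s.val}, ⟨i, rfl⟩, fun a ha b hb => hi a ha b (third_da hb)⟩

/-! ### The affine plane of order three -/

theorem ag_three (v : Fin 2 → ZMod 3) : v + v + v = 0 := by
  ext i
  have : ∀ t : ZMod 3, t + t + t = 0 := by decide
  exact this (v i)

/-- the line through two different points `p`, `a` of the affine plane of order three -/
theorem ag_mem {p a : Fin 2 → ZMod 3} (hpa : p ≠ a) :
    ({p, a, -p - a} : Set (Fin 2 → ZMod 3)) ∈ affinePlaneThree := by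
  refine ⟨p, a - p, sub_ne_zero.mpr (Ne.symm hpa), ?_⟩
  have h2 : -p - a = p + (2 : ZMod 3) • (a - p) := by
    ext i
    have : ∀ s t : ZMod 3, -s - t = s + 2 * (t - s) := by decide
    simpa using this (p i) (a i)
  ext x
  constructor
  · intro hx
    rcases hx with h | h | h
    · exact ⟨0, by rw [h]; simp⟩
    · exact ⟨1, by rw [h]; simp⟩
    · have h' : x = -p - a := h
      exact ⟨2, by rw [h', h2]⟩
  · rintro ⟨c, rfl⟩
    have hc : c = 0 ∨ c = 1 ∨ c = 2 := by revert c; decide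
    rcases hc with rfl | rfl | rfl
    · left; simp
    · right; left; simp
    · right; right; exact h2.symm

theorem ag_ne_left {p a : Fin 2 → ZMod 3} (hpa : p ≠ a) : -p - a ≠ p := by
  intro h
  apply hpa
  ext i
  have : ∀ s t : ZMod 3, -s - t = s → s = t := by decide
  exact this (p i) (a i) (by simpa using congrFun h i)

theorem ag_ne_right {p a : Fin 2 → ZMod 3} (hpa : p ≠ a) : -p - a ≠ a := by
  intro h
  apply hpa
  ext i
  have : ∀ s t : ZMod 3, -s - t = t → s = t := by decide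
  exact this (p i) (a i) (by simpa using congrFun h i)

theorem third_ag {p a b : Fin 2 → ZMod 3} (h : Third affinePlaneThree p a b) : b = -p - a := by
  rcases h with ⟨h1, h2, h3, h4⟩ | ⟨h1, h2⟩
  · obtain ⟨v, w, hw, hl⟩ := h4
    have hp : p ∈ ({p, a, b} : Set (Fin 2 → ZMod 3)) := by simp
    have ha : a ∈ ({p, a, b} : Set (Fin 2 → ZMod 3)) := by simp
    have hb : b ∈ ({p, a, b} : Set (Fin 2 → ZMod 3)) := by simp
    rw [hl] at hp ha hb
    obtain ⟨c₁, hc₁⟩ := hp
    obtain ⟨c₂, hc₂⟩ := ha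
    obtain ⟨c₃, hc₃⟩ := hb
    have h12 : c₁ ≠ c₂ := fun h => h3 (by rw [hc₁, hc₂, h])
    have h13 : c₃ ≠ c₁ := fun h => h1 (by rw [hc₁, hc₃, h])
    have h23 : c₃ ≠ c₂ := fun h => h2 (by rw [hc₂, hc₃, h])
    have hsum : c₁ + c₂ + c₃ = 0 :=
      (by decide : ∀ c₁ c₂ c₃ : ZMod 3, c₁ ≠ c₂ → c₃ ≠ c₁ → c₃ ≠ c₂ → c₁ + c₂ + c₃ = 0)
        c₁ c₂ c₃ h12 h13 h23
    have hz : p + a + b = 0 := by
      have e : (v + c₁ • w) + (v + c₂ • w) + (v + c₃ • w) = (v + v + v) + (c₁ + c₂ + c₃) • w := by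
        rw [add_smul, add_smul]; abel
      rw [hc₁, hc₂, hc₃, e, ag_three, hsum, zero_smul, add_zero]
    have : b = -p - a + (p + a + b) := by abel
    rw [this, hz, add_zero]
  · by_cases hpa : p = a
    · rw [h2, hpa]
      have h3 := ag_three a
      have : a = -a - a + (a + a + a) := by abel
      rw [h3, add_zero] at this
      exact this
    · exact absurd ⟨-p - a, ag_ne_left hpa, ag_ne_right hpa, hpa, ag_mem hpa⟩ h1

theorem thirdLineProp_affine : ThirdLineProp affinePlaneThree := by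
  intro p l hl
  obtain ⟨v, w, hw, rfl⟩ := hl
  refine ⟨{x | ∃ c : ZMod 3, x = (-p - v) + c • (-w)},
    ⟨-p - v, -w, neg_ne_zero.mpr hw, rfl⟩, ?_⟩
  rintro a ⟨c, rfl⟩ b hb
  refine ⟨c, ?_⟩
  rw [third_ag hb, smul_neg]; abel

end Cfsg.Agent.H91
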