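import Mathlib
import Cfsg.Prelude.Def_FischerSpaces
import Cfsg.Agent.H91.ThreeTransp
import Cfsg.Agent.H91.Fischer

set_option autoImplicit false

/-!
Helper library of helper91: the line system of a set of 3-transpositions.
Lines through two points, partial linearity, and a criterion for a subset of `D` (the image
of an injective map `elt` from a model plane compatible with conjugation) to be a subspace
isomorphic to the model.
-/

namespace Cfsg.Agent.H91

open Cfsg Cfsg.LineSystem

variable {G : Type*} [Group G]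

theorem span_sub {X : Type*} (L : Set (Set X)) (S : Set X) : IsSubspace L (span L S) := by
  intro l hl x hx y hy hxy hxl hyl z hz T hT
  exact hT.2 l hl x (hx T hT) y (hy T hT) hxy hxl hyl hz

theorem sub_span {X : Type*} (L : Set (Set X)) (S : Set X) : S ⊆ span L S := by
  intro x hx T hT
  exact hT.1 hx

theorem span_le {X : Type*} (L : Set (Set X)) {S T : Set X} (hST : S ⊆ T) (hT : IsSubspace L T) :
    span L S ⊆ T := by
  intro x hx
  exact hx T ⟨hST, hT⟩

theorem isIso_symm {X Y : Type*} {N : Set (Set X)} {M : Set (Set Y)} {e : X ≃ Y}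
    (he : IsIso N M e) : IsIso M N e.symm := by
  intro l
  rw [he (e.symm '' l)]
  have : e '' (e.symm '' l) = l := by
    rw [← Set.image_comp]
    have : (⇑e ∘ ⇑e.symm) = id := by funext x; simp
    rw [this, Set.image_id]
  rw [this]

/-- the line `{a, b, b a b⁻¹}` -/
def lineOf (D : Set G) (a b : G) : Set D :=
  {z : D | (z : G) = a ∨ (z : G) = b ∨ (z : G) = b * a * b⁻¹}

/-- conjugation identities in the group generated by two braided involutions -/
theorem s3_facts {a b : G} (ha : a * a = 1) (hb : b * b = 1) (hbr : a * b * a = b * a * b) :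
    a * b * a⁻¹ = b * a * b⁻¹ ∧
    (b * a * b⁻¹) * a * (b * a * b⁻¹)⁻¹ = b ∧
    a * (b * a * b⁻¹) * a⁻¹ = b ∧
    (b * a * b⁻¹) * b * (b * a * b⁻¹)⁻¹ = a ∧
    b * (b * a * b⁻¹) * b⁻¹ = a := by
  have hai : a⁻¹ = a := inv_eq_of_mul_eq_one_right ha
  have hbi : b⁻¹ = b := inv_eq_of_mul_eq_one_right hb
  have hci : (b * a * b)⁻¹ = b * a * b := by
    apply inv_eq_of_mul_eq_one_right
    calc (b * a * b) * (b * a * b) = b * a * (b * b) * a * b := by group
      _ = b * (a * a) * b := by rw [hb]; group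
      _ = 1 := by rw [ha, mul_one, hb]
  rw [hai, hbi, hci]
  refine ⟨hbr, ?_, ?_, ?_, ?_⟩
  · calc (b * a * b) * a * (b * a * b) = b * a * (b * a * b) * a * b := by group
      _ = b * a * (a * b * a) * a * b := by rw [hbr]
      _ = b * (a * a) * b * (a * a) * b := by group
      _ = b := by rw [ha, mul_one, mul_one, hb, one_mul]
  · calc a * (b * a * b) * a = (a * b * a) * (b * a) := by group
      _ = (b * a * b) * (b * a) := by rw [hbr]
      _ = b * a * (b * b) * a := by group
      _ = b := by rw [hb, mul_one, mul_assoc, ha, mul_one]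
  · calc (b * a * b) * b * (b * a * b) = b * a * (b * b) * (b * a * b) := by group
      _ = b * (a * b * a) * b := by rw [hb]; group
      _ = b * (b * a * b) * b := by rw [hbr]
      _ = (b * b) * a * (b * b) := by group
      _ = a := by rw [hb, one_mul, mul_one]
  · calc b * (b * a * b) * b = (b * b) * a * (b * b) := by group
      _ = a := by rw [hb, one_mul, mul_one]

/-- A line through two different points `p`, `q` is the line of `p` and `q`, and `p`, `q` do
not commute. -/
theorem line_of_two {D : Set G} (hTS : IsThreeTranspositionSet D)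
    {l : Set D} (hl : l ∈ threeTranspositionLines D) {p q : D} (hp : p ∈ l) (hq : q ∈ l)
    (hpq : p ≠ q) : ¬ Commute (p : G) (q : G) ∧ l = lineOf D (p : G) (q : G) := by
  obtain ⟨a, b, hab, rfl⟩ := hl
  have ha2 := sq_one (hTS.1 a a.2)
  have hb2 := sq_one (hTS.1 b b.2)
  have hbr : (a : G) * b * a = b * a * b := by
    rcases commute_or_braid hTS a.2 b.2 with h | h
    · exact absurd h hab
    · exact h
  obtain ⟨t1, t2, t3, t4, t5⟩ := s3_facts ha2 hb2 hbr
  have hpq' : (p : G) ≠ (q : G) := fun h => hpq (Subtype.ext h)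
  -- distinctness of the three points
  have hca : (b : G) * a * (b : G)⁻¹ ≠ a := by
    intro h
    apply hab
    have : (b : G) * a = a * b := by
      calc (b : G) * a = ((b : G) * a * (b : G)⁻¹) * b := by group
        _ = a * b := by rw [h]
    exact this.symm
  have hcb : (b : G) * a * (b : G)⁻¹ ≠ b := by
    intro h
    apply hab
    have : (a : G) = b := by
      calc (a : G) = (b : G)⁻¹ * ((b : G) * a * (b : G)⁻¹) * b := by group
        _ = (b : G)⁻¹ * b * b := by rw [h]
        _ = b := by group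
    rw [this]
  have hab' : (a : G) ≠ b := fun h => hab (by rw [h])
  -- a general principle: if `v u v⁻¹ ≠ u` then `u`, `v` do not commute
  have hnc : ∀ u v : G, v * u * v⁻¹ ≠ u → ¬ Commute u v := by
    intro u v h hc
    apply h
    calc v * u * v⁻¹ = (u * v) * v⁻¹ := by rw [hc.eq]
      _ = u := by group
  rcases hp with hp | hp | hp <;> rcases hq with hq | hq | hq
  · exact absurd (hp.trans hq.symm) hpq'
  · rw [hp, hq]; exact ⟨hab, rfl⟩
  · rw [hp, hq]
    refine ⟨hnc _ _ (by rw [t2]; exact hab'.symm), ?_⟩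
    ext z
    show _ ↔ ((z : G) = a ∨ (z : G) = b * a * (b : G)⁻¹ ∨ (z : G) = _)
    rw [t2]
    show ((z : G) = a ∨ (z : G) = b ∨ (z : G) = b * a * (b : G)⁻¹) ↔ _
    tauto
  · rw [hp, hq]
    refine ⟨hnc _ _ (by rw [t1]; exact hcb), ?_⟩
    ext z
    show _ ↔ ((z : G) = b ∨ (z : G) = a ∨ (z : G) = _)
    rw [t1]
    show ((z : G) = a ∨ (z : G) = b ∨ (z : G) = b * a * (b : G)⁻¹) ↔ _
    tauto
  · exact absurd (hp.trans hq.symm) hpq'
  · rw [hp, hq]
    refine ⟨hnc _ _ (by rw [t4]; exact hab'), ?_⟩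
    ext z
    show _ ↔ ((z : G) = b ∨ (z : G) = b * a * (b : G)⁻¹ ∨ (z : G) = _)
    rw [t4]
    show ((z : G) = a ∨ (z : G) = b ∨ (z : G) = b * a * (b : G)⁻¹) ↔ _
    tauto
  · rw [hp, hq]
    refine ⟨hnc _ _ (by rw [t3]; exact hcb.symm), ?_⟩
    ext z
    show _ ↔ ((z : G) = b * a * (b : G)⁻¹ ∨ (z : G) = a ∨ (z : G) = _)
    rw [t3]
    show ((z : G) = a ∨ (z : G) = b ∨ (z : G) = b * a * (b : G)⁻¹) ↔ _
    tauto
  · rw [hp, hq]
    refine ⟨hnc _ _ (by rw [t5]; exact hca.symm), ?_⟩
    ext z
    show _ ↔ ((z : G) = b * a * (b : G)⁻¹ ∨ (z : G) = b ∨ (z : G) = _)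
    rw [t5]
    show ((z : G) = a ∨ (z : G) = b ∨ (z : G) = b * a * (b : G)⁻¹) ↔ _
    tauto
  · exact absurd (hp.trans hq.symm) hpq'

theorem lineOf_mem {D : Set G} {a b : G} (ha : a ∈ D) (hb : b ∈ D) (hab : ¬ Commute a b) :
    lineOf D a b ∈ threeTranspositionLines D :=
  ⟨⟨a, ha⟩, ⟨b, hb⟩, hab, rfl⟩

theorem lines_partialLinear {D : Set G} (hTS : IsThreeTranspositionSet D) :
    IsPartialLinear (threeTranspositionLines D) := by
  intro l hl m hm x y hxy hxl hyl hxm hym
  rw [(line_of_two hTS hl hxl hyl hxy).2, (line_of_two hTS hm hxm hym hxy).2]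

theorem lines_ncard {D : Set G}
    (hconj : ∀ g : G, ∀ d ∈ D, g * d * g⁻¹ ∈ D) :
    ∀ l ∈ threeTranspositionLines D, l.ncard = 3 := by
  intro l hl
  obtain ⟨a, b, hab, rfl⟩ := hl
  have hc : (b : G) * a * (b : G)⁻¹ ∈ D := hconj b a a.2
  rw [Set.ncard_eq_three]
  refine ⟨a, b, ⟨_, hc⟩, ?_, ?_, ?_, ?_⟩
  · intro h; apply hab; rw [h]
  · intro h
    apply hab
    have h' : (a : G) = (b : G) * a * (b : G)⁻¹ := congrArg Subtype.val h
    have : (b : G) * a = a * b := by
      calc (b : G) * a = ((b : G) * a * (b : G)⁻¹) * b := by group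
        _ = a * b := by rw [← h']
    exact this.symm
  · intro h
    apply hab
    have h' : (b : G) = (b : G) * a * (b : G)⁻¹ := congrArg Subtype.val h
    have : (a : G) = b := by
      calc (a : G) = (b : G)⁻¹ * ((b : G) * a * (b : G)⁻¹) * b := by group
        _ = (b : G)⁻¹ * b * b := by rw [← h']
        _ = b := by group
    rw [this]
  · ext z
    simp only [Set.mem_insert_iff, Set.mem_singleton_iff, Subtype.ext_iff]
    rfl

/-- Criterion: the image of an injective map `elt` from a model plane `M`, with "third point"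
function `τ`, into a set `D` of 3-transpositions, compatible with conjugation, is a subspace
of the line system of `D` isomorphic to the model. -/
theorem embed_iso {D : Set G} (hTS : IsThreeTranspositionSet D) {Y : Type*} (M : Set (Set Y))
    (τ : Y → Y → Y)
    (m1 : ∀ m₀ ∈ M, ∃ p q, τ p q ≠ q ∧ m₀ = {p, q, τ p q})
    (m2 : ∀ p q, τ p q ≠ q → ({p, q, τ p q} : Set Y) ∈ M)
    (elt : Y → G) (e1 : ∀ p, elt p ∈ D)
    (e2 : ∀ p q, elt p * elt q * (elt p)⁻¹ = elt (τ p q)) (e3 : Function.Injective elt) :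
    IsSubspace (threeTranspositionLines D) {d : D | ∃ p, elt p = (d : G)} ∧
    Isomorphic (restrict (threeTranspositionLines D) {d : D | ∃ p, elt p = (d : G)}) M := by
  obtain ⟨P, hP⟩ : ∃ P : Set D, P = {d : D | ∃ p, elt p = (d : G)} := ⟨_, rfl⟩
  rw [← hP]
  have hnc : ∀ p q, τ p q ≠ q → ¬ Commute (elt q) (elt p) := by
    intro p q h hc
    apply h
    apply e3
    rw [← e2]
    calc elt p * elt q * (elt p)⁻¹ = (elt q * elt p) * (elt p)⁻¹ := by rw [hc.eq]
      _ = elt q := by group
  have hcomm : ∀ p q, ¬ Commute (elt q) (elt p) → τ p q ≠ q := by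
    intro p q h h'
    apply h
    have := e2 p q
    rw [h'] at this
    show elt q * elt p = elt p * elt q
    calc elt q * elt p = (elt p * elt q * (elt p)⁻¹) * elt p := by rw [this]
      _ = elt p * elt q := by group
  -- subspace
  have hsub : IsSubspace (threeTranspositionLines D) P := by
    intro l hl a ha b hb hab hal hbl
    obtain ⟨hncab, hleq⟩ := line_of_two hTS hl hal hbl hab
    rw [hP] at ha hb
    obtain ⟨p, hp⟩ := ha
    obtain ⟨q, hq⟩ := hb
    rw [hleq]
    intro z hz
    rw [hP]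
    rcases hz with h | h | h
    · exact ⟨p, by rw [hp, h]⟩
    · exact ⟨q, by rw [hq, h]⟩
    · exact ⟨τ q p, by rw [← e2, hp, hq, h]⟩
  refine ⟨hsub, ?_⟩
  -- the bijection
  let f : Y → P := fun p => ⟨⟨elt p, e1 p⟩, by rw [hP]; exact ⟨p, rfl⟩⟩
  have hfval : ∀ p, ((f p : D) : G) = elt p := fun _ => rfl
  have hfinj : Function.Injective f := by
    intro p q h
    apply e3
    have := congrArg (fun w : P => ((w : D) : G)) h
    exact this
  have hfsurj : Function.Surjective f := by
    rintro ⟨d, hd⟩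
    have hd' := hd
    rw [hP] at hd'
    obtain ⟨p, hp⟩ := hd'
    exact ⟨p, Subtype.ext (Subtype.ext hp)⟩
  obtain ⟨F, hF⟩ : ∃ F : Y ≃ P, ∀ p, F p = f p :=
    ⟨Equiv.ofBijective f ⟨hfinj, hfsurj⟩, fun _ => rfl⟩
  have hFval : ∀ p, ((F p : D) : G) = elt p := fun p => by rw [hF]
  have key : IsIso M (restrict (threeTranspositionLines D) P) F := by
    intro t
    constructor
    · intro ht
      obtain ⟨p, q, hτ, rfl⟩ := m1 t ht
      have hn := hnc p q hτ
      refine ⟨lineOf D (elt q) (elt p), lineOf_mem (e1 q) (e1 p) hn, ?_, ?_⟩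
      · intro z hz
        rw [hP]
        rcases hz with h | h | h
        · exact ⟨q, h.symm⟩
        · exact ⟨p, h.symm⟩
        · exact ⟨τ p q, by rw [← e2, h]⟩
      · ext w
        constructor
        · rintro ⟨u, hu, rfl⟩
          show ((F u : D) : G) = elt q ∨ ((F u : D) : G) = elt p ∨
            ((F u : D) : G) = elt p * elt q * (elt p)⁻¹
          rw [hFval, e2]
          rcases hu with h | h | h
          · right; left; rw [h]
          · left; rw [h]
          · right; right
            have h' : u = τ p q := h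
            rw [h']
        · intro hw
          have hw' : ((w : D) : G) = elt q ∨ ((w : D) : G) = elt p ∨
            ((w : D) : G) = elt p * elt q * (elt p)⁻¹ := hw
          rw [e2] at hw'
          rcases hw' with h | h | h
          · refine ⟨q, by simp, ?_⟩
            exact Subtype.ext (Subtype.ext (by rw [hFval, h]))
          · refine ⟨p, by simp, ?_⟩
            exact Subtype.ext (Subtype.ext (by rw [hFval, h]))
          · refine ⟨τ p q, by simp, ?_⟩
            exact Subtype.ext (Subtype.ext (by rw [hFval, h]))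
    · rintro ⟨l', hl', hl'P, heq⟩
      obtain ⟨a, b, hab, rfl⟩ := hl'
      have haP : a ∈ P := hl'P (Or.inl rfl)
      have hbP : b ∈ P := hl'P (Or.inr (Or.inl rfl))
      have haP' := haP
      have hbP' := hbP
      rw [hP] at haP' hbP'
      obtain ⟨p, hp⟩ := haP'
      obtain ⟨q, hq⟩ := hbP'
      have hτ : τ q p ≠ p := hcomm q p (by rw [hp, hq]; exact hab)
      have ht : t = {q, p, τ q p} := by
        ext u
        constructor
        · intro hu
          have h1 : F u ∈ F '' t := Set.mem_image_of_mem F hu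
          rw [heq] at h1
          have h2 : ((F u : D) : G) = a ∨ ((F u : D) : G) = b ∨
            ((F u : D) : G) = b * a * (b : G)⁻¹ := h1
          rw [hFval, ← hp, ← hq, e2] at h2
          rcases h2 with h | h | h
          · right; left; exact e3 h
          · left; exact e3 h
          · right; right; exact e3 h
        · intro hu
          have h1 : F u ∈ F '' t := by
            rw [heq]
            show ((F u : D) : G) = a ∨ ((F u : D) : G) = b ∨
              ((F u : D) : G) = b * a * (b : G)⁻¹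
            rw [hFval, ← hp, ← hq, e2]
            rcases hu with h | h | h
            · right; left; rw [h]
            · left; rw [h]
            · right; right
              have h' : u = τ q p := h
              rw [h']
          obtain ⟨u', hu', huu'⟩ := h1
          rw [← F.injective huu']; exact hu'
      rw [ht]
      exact m2 q p hτ
  exact ⟨F.symm, isIso_symm key⟩

/-! ### Model facts: the affine plane of order three -/

theorem ag_line_eq {p a : Fin 2 → ZMod 3} :
    ({p, a, -p - a} : Set (Fin 2 → ZMod 3)) = {x | ∃ c : ZMod 3, x = p + c • (a - p)} := by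
  have h2 : -p - a = p + (2 : ZMod 3) • (a - p) := by
    ext i
    have : ∀ s t : ZMod 3, -s - t = s + 2 * (t - s) := by decide
    simpa using this (p i) (a i)
  ext x
  constructor
  · intro hx
    rcases hx with h | h | h
    · exact ⟨0, by rw [h]; simp⟩
    · exact ⟨1, by rw [h]; simp⟩
    · have h' : x = -p - a := h
      exact ⟨2, by rw [h', h2]⟩
  · rintro ⟨c, rfl⟩
    have hc : c = 0 ∨ c = 1 ∨ c = 2 := by revert c; decide
    rcases hc with rfl | rfl | rfl
    · left; simp
    · right; left; simp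
    · right; right; exact h2.symm

theorem ag_m1 : ∀ m₀ ∈ affinePlaneThree, ∃ p q : Fin 2 → ZMod 3,
    -p - q ≠ q ∧ m₀ = {p, q, -p - q} := by
  rintro m₀ ⟨v, w, hw, rfl⟩
  have hne : v ≠ v + w := by
    intro h
    apply hw
    have : v + w = v + 0 := by rw [add_zero]; exact h.symm
    exact add_left_cancel this
  refine ⟨v, v + w, ag_ne_right hne, ?_⟩
  rw [ag_line_eq, add_sub_cancel_left]

theorem ag_m2 : ∀ p q : Fin 2 → ZMod 3, -p - q ≠ q →
    ({p, q, -p - q} : Set (Fin 2 → ZMod 3)) ∈ affinePlaneThree := by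
  intro p q h
  apply ag_mem
  intro hpq
  apply h
  rw [hpq]
  have h3 := ag_three q
  have : -q - q = q - (q + q + q) := by abel
  rw [this, h3, sub_zero]

/-! ### Model facts: the dual affine plane of order two -/

theorem da_pl_aux : ∀ (i j : Fin 4) (p q : DualAffinePoint), p ≠ q →
    i ∉ p.val → i ∉ q.val → j ∉ p.val → j ∉ q.val → i = j := by
  decide

theorem da_partialLinear : IsPartialLinear dualAffinePlaneTwo := by
  rintro l ⟨i, rfl⟩ m ⟨j, rfl⟩ x y hxy hxl hyl hxm hym
  rw [da_pl_aux i j x y hxy hxl hyl hxm hym]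

theorem da_three_pts : ∀ i : Fin 4, ∃ p q r : DualAffinePoint,
    p ≠ q ∧ r ≠ p ∧ r ≠ q ∧ i ∉ p.val ∧ i ∉ q.val ∧ i ∉ r.val := by
  decide

theorem da_line_eq {k : Fin 4} {p a z : DualAffinePoint} (hp : k ∉ p.val) (ha : k ∉ a.val)
    (hz : k ∉ z.val) (hzp : z ≠ p) (hza : z ≠ a) (hpa : p ≠ a) :
    {s : DualAffinePoint | k ∉ s.val} = ({p, a, z} : Set DualAffinePoint) := by
  ext s
  constructor
  · intro hs
    rcases da_three k p a z s hp ha hz hzp hza hpa hs with h | h | h
    · left; exact h
    · right; left; exact h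
    · right; right; exact h
  · intro hs
    rcases hs with h | h | h
    · rw [h]; exact hp
    · rw [h]; exact ha
    · have h' : s = z := h
      rw [h']; exact hz

theorem da_m1 : ∀ m₀ ∈ dualAffinePlaneTwo, ∃ p q : DualAffinePoint,
    lineMap dualAffinePlaneTwo p q ≠ q ∧ m₀ = {p, q, lineMap dualAffinePlaneTwo p q} := by
  rintro m₀ ⟨i, rfl⟩
  obtain ⟨p, q, r, hpq, hrp, hrq, hip, hiq, hir⟩ := da_three_pts i
  have heq := da_line_eq hip hiq hir hrp hrq hpq
  have hT : Third dualAffinePlaneTwo p q r :=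
    Or.inl ⟨hrp, hrq, hpq, da_mem hip hiq hir hrp hrq hpq⟩
  have hτ : lineMap dualAffinePlaneTwo p q = r :=
    third_unique da_partialLinear (third_lineMap _ p q) hT
  refine ⟨p, q, ?_, ?_⟩
  · rw [hτ]; exact hrq
  · rw [hτ]; exact heq

theorem da_m2 : ∀ p q : DualAffinePoint, lineMap dualAffinePlaneTwo p q ≠ q →
    ({p, q, lineMap dualAffinePlaneTwo p q} : Set DualAffinePoint) ∈ dualAffinePlaneTwo := by
  intro p q h
  rcases third_lineMap dualAffinePlaneTwo p q with ⟨_, _, _, h4⟩ | ⟨_, h2⟩
  · exact h4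
  · exact absurd h2 h

/-- the transposition of `Fin 4` attached to a two-element subset -/
def swapOf (s : DualAffinePoint) : Equiv.Perm (Fin 4) :=
  if 0 ∈ s.val then
    (if 1 ∈ s.val then Equiv.swap 0 1 else if 2 ∈ s.val then Equiv.swap 0 2 else Equiv.swap 0 3)
  else if 1 ∈ s.val then (if 2 ∈ s.val then Equiv.swap 1 2 else Equiv.swap 1 3)
  else Equiv.swap 2 3

theorem swapOf_inj : ∀ s t : DualAffinePoint, swapOf s = swapOf t → s = t := by decide

set_option maxRecDepth 100000 in
theorem swapOf_conj : ∀ p q r : DualAffinePoint, daT p q r →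
    swapOf p * swapOf q * (swapOf p)⁻¹ = swapOf r := by decide

theorem swapOf_isConj : ∀ s : DualAffinePoint, ∃ g : Equiv.Perm (Fin 4),
    swapOf s = g * Equiv.swap 1 2 * g⁻¹ := by decide

theorem swapOf_cases : ∀ s : DualAffinePoint,
    swapOf s = Equiv.swap 1 2 ∨ swapOf s = Equiv.swap 2 3 ∨ swapOf s = Equiv.swap 0 1 ∨
    swapOf s = Equiv.swap 1 3 ∨ swapOf s = Equiv.swap 0 2 ∨ swapOf s = Equiv.swap 0 3 := by
  decide

theorem swapOf_surj : (∃ s, swapOf s = Equiv.swap 1 2) ∧ (∃ s, swapOf s = Equiv.swap 2 3) ∧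
    (∃ s, swapOf s = Equiv.swap 0 1) ∧ (∃ s, swapOf s = Equiv.swap 1 3) ∧
    (∃ s, swapOf s = Equiv.swap 0 2) := by
  decide

theorem perm4_facts :
    (Equiv.swap (1 : Fin 4) 2 * Equiv.swap 2 3 * (Equiv.swap 1 2)⁻¹ = Equiv.swap 1 3) ∧
    (Equiv.swap (1 : Fin 4) 2 * Equiv.swap 0 1 * (Equiv.swap 1 2)⁻¹ = Equiv.swap 0 2) ∧
    (Equiv.swap (2 : Fin 4) 3 * Equiv.swap 0 2 * (Equiv.swap 2 3)⁻¹ = Equiv.swap 0 3) ∧
    (Equiv.swap (0 : Fin 4) 2 * Equiv.swap 2 3 ≠ Equiv.swap 2 3 * Equiv.swap 0 2) := by
  decide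

end Cfsg.Agent.H91
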