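import Mathlib

/-!
# A Frattini argument for a 2-subgroup of odd index meeting a subgroup it normalizes

`T` a 2-subgroup of odd index of the finite group `X`, `N` a subgroup normalized by `T`.
Then `T ⊓ N` has odd index in `N`, and every `n ∈ N_X(N)` is `m * n'` with `m ∈ N` and
`n' ∈ N_X(T ⊓ N)`.
-/

set_option autoImplicit false

namespace Cfsg.Agent.H91.Frat

universe u

/-- In a finite group, an element conjugating a subgroup into itself normalizes it. -/
theorem mem_normalizer_of_conj_mem {X : Type u} [Group X] [Finite X] (S : Subgroup X) (g : X)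
    (h : ∀ s ∈ S, g * s * g⁻¹ ∈ S) : g ∈ Subgroup.normalizer (S : Set X) := by
  rw [Subgroup.mem_normalizer_iff]
  intro x
  refine ⟨h x, fun hx => ?_⟩
  have hinj : Function.Injective (fun s : ↥S => (⟨g * s * g⁻¹, h s s.2⟩ : ↥S)) := by
    intro s t hst
    have h1 : g * (s : X) * g⁻¹ = g * (t : X) * g⁻¹ := congrArg Subtype.val hst
    apply Subtype.ext
    have h2 := congrArg (fun y => g⁻¹ * y * g) h1
    simpa [mul_assoc] using h2
  obtain ⟨s, hs⟩ := (Finite.surjective_of_injective hinj) ⟨g * x * g⁻¹, hx⟩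
  have h1 : g * (s : X) * g⁻¹ = g * x * g⁻¹ := congrArg Subtype.val hs
  have h2 := congrArg (fun y => g⁻¹ * y * g) h1
  have h3 : (s : X) = x := by simpa [mul_assoc] using h2
  rw [← h3]; exact s.2

/-- `|N : T ∩ N|` is odd when `T` has odd index and normalizes `N`. -/
theorem odd_relIndex_of_le_normalizer {X : Type u} [Group X] [Finite X] (T N : Subgroup X)
    (hTodd : Odd T.index) (hTN : T ≤ Subgroup.normalizer (N : Set X)) : Odd (T.relIndex N) := by
  have h1 : N.relIndex (T ⊔ N) = N.relIndex T := by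
    have := Subgroup.normal_subgroupOf_of_le_normalizer hTN
    have := Subgroup.normal_subgroupOf_sup_of_le_normalizer hTN
    exact Nat.card_congr
      (QuotientGroup.quotientInfEquivProdNormalizerQuotient T N hTN).toEquiv.symm
  have hc1 : Nat.card ↥N * N.relIndex (T ⊔ N) = Nat.card ↥(T ⊔ N : Subgroup X) := by
    have := Subgroup.relIndex_mul_relIndex ⊥ N (T ⊔ N) bot_le le_sup_right
    rwa [Subgroup.relIndex_bot_left, Subgroup.relIndex_bot_left] at this
  have hc2 : Nat.card ↥T * T.relIndex (T ⊔ N) = Nat.card ↥(T ⊔ N : Subgroup X) := by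
    have := Subgroup.relIndex_mul_relIndex ⊥ T (T ⊔ N) bot_le le_sup_left
    rwa [Subgroup.relIndex_bot_left, Subgroup.relIndex_bot_left] at this
  have hc3 : Nat.card ↥(T ⊓ N : Subgroup X) * N.relIndex T = Nat.card ↥T := by
    have := Subgroup.relIndex_mul_relIndex ⊥ (T ⊓ N) T bot_le inf_le_left
    rwa [Subgroup.relIndex_bot_left, Subgroup.relIndex_bot_left,
      Subgroup.inf_relIndex_left] at this
  have hc4 : Nat.card ↥(T ⊓ N : Subgroup X) * T.relIndex N = Nat.card ↥N := by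
    have := Subgroup.relIndex_mul_relIndex ⊥ (T ⊓ N) N bot_le inf_le_right
    rwa [Subgroup.relIndex_bot_left, Subgroup.relIndex_bot_left,
      Subgroup.inf_relIndex_right] at this
  have hpos : 0 < Nat.card ↥T := Nat.card_pos
  have heq : T.relIndex (T ⊔ N) = T.relIndex N := by
    have h5 : Nat.card ↥T * T.relIndex (T ⊔ N) = Nat.card ↥T * T.relIndex N := by
      rw [hc2, ← hc1, h1, ← hc4, ← hc3]; ring
    exact Nat.eq_of_mul_eq_mul_left hpos h5
  have hdvd : T.relIndex N ∣ T.index := by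
    rw [← heq]; exact Subgroup.relIndex_dvd_index_of_le le_sup_left
  exact Odd.of_dvd_nat hTodd hdvd

/-- Frattini: every `n ∈ N_X(N)` is `m * n'` with `m ∈ N`, `n' ∈ N_X(T ⊓ N)`. -/
theorem frattini_core {X : Type u} [Group X] [Finite X] (T N : Subgroup X)
    (hT2 : IsPGroup 2 ↥T) (hTodd : Odd T.index) (hTN : T ≤ Subgroup.normalizer (N : Set X))
    (n : X) (hn : n ∈ Subgroup.normalizer (N : Set X)) :
    ∃ m ∈ N, m⁻¹ * n ∈ Subgroup.normalizer ((T ⊓ N : Subgroup X) : Set X) := by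
  have : Fact (Nat.Prime 2) := ⟨Nat.prime_two⟩
  have hodd := odd_relIndex_of_le_normalizer T N hTodd hTN
  have hP2 : IsPGroup 2 ↥(T.subgroupOf N) := hT2.comap_subtype
  have hPidx : ¬ 2 ∣ (T.subgroupOf N).index := by
    intro h2
    have h3 : Odd (T.subgroupOf N).index := hodd
    rw [Nat.odd_iff] at h3
    omega
  have hR2 : IsPGroup 2 ↥((T.map (MulAut.conj n).toMonoidHom).subgroupOf N) :=
    (hT2.map _).comap_subtype
  obtain ⟨Q, hRQ⟩ := hR2.exists_le_sylow
  obtain ⟨m, hm⟩ := MulAction.exists_smul_eq ↥N (hP2.toSylow hPidx) Q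
  refine ⟨(m : X), m.2, ?_⟩
  apply mem_normalizer_of_conj_mem
  intro s hs
  obtain ⟨hsT, hsN⟩ := Subgroup.mem_inf.mp hs
  have hnsN : n * s * n⁻¹ ∈ N := (Subgroup.mem_normalizer_iff.mp hn s).mp hsN
  have hR : (⟨n * s * n⁻¹, hnsN⟩ : ↥N) ∈ (T.map (MulAut.conj n).toMonoidHom).subgroupOf N := by
    rw [Subgroup.mem_subgroupOf]
    exact Subgroup.mem_map.mpr ⟨s, hsT, rfl⟩
  have hQ : (⟨n * s * n⁻¹, hnsN⟩ : ↥N) ∈ (Q : Subgroup ↥N) := hRQ hR
  rw [← hm, Sylow.smul_def, Sylow.pointwise_smul_def, Subgroup.pointwise_smul_def] at hQ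
  obtain ⟨x, hx, hxe⟩ := Subgroup.mem_map.mp hQ
  have hx' : (x : X) ∈ T := Subgroup.mem_subgroupOf.mp hx
  have hxe' : (m : X) * (x : X) * (m : X)⁻¹ = n * s * n⁻¹ := congrArg Subtype.val hxe
  have hcalc : ((m : X)⁻¹ * n) * s * ((m : X)⁻¹ * n)⁻¹ = (x : X) := by
    have h1 : ((m : X)⁻¹ * n) * s * ((m : X)⁻¹ * n)⁻¹ = (m : X)⁻¹ * (n * s * n⁻¹) * (m : X) := by
      group
    rw [h1, ← hxe']; group
  rw [hcalc]
  exact Subgroup.mem_inf.mpr ⟨hx', x.2⟩

/-- Frattini for the normal closure: if the normalizer of every subgroup between `J` and the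
2-subgroup `T` of odd index normalizes `J`, then `X = ⟨J^X⟩ N_X(J)`. -/
theorem normalClosure_sup_normalizer {X : Type u} [Group X] [Finite X] (T J : Subgroup X)
    (hT2 : IsPGroup 2 ↥T) (hTodd : Odd T.index) (hJT : J ≤ T)
    (hchar : ∀ S : Subgroup X, J ≤ S → S ≤ T →
      Subgroup.normalizer (S : Set X) ≤ Subgroup.normalizer (J : Set X)) :
    Subgroup.normalClosure (J : Set X) ⊔ Subgroup.normalizer (J : Set X) = ⊤ := by
  rw [eq_top_iff]
  intro n _
  have hNn : (Subgroup.normalClosure (J : Set X)).Normal := Subgroup.normalClosure_normal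
  have hJN : J ≤ Subgroup.normalClosure (J : Set X) := Subgroup.le_normalClosure
  have hall : ∀ g : X, g ∈ Subgroup.normalizer ((Subgroup.normalClosure (J : Set X) : Subgroup X) : Set X) := by
    intro g
    rw [Subgroup.normalizer_eq_top]
    exact Subgroup.mem_top g
  obtain ⟨m, hm, hmn⟩ := frattini_core T (Subgroup.normalClosure (J : Set X)) hT2 hTodd
    (fun t _ => hall t) n (hall n)
  have h1 : m⁻¹ * n ∈ Subgroup.normalizer (J : Set X) :=
    hchar _ (le_inf hJT hJN) inf_le_left hmn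
  have h2 : n = m * (m⁻¹ * n) := by group
  rw [h2]
  exact mul_mem ((le_sup_left : Subgroup.normalClosure (J : Set X) ≤ _) hm)
    ((le_sup_right : Subgroup.normalizer (J : Set X) ≤ _) h1)

end Cfsg.Agent.H91.Frat
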