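import Mathlib
import Cfsg.Agent.H66.HHFDefs
import Cfsg.Agent.H66.ZRep
import Cfsg.Agent.H66.HHA
import Cfsg.Agent.H80.PSolvable

/-!
# S3786 team project (helper66), piece S3786-COREH

Under `AbCent p m H` and exponent `p ^ (m + 1)` for the `p`-elements of the `p`-soluble group
`H` with `O_p(H) = 1` (`p` odd), every `x ^ (p ^ m)` (`x` a `p`-element) lies in `O_{p',p}(H)`.
-/

set_option autoImplicit false
set_option linter.style.haveILetI false
set_option linter.unusedVariables false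

namespace Cfsg.Agent.H91.HHF

open Cfsg Cfsg.Agent.H66.HHF

universe u

theorem coreH_holds (hMAB : MABStatement.{u}) (hZBG : ZBGStatement.{u}) (hLin : LinStatement.{u})
    (hFrob : FrobStatement.{u}) : CoreHStatement.{u} := by
  intro H _ _ p _ hp2 hsol hOp m hAb hexp x hxp
  classical
  have hp : p.Prime := Fact.out
  obtain ⟨K, hK⟩ : ∃ K : Subgroup H, K = pPrimeCore p H := ⟨_, rfl⟩
  haveI hKn : K.Normal := by rw [hK]; infer_instance
  have hOb : pPrimeCore p (H ⧸ K) = ⊥ := by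
    subst hK
    exact H14.pPrimeCore_quotient_eq_bot p H
  have hsolb : IsPSolvable p (H ⧸ K) := H80.isPSolvable_quotient p K hsol
  suffices hgoal : QuotientGroup.mk' K (x ^ p ^ m) ∈ pCore p (H ⧸ K) by
    subst hK
    exact hgoal
  by_contra hcon
  obtain ⟨π, hπ⟩ : ∃ π : H →* H ⧸ K, π = QuotientGroup.mk' K := ⟨_, rfl⟩
  have hπsurj : Function.Surjective π := by rw [hπ]; exact QuotientGroup.mk'_surjective K
  rw [← hπ] at hcon
  obtain ⟨P₁, hP₁⟩ : ∃ P₁ : Subgroup (H ⧸ K), P₁ = pCore p (H ⧸ K) := ⟨_, rfl⟩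
  haveI hP₁n : P₁.Normal := by rw [hP₁]; infer_instance
  rw [← hP₁] at hcon
  have hP₁p : IsPGroup p P₁ := by rw [hP₁]; exact H14.pCore_isPGroup p _
  obtain ⟨Φ, hΦ⟩ : ∃ Φ : Subgroup (H ⧸ K), Φ = (frattini ↥P₁).map P₁.subtype := ⟨_, rfl⟩
  haveI hΦn : Φ.Normal := by
    rw [hΦ]
    apply Subgroup.normalizer_eq_top_iff.mp
    rw [eq_top_iff]
    refine le_trans ?_ (H1.normalizer_le_normalizer_map_of_characteristic P₁ (frattini ↥P₁))
    rw [Subgroup.normalizer_eq_top_iff.mpr hP₁n]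
  obtain ⟨V, iV1, iV2, θ, ι, hθinj, hιsurj, hιmul, hιzpow, hιconj, hιeq, hVp⟩ :=
    H66.exists_faithful_zmod_rep hsolb hOb P₁ hP₁ Φ hΦ
  haveI hVfin : Finite V := by
    have hs : Function.Surjective (fun u : P₁ => ι (u : H ⧸ K)) := by
      intro v
      obtain ⟨u, hu, rfl⟩ := hιsurj v
      exact ⟨⟨u, hu⟩, rfl⟩
    exact Finite.of_surjective _ hs
  have hx1 : x ^ p ^ (m + 1) = 1 := hexp x hxp
  have hxb1 : (π x) ^ p ^ (m + 1) = 1 := by rw [← map_pow, hx1, map_one]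
  have hxbb1 : (QuotientGroup.mk' P₁ (π x)) ^ p ^ (m + 1) = 1 := by
    rw [← map_pow, hxb1, map_one]
  have hxbb2 : (QuotientGroup.mk' P₁ (π x)) ^ p ^ m ≠ 1 := by
    rw [← map_pow]
    intro h
    apply hcon
    have h1 := (QuotientGroup.eq_one_iff _).mp h
    have e : (π x) ^ p ^ m = π (x ^ p ^ m) := (map_pow π x _).symm
    rwa [e] at h1
  have hsolH : IsPSolvable p ((H ⧸ K) ⧸ P₁) := H80.isPSolvable_quotient p P₁ hsolb
  have hOpH : pCore p ((H ⧸ K) ⧸ P₁) = ⊥ := by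
    subst hP₁
    exact H66.pCore_quotient_pCore_bot p
  obtain ⟨N, hN, hNcase⟩ := hZBG ((H ⧸ K) ⧸ P₁) p hsolH hOpH V θ hθinj
    (QuotientGroup.mk' P₁ (π x)) m hxbb1 hxbb2
  have h3 : 3 ≤ p := by
    have h2 := hp.two_le
    omega
  have hNge : 2 * p ^ m ≤ N := by
    rcases hNcase with rfl | ⟨n₀, q, k, hn₀, hn₀m, hq, hk, hpq, hnc, rfl⟩
    · rw [pow_succ]
      have h1 : 1 ≤ p ^ m := Nat.one_le_pow m p hp.pos
      nlinarith
    · obtain ⟨n₁, rfl⟩ : ∃ n₁, n₀ = n₁ + 1 := ⟨n₀ - 1, by omega⟩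
      obtain ⟨d, rfl⟩ : ∃ d, m = n₁ + d := ⟨m - n₁, by omega⟩
      have e1 : n₁ + d + 1 - (n₁ + 1) = d := by omega
      rw [e1]
      have hA : 1 ≤ p ^ n₁ := Nat.one_le_pow _ _ hp.pos
      have h3A : 3 * p ^ n₁ ≤ p * p ^ n₁ := Nat.mul_le_mul_right _ h3
      have hpow : p ^ (n₁ + 1) = p * p ^ n₁ := pow_succ' p n₁
      have h5 : 2 * p ^ n₁ ≤ p ^ (n₁ + 1) - 1 := by omega
      calc 2 * p ^ (n₁ + d) = p ^ d * (2 * p ^ n₁) := by rw [pow_add]; ring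
        _ ≤ p ^ d * (p ^ (n₁ + 1) - 1) := Nat.mul_le_mul_left _ h5
  -- a Sylow `p`-subgroup containing `x`
  obtain ⟨D, hD⟩ : ∃ D : Sylow p H, x ∈ (D : Subgroup H) := by
    obtain ⟨j, hj⟩ := hxp
    have hZ : IsPGroup p (Subgroup.zpowers x) := by
      obtain ⟨k, _, hk⟩ := (Nat.dvd_prime_pow hp).mp (orderOf_dvd_of_pow_eq_one hj)
      apply IsPGroup.of_card (n := k)
      rw [Nat.card_zpowers]; exact hk
    obtain ⟨D, hD⟩ := hZ.exists_le_sylow
    exact ⟨D, hD (Subgroup.mem_zpowers x)⟩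
  have hDexp : ∀ d ∈ (D : Subgroup H), d ^ p ^ (m + 1) = 1 := by
    intro d hd
    apply hexp
    obtain ⟨k, hk⟩ := D.isPGroup' ⟨d, hd⟩
    exact ⟨k, congrArg Subtype.val hk⟩
  have hP₁D : P₁ ≤ ((D.mapSurjective hπsurj : Sylow p (H ⧸ K)) : Subgroup (H ⧸ K)) :=
    hP₁p.le_sylow_of_normal _
  have hT : (θ (QuotientGroup.mk' P₁ (π x)) - 1) ^ (2 * p ^ m - 1) = 0 := by
    apply LinearMap.ext
    intro v
    obtain ⟨sb, hsb, rfl⟩ := hιsurj v
    obtain ⟨s, hsD, hs⟩ : ∃ s ∈ (D : Subgroup H), π s = sb := by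
      have h1 := hP₁D hsb
      rw [Sylow.coe_mapSurjective] at h1
      exact h1
    have hmab := hMAB H p hp2 hsol hOp m hAb (D : Subgroup H) D.isPGroup' hDexp (s * x)
      ((D : Subgroup H).mul_mem hsD hD) x hD
    have hcomm : (sb * π x) ^ p ^ m * (π x) ^ p ^ m = (π x) ^ p ^ m * (sb * π x) ^ p ^ m := by
      have h1 := congrArg π hmab
      rw [map_mul, map_mul, map_pow, map_pow, map_mul, hs] at h1
      exact h1
    obtain ⟨hnb, hlin⟩ := hLin (H ⧸ K) p P₁ V θ ι hιmul hιconj (π x) m sb hsb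
    have hconj := hιconj ((π x) ^ p ^ m) _ hnb
    have hfix : (π x) ^ p ^ m * ((sb * π x) ^ p ^ m * ((π x) ^ p ^ m)⁻¹) * ((π x) ^ p ^ m)⁻¹ =
        (sb * π x) ^ p ^ m * ((π x) ^ p ^ m)⁻¹ := by
      have e : (π x) ^ p ^ m * ((sb * π x) ^ p ^ m * ((π x) ^ p ^ m)⁻¹) * ((π x) ^ p ^ m)⁻¹ =
          ((π x) ^ p ^ m * (sb * π x) ^ p ^ m) * ((π x) ^ p ^ m)⁻¹ * ((π x) ^ p ^ m)⁻¹ := by
        group
      rw [e, ← hcomm]
      group
    rw [hfix] at hconj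
    have hθpow : θ (QuotientGroup.mk' P₁ (π x)) ^ p ^ m =
        θ (QuotientGroup.mk' P₁ ((π x) ^ p ^ m)) := by
      rw [map_pow, map_pow]
    have hexp2 : 2 * p ^ m - 1 = p ^ m + (p ^ m - 1) := by
      have := Nat.one_le_pow m p hp.pos
      omega
    rw [hexp2, pow_add, Module.End.mul_apply, hlin, ← (hFrob p V _ m).2, LinearMap.sub_apply,
      Module.End.one_apply, hθpow, hconj, sub_self, LinearMap.zero_apply]
  apply hN
  have e : N - 1 = (N - 1 - (2 * p ^ m - 1)) + (2 * p ^ m - 1) := by omega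
  rw [e, pow_add, hT, mul_zero]

example (hMAB : Cfsg.Agent.H66.HHF.MABStatement.{u}) (hZBG : Cfsg.Agent.H66.HHF.ZBGStatement.{u})
    (hLin : Cfsg.Agent.H66.HHF.LinStatement.{u}) (hFrob : Cfsg.Agent.H66.HHF.FrobStatement.{u}) :
    Cfsg.Agent.H66.HHF.CoreHStatement.{u} := coreH_holds hMAB hZBG hLin hFrob

end Cfsg.Agent.H91.HHF
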