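import Mathlib
import Cfsg.Agent.H66.HHFDefs
import Cfsg.Agent.H66.ZRep
import Cfsg.Agent.H66.HHA
import Cfsg.Agent.H80.PSolvable

/-!
# S3786 team project (helper66), piece S3786-KEYA

The non-exceptional step of Hall–Higman: `p` odd, `p` not a Fermat prime or abelian Sylow
`2`-subgroups; a `p`-element `x` with `x ^ (p ^ m) ∉ O_p(Γ)` forces a `p`-element `g` with
`g ^ (p ^ (m + 1)) ≠ 1`.
-/

set_option autoImplicit false
set_option linter.style.haveILetI false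
set_option linter.unusedVariables false

namespace Cfsg.Agent.H91.HHF

open Cfsg Cfsg.Agent.H66.HHF

universe u

theorem keyA_holds (hLin : LinStatement.{u}) (hZBG : ZBGStatement.{u}) : KeyAStatement.{u} := by
  intro Γ _ _ p _ hp2 hsol hO hcase x hxp m hx
  classical
  have hp : p.Prime := Fact.out
  by_contra hcon
  push Not at hcon
  obtain ⟨P₁, hP₁⟩ : ∃ P₁ : Subgroup Γ, P₁ = pCore p Γ := ⟨_, rfl⟩
  haveI hP₁n : P₁.Normal := by rw [hP₁]; infer_instance
  rw [← hP₁] at hx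
  have hPp : IsPGroup p P₁ := by rw [hP₁]; exact H14.pCore_isPGroup p Γ
  have hcoset : ∀ u ∈ P₁, (u * x) ^ p ^ (m + 1) = 1 := by
    intro u hu
    apply hcon
    obtain ⟨j, hj⟩ := hxp
    have h1 : (u * x) ^ p ^ j ∈ P₁ := by
      rw [← QuotientGroup.eq_one_iff, QuotientGroup.mk_pow, QuotientGroup.mk_mul,
        (QuotientGroup.eq_one_iff u).mpr hu, one_mul, ← QuotientGroup.mk_pow, hj]
      rfl
    obtain ⟨l, hl⟩ := hPp ⟨_, h1⟩
    refine ⟨j + l, ?_⟩
    rw [pow_add, pow_mul]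
    exact congrArg Subtype.val hl
  have hx1 : x ^ p ^ (m + 1) = 1 := by simpa using hcoset 1 P₁.one_mem
  obtain ⟨Φ, hΦ⟩ : ∃ Φ : Subgroup Γ, Φ = (frattini ↥P₁).map P₁.subtype := ⟨_, rfl⟩
  haveI hΦn : Φ.Normal := by
    rw [hΦ]
    apply Subgroup.normalizer_eq_top_iff.mp
    rw [eq_top_iff]
    refine le_trans ?_ (H1.normalizer_le_normalizer_map_of_characteristic P₁ (frattini ↥P₁))
    rw [Subgroup.normalizer_eq_top_iff.mpr hP₁n]
  obtain ⟨V, iV1, iV2, θ, ι, hθinj, hιsurj, hιmul, hιzpow, hιconj, hιeq, hVp⟩ :=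
    H66.exists_faithful_zmod_rep hsol hO P₁ hP₁ Φ hΦ
  have hι1 : ι 1 = 0 := by
    have := hιzpow 1 P₁.one_mem 0
    rwa [zpow_zero, zero_smul] at this
  haveI hVfin : Finite V := by
    have hs : Function.Surjective (fun u : P₁ => ι (u : Γ)) := by
      intro v
      obtain ⟨u, hu, rfl⟩ := hιsurj v
      exact ⟨⟨u, hu⟩, rfl⟩
    exact Finite.of_surjective _ hs
  -- Lin with `k = m + 1`
  have hzero : (θ (QuotientGroup.mk' P₁ x) - 1) ^ (p ^ (m + 1) - 1) = 0 := by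
    apply LinearMap.ext
    intro v
    obtain ⟨u, hu, rfl⟩ := hιsurj v
    have h1 := (hLin Γ p P₁ V θ ι hιmul hιconj x (m + 1) u hu).2
    rw [h1, hcoset u hu, hx1, inv_one, mul_one, hι1, LinearMap.zero_apply]
  have hπx1 : (QuotientGroup.mk' P₁ x) ^ p ^ (m + 1) = 1 := by
    rw [← map_pow, hx1, map_one]
  have hπx2 : (QuotientGroup.mk' P₁ x) ^ p ^ m ≠ 1 := by
    rw [← map_pow]
    intro h
    exact hx ((QuotientGroup.eq_one_iff _).mp h)
  have hsolH : IsPSolvable p (Γ ⧸ P₁) := H80.isPSolvable_quotient p P₁ hsol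
  have hOpH : pCore p (Γ ⧸ P₁) = ⊥ := by
    subst hP₁
    exact H66.pCore_quotient_pCore_bot p
  obtain ⟨N, hN, hNcase⟩ := hZBG (Γ ⧸ P₁) p hsolH hOpH V θ hθinj (QuotientGroup.mk' P₁ x) m
    hπx1 hπx2
  rcases hNcase with rfl | ⟨n₀, q, k, hn₀, hn₀m, hq, hk, hpq, hnc, hNeq⟩
  · exact hN hzero
  · -- `q = 2`
    have hodd : Odd p := hp.odd_of_ne_two hp2
    have heven : Even (p ^ n₀ - 1) := Nat.Odd.sub_odd (hodd.pow) odd_one
    have h2q : 2 ∣ q := by
      rw [hpq] at heven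
      exact Nat.Prime.dvd_of_dvd_pow Nat.prime_two heven.two_dvd
    have hq2 : 2 = q := (Nat.prime_dvd_prime_iff_eq Nat.prime_two hq).mp h2q
    subst hq2
    rcases hcase with hF | hS
    · apply hF
      have hdvd : p - 1 ∣ 2 ^ k := by
        rw [← hpq]
        have := Nat.sub_dvd_pow_sub_pow p 1 n₀
        rwa [one_pow] at this
      obtain ⟨j, -, hj⟩ := (Nat.dvd_prime_pow Nat.prime_two).mp hdvd
      refine ⟨j, ?_⟩
      have := hp.one_lt
      omega
    · have hT : ∀ T : Sylow 2 (Γ ⧸ P₁), IsMulCommutative (T : Subgroup (Γ ⧸ P₁)) := fun T =>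
        H66.sylow_comm_of_surjective (QuotientGroup.mk' P₁) (QuotientGroup.mk'_surjective _) 2 hS T
      exact hnc default (hT default)

example (hLin : Cfsg.Agent.H66.HHF.LinStatement.{u}) (hZBG : Cfsg.Agent.H66.HHF.ZBGStatement.{u}) :
    Cfsg.Agent.H66.HHF.KeyAStatement.{u} := keyA_holds hLin hZBG

end Cfsg.Agent.H91.HHF
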