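import Mathlib
import Cfsg.Agent.H91.JkFour
import Cfsg.Agent.H91.JzResNof
import Cfsg.Agent.H70.KhCore
import Cfsg.Agent.H32.SrVNG
import Cfsg.Agent.H12.JkTI

/-!
# K-CONJ (the one fact behind K-CENT and K-TI of JZ-KILL, S2951 / S2952)

`kConj (hSR : H52.Sr.StStruct) (hZ2 : StZ2) (h46 : St46) : H12.Jk.StKConjJ`: in the residual
situation every `u ∈ V = Ω₁Z(O₂(L))` is `L`-conjugate into `C_G(J(S))`.

Proof: `V = ⨆ W_i` (`i` in the `S`-orbit of `K`, helper52's structure statement through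
`struct_of_base`), each `K_i` is transitive on `W_i ∖ 1` (helper70's `trans_four`), `K_i`
centralizes `W_j` (`j ≠ i`), and `Z₀ ∩ W_i ≠ 1` (S2946, as the hypothesis `h46`); helper70's
`conj_into` conjugates `u` into `⨆ (Z₀ ∩ W_i) ≤ Z₀ = Ω₁Z(J(S)) ≤ C_G(J(S))` by an element of
`⨆ K_i ≤ L`.  Consequences: `kCent`, `kTI` (helper12's `kCent_of`, `kTI_of`).
-/

set_option autoImplicit false
open Cfsg

namespace Cfsg.Agent.H91.JzK

open Cfsg.Agent.H64.Jz Cfsg.Agent.H59.JzK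

universe u

/-- `K` normalizes `W_K`. -/
theorem le_normalizer_wOf' {G : Type u} [Group G] [Finite G] (K : Subgroup G) :
    K ≤ Subgroup.normalizer (wOf K : Set G) := by
  intro k hk
  have h1 : (omegaCenterOf (pCoreOf 2 K)).map (MulAut.conj k).toMonoidHom =
      omegaCenterOf (pCoreOf 2 K) :=
    Subgroup.mem_normalizer_iff_map_conj_eq.mp ((Cfsg.Agent.H32.Sr.vng K).1 hk)
  have h2 : K.map (MulAut.conj k).toMonoidHom = K :=
    Subgroup.mem_normalizer_iff_map_conj_eq.mp (Subgroup.le_normalizer hk)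
  have h3 : (wOf K).map (MulAut.conj k).toMonoidHom = wOf K := by
    unfold wOf
    rw [Subgroup.map_commutator, h1, h2]
  exact Subgroup.mem_normalizer_iff_map_conj_eq.mpr h3

/-- K-CONJ. -/
theorem kConj (hSR : Cfsg.Agent.H52.Sr.StStruct.{u}) (hZ2 : StZ2.{u})
    (h46 : Cfsg.Agent.H91.JzR.St46.{u}) : Cfsg.Agent.H12.Jk.StKConjJ.{u} := by
  intro G _ _ S M K L T' K' L' hR u hu
  obtain ⟨hB, -, hB', hT'⟩ := hR
  have hcardZ : Nat.card ↥(omegaCenterOf (S : Subgroup G)) = 2 := hZ2 S L T' K' L' hB' hT'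
  obtain ⟨-, hsup, hind, hcomp, -, hcent, htriv⟩ := struct_of_base hSR S M K L hB hcardZ
  obtain ⟨⟨hL, hN, hZ⟩, -, -, -, hSmax, -, -, -, -⟩ := hB
  have hS1 : (S : Subgroup G) ≠ ⊥ := hSmax.1.2.1
  have hS2 : IsPGroup 2 ↥(S : Subgroup G) := S.isPGroup'
  have hWV : ∀ i : Cfsg.Agent.H52.Sr.Orb (S : Subgroup G) K, wOf i.1 ≤ Vof L := by
    intro i
    have h := le_iSup (fun i : Cfsg.Agent.H52.Sr.Orb (S : Subgroup G) K => wOf i.1) i
    rw [hsup] at h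
    exact h
  have hcomm : ∀ i j : Cfsg.Agent.H52.Sr.Orb (S : Subgroup G) K, i ≠ j →
      ∀ a ∈ wOf i.1, ∀ b ∈ wOf j.1, a * b = b * a := by
    intro i j _ a ha b hb
    have h1 := (Cfsg.Agent.H63.Sn.mem_omegaCenterOf _ (hWV i ha)).2.1
    have h2 := (Cfsg.Agent.H63.Sn.mem_omegaCenterOf _ (hWV j hb)).1
    exact ((Subgroup.mem_centralizer_iff.mp h1) b h2).symm
  have htr : ∀ i : Cfsg.Agent.H52.Sr.Orb (S : Subgroup G) K, ∀ x ∈ wOf i.1, ∃ k ∈ i.1,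
      k * x * k⁻¹ ∈ omegaCenterOf (thompsonSubgroupOf 2 (S : Subgroup G)) ⊓ wOf i.1 := by
    intro i x hx
    by_cases hx1 : x = 1
    · refine ⟨1, Subgroup.one_mem _, ?_⟩
      rw [hx1, one_mul, inv_one, mul_one]
      exact Subgroup.one_mem _
    · obtain ⟨hgen, -, -, -, hc4, hexp⟩ := (hcomp i).1
      have h2 := (h46 hL hN hZ (S : Subgroup G) hS2 hS1 i.1 (hcomp i).1
        (omegaCenterOf (thompsonSubgroupOf 2 (S : Subgroup G))) rfl).1
      have hex : ∃ w ∈ omegaCenterOf (thompsonSubgroupOf 2 (S : Subgroup G)) ⊓ wOf i.1,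
          w ≠ 1 := by
        by_contra hcon
        push Not at hcon
        have hbot : omegaCenterOf (thompsonSubgroupOf 2 (S : Subgroup G)) ⊓ wOf i.1 = ⊥ :=
          (Subgroup.eq_bot_iff_forall _).mpr hcon
        rw [hbot, Subgroup.card_bot] at h2
        omega
      obtain ⟨w, hw, hw1⟩ := hex
      obtain ⟨k, hk, hkx⟩ := Cfsg.Agent.H70.Kh.trans_four (wOf i.1) i.1 hc4 hexp
        (le_normalizer_wOf' i.1) hgen (htriv i) x w hx hx1 (Subgroup.mem_inf.mp hw).2 hw1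
      exact ⟨k, hk, hkx ▸ hw⟩
  have hu' : u ∈ ⨆ i : Cfsg.Agent.H52.Sr.Orb (S : Subgroup G) K, wOf i.1 := by
    rw [hsup]
    exact hu
  obtain ⟨k, hk, hku⟩ := Cfsg.Agent.H70.Kh.conj_into
    (fun i : Cfsg.Agent.H52.Sr.Orb (S : Subgroup G) K => wOf i.1) (fun i => i.1)
    (fun i => omegaCenterOf (thompsonSubgroupOf 2 (S : Subgroup G)) ⊓ wOf i.1)
    (fun i j hij => hcent i j hij) (fun i => inf_le_right) hcomm htr u hu'
  refine ⟨k, ?_, ?_⟩
  · exact (iSup_le fun i => (hcomp i).2.1) hk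
  · have hle : (⨆ i : Cfsg.Agent.H52.Sr.Orb (S : Subgroup G) K,
        omegaCenterOf (thompsonSubgroupOf 2 (S : Subgroup G)) ⊓ wOf i.1) ≤
        omegaCenterOf (thompsonSubgroupOf 2 (S : Subgroup G)) := iSup_le fun i => inf_le_left
    exact (Cfsg.Agent.H63.Sn.mem_omegaCenterOf _ (hle hku)).2.1

/-- K-CENT (through helper12's `kCent_of`). -/
theorem kCent (hSR : Cfsg.Agent.H52.Sr.StStruct.{u}) (hZ2 : StZ2.{u})
    (h46 : Cfsg.Agent.H91.JzR.St46.{u}) : StKCent.{u} :=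
  Cfsg.Agent.H12.Jk.kCent_of (kConj hSR hZ2 h46)

/-- K-TI (through helper12's `kTI_of`). -/
theorem kTI (hSR : Cfsg.Agent.H52.Sr.StStruct.{u}) (hZ2 : StZ2.{u})
    (h46 : Cfsg.Agent.H91.JzR.St46.{u}) : StKTI.{u} :=
  Cfsg.Agent.H12.Jk.kTI_of (kConj hSR hZ2 h46)

example (hSR : Cfsg.Agent.H52.Sr.StStruct.{u}) (hZ2 : StZ2.{u})
    (h46 : Cfsg.Agent.H91.JzR.St46.{u}) :
    ∀ {G : Type u} [Group G] [Finite G] (S : Sylow 2 G)
    (M K L T' K' L' : Subgroup G), Cfsg.Agent.H64.Jz.RCtx S M K L T' K' L' →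
  ∀ u ∈ Cfsg.Agent.H59.JzK.Vof L, ∃ k ∈ L,
    k * u * k⁻¹ ∈ Subgroup.centralizer (thompsonSubgroupOf 2 (S : Subgroup G) : Set G) :=
  kConj hSR hZ2 h46

example (hSR : Cfsg.Agent.H52.Sr.StStruct.{u}) (hZ2 : StZ2.{u})
    (h46 : Cfsg.Agent.H91.JzR.St46.{u}) : StKCent.{u} ∧ StKTI.{u} :=
  ⟨kCent hSR hZ2 h46, kTI hSR hZ2 h46⟩

end Cfsg.Agent.H91.JzK
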