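import Mathlib
import Cfsg.Agent.H52.JwDefs
import Cfsg.Agent.S2950
import Cfsg.Agent.Helper55.ThJ

/-!
# W-PL and W-PS (pieces of helper52's team project JW = S2953)

`pl : StPL`: `L` is the only maximal 2-local over `P = ⟨K, T⟩`, and `T` is a Sylow 2-subgroup of
`L` (S2950).  `ps : StPS`: `T` is a Sylow 2-subgroup of `P`.
-/

set_option autoImplicit false
open Cfsg

namespace Cfsg.Agent.H91.Jw

open Cfsg.Agent.H64.Jz Cfsg.Agent.H52.Jw

universe u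

/-- W-PL. -/
theorem pl : StPL.{u} := by
  intro G _ _ S M T K L hB
  obtain ⟨⟨hL, hN, hZ⟩, hO, hM, hMJ, hT, -, hK, hLmax, hKL⟩ := hB
  obtain ⟨L₀, hL₀max, hKJL₀, huniq, hsub, hsyl⟩ :=
    Cfsg.Agent.S2950.result hL hN hZ hO S M hM hMJ T hT K hK
  have e1 : L = L₀ := huniq L hLmax hKL
  subst e1
  refine ⟨sup_le (le_sup_left.trans hKL) hsyl.1, hsyl, ?_⟩
  intro L' hL' hPL'
  exact huniq L' hL' ((sup_le_sup_left (Cfsg.Agent.Helper55.ThJ.J_le T) K).trans hPL')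

/-- W-PS. -/
theorem ps : StPS.{u} := by
  intro G _ _ S M T K L hB
  obtain ⟨hPL, hsyl, -⟩ := pl S M T K L hB
  obtain ⟨hTL, hT2, hodd⟩ := hsyl
  refine ⟨le_sup_right, hT2, ?_⟩
  have h1 : T.relIndex (K ⊔ T) * (K ⊔ T).relIndex L = T.relIndex L :=
    Subgroup.relIndex_mul_relIndex T (K ⊔ T) L le_sup_right hPL
  rw [← h1] at hodd
  exact (Nat.odd_mul.mp hodd).1

example : ∀ {G : Type u} [Group G] [Finite G] (S : Sylow 2 G) (M T K L : Subgroup G),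
  Base S M T K L →
  K ⊔ T ≤ L ∧ IsSylowTwoIn T L ∧
    ∀ L' : Subgroup G, IsMaximalTwoLocal L' → K ⊔ T ≤ L' → L' = L := pl

example : ∀ {G : Type u} [Group G] [Finite G] (S : Sylow 2 G) (M T K L : Subgroup G),
  Base S M T K L → IsSylowTwoIn T (K ⊔ T) := ps

end Cfsg.Agent.H91.Jw
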