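import Cfsg.Agent.H91.JxKACore
import Cfsg.Agent.H97.JyPFacts
import Cfsg.Agent.S2950
import Cfsg.Agent.S2952
import Cfsg.Agent.H54.UqO2SN
import Cfsg.Agent.Helper55.J48

/-!
# S2953, JY-KILL2, case `V ≤ Q₁` (piece KA of `H52/JxDefs.lean`), hypothesis-free

`Cfsg.Agent.H91.Jx.ka : Cfsg.Agent.H52.Jx.StKA`: in the residual situation
`RCtx2 S M K L T' K' L'`, `V = Ω₁Z(O₂(L)) ≤ O₂(K' ⊔ T')` is impossible.  Glue of
`H82.Jv.caseA` (abstract count), `H43.Jy.vfacts` (the `V`-facts) and `H97.Jy.pfacts` (the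
structure of `K' ⊔ T'`), with S2950 / S2952 for the base `L`.
-/

set_option autoImplicit false
open Cfsg

namespace Cfsg.Agent.H91.Jx

open Cfsg.Agent.H64.Jz Cfsg.Agent.H64.Jy Cfsg.Agent.H52.Jx

universe u

/-- **KA**: the case `V ≤ Q₁` is impossible. -/
theorem ka : StKA.{u} := by
  intro G _ _ S M K L T' K' L' hR hVQ
  have hR' := hR
  obtain ⟨hB, hN, hB', hT'⟩ := hR
  obtain ⟨hZN, hO, hM, hMJ, hT, hTS, hK, hLmax, hKJL⟩ := hB'
  obtain ⟨hchar, hsolv, hZ⟩ := hZN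
  obtain ⟨L₀, hL₀max, hL₀, huniq, hsub, hsyl⟩ :=
    Cfsg.Agent.S2950.result hchar hsolv hZ hO S L hM hMJ T' hT K' hK
  have hLL₀ : L' = L₀ := huniq L' hLmax hKJL
  rw [← hLL₀] at huniq hsub hsyl
  have hsylL : IsSylowTwoIn T' L' := hsyl
  obtain ⟨hTL', hT2, hToddL⟩ := hsyl
  have hKL' : K' ≤ L' := le_sup_left.trans hKJL
  have hPL : K' ⊔ T' ≤ L' := sup_le hKL' hTL'
  have hTP : T' ≤ K' ⊔ T' := le_sup_right
  have hKP : K' ≤ K' ⊔ T' := le_sup_left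
  have hoddP : Odd (T'.relIndex (K' ⊔ T')) := by
    have h := Subgroup.relIndex_mul_relIndex T' (K' ⊔ T') L' hTP hPL
    rw [← h] at hToddL
    exact (Nat.odd_mul.mp hToddL).1
  have hsylP : IsSylowTwoIn T' (K' ⊔ T') := ⟨hTP, hT2, hoddP⟩
  have hOPT : pCoreOf 2 (K' ⊔ T') ≤ T' :=
    Cfsg.Agent.Helper55.J48.pCoreOf_le_of_sylowIn hsylP
  have hOLT : pCoreOf 2 L' ≤ T' := Cfsg.Agent.Helper55.J48.pCoreOf_le_of_sylowIn hsylL
  obtain ⟨hgen, hcomm, hrel3, -, -, -⟩ := hK.1.1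
  have hOK : pCoreOf 2 K' ≤ K' := Subgroup.map_subtype_le _
  have hOKT : pCoreOf 2 K' ≤ T' := (Cfsg.Agent.H54.Uq.o2sn K' L' hKL' hsub).trans hOLT
  have hKn : (K'.subgroupOf (K' ⊔ T')).Normal :=
    Cfsg.Agent.S2952.result hchar hsolv hZ hO S L hM hMJ T' hT K' hK
  have hPK : K' ⊔ T' ≤ Subgroup.normalizer (K' : Set G) :=
    (Subgroup.normal_subgroupOf_iff_le_normalizer hKP).mp hKn
  have hTK : T' ≤ Subgroup.normalizer (K' : Set G) := hTP.trans hPK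
  have hOnK : K' ≤ Subgroup.normalizer (pCoreOf 2 K' : Set G) :=
    Cfsg.Agent.H31.X.H54.le_normalizer_pCoreOf K'
  have hOnT : T' ≤ Subgroup.normalizer (pCoreOf 2 K' : Set G) :=
    hTK.trans (Cfsg.Agent.H31.X.H54.normalizer_le_normalizer_pCoreOf K')
  obtain ⟨D, k, hDT, hOD, hKD, hTD, hDidx, hInv, hsq, hcube, hkK, hkO, hk3, hgenk, hdich⟩ :=
    Cfsg.Agent.H97.Jy.pfacts K' T' (pCoreOf 2 K') hT2 hTK hOK hOKT hrel3 hOnK hOnT hgen
  have hT'L : T' ≤ L := hT.1.2.2.1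
  have hQD : pCoreOf 2 (K' ⊔ T') ≤ D := by
    rcases hdich (pCoreOf 2 (K' ⊔ T')) (Subgroup.map_subtype_le _)
      (Cfsg.Agent.H31.X.H54.le_normalizer_pCoreOf (K' ⊔ T')) with h | h
    · exact h
    · exact (hK.2.1 (h.trans (hOPT.trans hT'L))).elim
  exact ka_core S M K L T' K' L' hR' D (hVQ.trans hQD)
    (Cfsg.Agent.H31.X.H54.isPGroup_pCoreOf (p := 2) K') hOD hDT hKD hcube hDidx hInv

universe v in
example : Cfsg.Agent.H52.Jx.StKA.{v} := ka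

end Cfsg.Agent.H91.Jx

#print axioms Cfsg.Agent.H91.Jx.ka
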