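import Cfsg.Agent.H52.JxDefs
import Cfsg.Agent.H82.JvCaseA
import Cfsg.Agent.H43.JyVFacts

/-!
# S2953, JY-KILL2, case `V ≤ Q₁`: glue of `H82.Jv.caseA` with the `V`-facts

`Cfsg.Agent.H91.Jx.ka_core`: in the residual situation `RCtx2 S M K L T' K' L'` with
`V = Ω₁Z(O₂(L)) ≤ D`, the P-side facts for `D` (stated as hypotheses, in the shapes of
`H97/JyPFacts.lean`) give a contradiction.
-/

set_option autoImplicit false
open Cfsg

namespace Cfsg.Agent.H91.Jx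

open Cfsg.Agent.H64.Jz Cfsg.Agent.H64.Jy Cfsg.Agent.H52.Jx

universe u

/-- If `J(T) ⊄ Q`, some exponent-2 subgroup of `T` of largest order is not inside `Q`. -/
theorem exists_maxA {G : Type u} [Group G] [Finite G] (T Q : Subgroup G)
    (h : ¬ thompsonSubgroupOf 2 T ≤ Q) :
    ∃ A : Subgroup G, A ≤ T ∧ (∀ x ∈ A, x * x = 1) ∧
      (∀ B : Subgroup G, B ≤ T → (∀ x ∈ B, x * x = 1) → Nat.card ↥B ≤ Nat.card ↥A) ∧
      ¬ A ≤ Q := by
  by_contra hcon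
  push_neg at hcon
  apply h
  unfold thompsonSubgroupOf thompsonSubgroup
  rw [Subgroup.map_le_iff_le_comap]
  refine sSup_le ?_
  intro A' hA'
  obtain ⟨hEA, hmax⟩ := hA'
  have hAT : A'.map T.subtype ≤ T := by
    rintro _ ⟨a, _, rfl⟩
    exact a.2
  have hexp : ∀ x ∈ A'.map T.subtype, x * x = 1 := by
    rintro _ ⟨a, ha, rfl⟩
    have h1 := hEA.2 a ha
    have h2 : ((a ^ 2 : ↥T) : G) = 1 := by rw [h1]; rfl
    simpa [pow_two] using h2
  have hmax' : ∀ B : Subgroup G, B ≤ T → (∀ x ∈ B, x * x = 1) →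
      Nat.card ↥B ≤ Nat.card ↥(A'.map T.subtype) := by
    intro B hBT hB
    have hBEA : IsElementaryAbelian 2 (B.subgroupOf T) := by
      refine ⟨⟨⟨fun a b => ?_⟩⟩, ?_⟩
      · apply Subtype.ext
        apply Subtype.ext
        have ha : ((a : ↥T) : G) * ((a : ↥T) : G) = 1 := hB _ a.2
        have hb : ((b : ↥T) : G) * ((b : ↥T) : G) = 1 := hB _ b.2
        have hab : (((a : ↥T) : G) * ((b : ↥T) : G)) * (((a : ↥T) : G) * ((b : ↥T) : G)) = 1 :=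
          hB _ (mul_mem a.2 b.2)
        show ((a : ↥T) : G) * ((b : ↥T) : G) = ((b : ↥T) : G) * ((a : ↥T) : G)
        have e1 : ((a : ↥T) : G)⁻¹ = ((a : ↥T) : G) := inv_eq_of_mul_eq_one_left ha
        have e2 : ((b : ↥T) : G)⁻¹ = ((b : ↥T) : G) := inv_eq_of_mul_eq_one_left hb
        have e3 : (((a : ↥T) : G) * ((b : ↥T) : G))⁻¹ = ((a : ↥T) : G) * ((b : ↥T) : G) :=
          inv_eq_of_mul_eq_one_left hab
        rw [mul_inv_rev, e1, e2] at e3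
        exact e3.symm
      · intro a ha
        apply Subtype.ext
        have : ((a : ↥T) : G) * ((a : ↥T) : G) = 1 := hB _ ha
        simpa [pow_two] using this
    have h1 := hmax (B.subgroupOf T) hBEA
    have h2 : Nat.card ↥(B.subgroupOf T) = Nat.card ↥B :=
      Nat.card_congr (Subgroup.subgroupOfEquivOfLe hBT).toEquiv
    have h3 : Nat.card ↥(A'.map T.subtype) = Nat.card ↥A' :=
      Subgroup.card_map_of_injective T.subtype_injective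
    omega
  have h5 := hcon (A'.map T.subtype) hAT hexp hmax'
  intro a ha
  exact h5 ⟨a, ha, rfl⟩

/-- An element of order 3 of `K` outside `L`, for `O ≤ L` with `g³ ∈ O` on `K`. -/
theorem exists_three {G : Type u} [Group G] [Finite G] (K O L : Subgroup G)
    (hO2 : IsPGroup 2 ↥O) (hOL : O ≤ L) (hKL : ¬ K ≤ L)
    (h3 : ∀ g ∈ K, g ^ 3 ∈ O) :
    ∃ k ∈ K, k ^ 3 = 1 ∧ k ∉ L := by
  obtain ⟨g, hgK, hgL⟩ := SetLike.not_le_iff_exists.mp hKL
  have hg3 : g ^ 3 ∈ O := h3 g hgK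
  obtain ⟨n, hn⟩ := hO2 ⟨g ^ 3, hg3⟩
  have hn' : (g ^ 3) ^ 2 ^ n = 1 := by
    have := congrArg Subtype.val hn
    simpa using this
  refine ⟨g ^ 2 ^ n, pow_mem hgK _, ?_, ?_⟩
  · rw [← pow_mul, mul_comm, pow_mul]
    exact hn'
  · intro hk
    apply hgL
    have hco : Nat.Coprime (2 ^ n) 3 := Nat.Coprime.pow_left n (by decide)
    have hb := Int.gcd_eq_gcd_ab ((2 ^ n : ℕ) : ℤ) ((3 : ℕ) : ℤ)
    have hg1 : Int.gcd ((2 ^ n : ℕ) : ℤ) ((3 : ℕ) : ℤ) = 1 := by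
      rw [Int.gcd_natCast_natCast]
      exact hco
    rw [hg1] at hb
    have hgz : g = (g ^ 2 ^ n) ^ (Int.gcdA ((2 ^ n : ℕ) : ℤ) ((3 : ℕ) : ℤ)) *
        (g ^ 3) ^ (Int.gcdB ((2 ^ n : ℕ) : ℤ) ((3 : ℕ) : ℤ)) := by
      rw [← zpow_natCast g (2 ^ n), ← zpow_natCast g 3, ← zpow_mul, ← zpow_mul, ← zpow_add,
        ← hb]
      simp
    rw [hgz]
    exact mul_mem (zpow_mem hk _) (zpow_mem (hOL hg3) _)

/-- **Case `V ≤ Q₁`**, from the P-side facts (as hypotheses) for a subgroup `D` of `T'`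
containing `V`. -/
theorem ka_core {G : Type u} [Group G] [Finite G] (S : Sylow 2 G)
    (M K L T' K' L' : Subgroup G) (hR : RCtx2 S M K L T' K' L') (D : Subgroup G)
    (hVD : Vof L ≤ D)
    (pO2 : IsPGroup 2 ↥(pCoreOf 2 K'))
    (pOD : pCoreOf 2 K' ≤ D)
    (pDT : D ≤ T')
    (pKD : K' ≤ Subgroup.normalizer (D : Set G))
    (pK3 : ∀ g ∈ K', g ^ 3 ∈ pCoreOf 2 K')
    (pDidx : ∀ a ∈ T', ∀ b ∈ T', a ∉ D → b ∉ D → a * b ∈ D)
    (pInv : ∀ x ∈ T', x ∉ D → ∀ g ∈ K', x * g * x⁻¹ * g ∈ pCoreOf 2 K') : False := by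
  obtain ⟨hB, hN, hB', hT'⟩ := hR
  obtain ⟨-, -, -, hV4, hVe, -, hNV, hSL, -, -, -, -, hTI⟩ :=
    Cfsg.Agent.H43.Jy.vfacts S M K L T' K' L' hB hN hB' hT'
  have hT'S : T' ≤ (S : Subgroup G) := hB'.2.2.2.2.2.1
  have hK'L : ¬ K' ≤ L := hB'.2.2.2.2.2.2.1.2.1
  have hJc : IsJComponent T' K' := hB'.2.2.2.2.2.2.1.1.1
  have hT'L : T' ≤ L := hT'S.trans hSL
  -- `J(T') ⊄ D`
  have hJQ : ¬ thompsonSubgroupOf 2 T' ≤ D := by
    intro hJ
    apply hK'L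
    have h1 : ⁅K', thompsonSubgroupOf 2 T'⁆ ≤ D := by
      rw [Subgroup.commutator_le]
      intro k hk j hj
      have hj' := hJ hj
      have h2 : k * j * k⁻¹ ∈ D :=
        (Subgroup.mem_normalizer_iff.mp (pKD hk) j).mp hj'
      exact mul_mem h2 (inv_mem hj')
    rw [hJc.2.1] at h1
    exact h1.trans (pDT.trans hT'L)
  obtain ⟨A, hAT, hAe, hAmax, hAQ⟩ := exists_maxA T' D hJQ
  obtain ⟨a, haA, haQ⟩ := SetLike.not_le_iff_exists.mp hAQ
  obtain ⟨k, hkK, hk3, hkL⟩ := exists_three K' (pCoreOf 2 K') L pO2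
    (pOD.trans (pDT.trans hT'L)) hK'L pK3
  refine Cfsg.Agent.H82.Jv.caseA T' D (Vof L) A k a pDT hVD hV4 hVe
    ?_ ?_ (pKD hkK) hk3 ?_ hAT hAe hAmax haA ?_ (pOD (pInv a (hAT haA) haQ k hkK)) ?_
  · intro g hg
    rw [hNV]
    exact hTI g hg
  · rw [hNV]
    exact pDT.trans hT'L
  · rw [hNV]
    exact hkL
  · rw [hNV]
    exact hT'L (hAT haA)
  · intro t ht
    by_cases htQ : t ∈ D
    · exact Or.inl htQ
    · exact Or.inr (pDidx t (hAT ht) a (hAT haA) htQ haQ)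

end Cfsg.Agent.H91.Jx

#print axioms Cfsg.Agent.H91.Jx.ka_core
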