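import Cfsg.Agent.H91.JxKA
import Cfsg.Agent.H52.JxKB
import Cfsg.Agent.H40.JxStar
import Cfsg.Agent.H40.JxPF
import Cfsg.Agent.H79.JxVne
import Cfsg.Agent.H88.JxPSide

/-!
# S2953, JY-KILL2: the closed kill

`Cfsg.Agent.H91.Jx.kill2 : Cfsg.Agent.H64.Jy.StKill2` (the residual situation `RCtx2` is
impossible), hypothesis-free: `kill2_of ka (kb_of star pf (kbNorm_of pside vne pf))` with
`ka` (helper91, on helper82's `caseA`), `kbNorm_of` (helper52, on helper29's `r1_out_core`),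
`star`, `pf` (helper40), `vne` (helper79), `pside` (helper88).
-/

set_option autoImplicit false
open Cfsg

namespace Cfsg.Agent.H91.Jx

universe u

/-- **JY-KILL2**, closed. -/
theorem kill2 : Cfsg.Agent.H64.Jy.StKill2.{u} :=
  Cfsg.Agent.H52.Jx.kill2_of ka
    (Cfsg.Agent.H52.Jx.kb_of Cfsg.Agent.H40.Jx.star Cfsg.Agent.H40.Jx.pf
      (Cfsg.Agent.H52.Jx.kbNorm_of
        (fun S M T K L hB => Cfsg.Agent.H88.Jx.pside_explicit S M T K L hB)
        Cfsg.Agent.H79.Jx.vne Cfsg.Agent.H40.Jx.pf))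

universe v in
example : Cfsg.Agent.H64.Jy.StKill2.{v} := kill2

end Cfsg.Agent.H91.Jx

#print axioms Cfsg.Agent.H91.Jx.kill2
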