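import Mathlib
import Cfsg.Agent.H91.L34Defs

/-!
# helper91: piece STAR of the S5387 project

A perfect central extension, by a group of exponent 2, of a group with the 2-local configuration
`Cfg` has kernel of order at most 4 (from the pieces EA, SB, TR).
-/

set_option autoImplicit false

namespace Cfsg.Agent.H91.L34

open Subgroup

universe u v

/-- The full preimage of a fused subgroup of exponent 2 has exponent 2. -/
theorem comap_exp_two (hea : EaStmt.{v}) {G : Type u} [Group G] {D : Type v} [Group D]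
    (ρ : D →* G) (hsurj : Function.Surjective ρ) (hker : ρ.ker ≤ center D)
    (hexp : ∀ z ∈ ρ.ker, z * z = 1) (E : Subgroup G) (h1 : ∀ x ∈ E, x * x = 1)
    (hf : ∀ x ∈ E, ∀ y ∈ E, x ≠ 1 → y ≠ 1 → ∃ g : G, g * x * g⁻¹ = y)
    (ht : ∃ x ∈ E, ∃ y ∈ E, ∃ z ∈ E, x ≠ 1 ∧ y ≠ 1 ∧ z ≠ 1 ∧ x * y ≠ 1 ∧ x * z ≠ 1 ∧
      y * z ≠ 1 ∧ x * y * z ≠ 1) :
    ∀ w ∈ E.comap ρ, w * w = 1 := by
  refine hea ρ.ker (E.comap ρ) hker hexp ?_ ?_ ?_ ?_
  · intro x hx
    rw [MonoidHom.mem_ker] at hx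
    rw [Subgroup.mem_comap, hx]
    exact E.one_mem
  · intro x hx
    rw [MonoidHom.mem_ker, map_mul]
    exact h1 _ hx
  · intro x hx y hy hxK hyK
    obtain ⟨g, hg⟩ := hf (ρ x) hx (ρ y) hy (by rwa [MonoidHom.mem_ker] at hxK)
      (by rwa [MonoidHom.mem_ker] at hyK)
    obtain ⟨n, rfl⟩ := hsurj g
    refine ⟨n, ?_⟩
    rw [MonoidHom.mem_ker]
    simp only [map_mul, map_inv]
    rw [hg, mul_inv_cancel]
  · obtain ⟨x, hx, y, hy, z, hz, h⟩ := ht
    obtain ⟨x', rfl⟩ := hsurj x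
    obtain ⟨y', rfl⟩ := hsurj y
    obtain ⟨z', rfl⟩ := hsurj z
    refine ⟨x', hx, y', hy, z', hz, ?_⟩
    simpa only [MonoidHom.mem_ker, map_mul] using h

/-- If `E₂` normalizes `E₁` then so does `E₁ ⊔ E₂`. -/
theorem conj_mem_of_mem_sup {G : Type u} [Group G] (E₁ E₂ : Subgroup G)
    (hn : ∀ x ∈ E₂, ∀ y ∈ E₁, x * y * x⁻¹ ∈ E₁) :
    ∀ t ∈ E₁ ⊔ E₂, ∀ y ∈ E₁, t * y * t⁻¹ ∈ E₁ := by
  let T : Subgroup G :=
    { carrier := {t | ∀ y ∈ E₁, t * y * t⁻¹ ∈ E₁ ∧ t⁻¹ * y * t ∈ E₁}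
      one_mem' := by intro y hy; simpa using hy
      mul_mem' := by
        intro a b ha hb y hy
        constructor
        · have := (ha _ ((hb y hy).1)).1
          simpa [mul_assoc] using this
        · have := (hb _ ((ha y hy).2)).2
          simpa [mul_assoc] using this
      inv_mem' := by
        intro a ha y hy
        constructor
        · simpa using (ha y hy).2
        · simpa using (ha y hy).1 }
  have h1 : E₁ ≤ T := by
    intro t ht y hy
    exact ⟨E₁.mul_mem (E₁.mul_mem ht hy) (E₁.inv_mem ht),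
      E₁.mul_mem (E₁.mul_mem (E₁.inv_mem ht) hy) ht⟩
  have h2 : E₂ ≤ T := by
    intro t ht y hy
    refine ⟨hn t ht y hy, ?_⟩
    have := hn t⁻¹ (E₂.inv_mem ht) y hy
    simpa using this
  intro t ht y hy
  exact ((sup_le h1 h2) ht y hy).1

theorem star (hea : EaStmt.{v}) (hsb : SbStmt.{v}) (htr : TrStmt.{v}) : StarStmt.{u, v} := by
  intro G _ _ D _ _ hcfg ρ hsurj hker hexp hperf
  obtain ⟨E₁, E₂, a₁, a₂, b₁, b₂, h1, h2, hf1, hf2, ht1, ht2, hn12, hn21, ha₁, ha₂, hb₁, hb₂,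
    hg1, hg2, hodd, hcomm⟩ := hcfg
  -- the preimages have exponent 2
  have hE1 := comap_exp_two hea ρ hsurj hker hexp E₁ h1 hf1 ht1
  have hE2 := comap_exp_two hea ρ hsurj hker hexp E₂ h2 hf2 ht2
  -- the Sylow preimage and its map to `G`
  set S : Subgroup G := E₁ ⊔ E₂ with hS
  set Sh : Subgroup D := S.comap ρ with hSh
  set f : ↥Sh →* G := ρ.comp Sh.subtype with hf
  have hfS : ∀ x : ↥Sh, f x ∈ S := fun x => x.2
  have hrange : f.range = S := by
    apply le_antisymm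
    · rintro _ ⟨x, rfl⟩
      exact hfS x
    · intro y hy
      obtain ⟨d, rfl⟩ := hsurj y
      exact ⟨⟨d, hy⟩, rfl⟩
  have hkerf : ∀ x : ↥Sh, x ∈ f.ker ↔ (x : D) ∈ ρ.ker := by
    intro x
    rw [MonoidHom.mem_ker, MonoidHom.mem_ker]
    rfl
  set A : Subgroup ↥Sh := E₁.comap f with hA
  set B : Subgroup ↥Sh := E₂.comap f with hB
  have hE1S : E₁ ≤ S := le_sup_left
  have hE2S : E₂ ≤ S := le_sup_right
  have hkA : f.ker ≤ A := fun x hx => by
    rw [hA, Subgroup.mem_comap, MonoidHom.mem_ker.mp hx]; exact E₁.one_mem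
  have hkB : f.ker ≤ B := fun x hx => by
    rw [hB, Subgroup.mem_comap, MonoidHom.mem_ker.mp hx]; exact E₂.one_mem
  have hmapA : A.map f = E₁ := by
    rw [hA, Subgroup.map_comap_eq, hrange]; exact inf_eq_right.mpr hE1S
  have hmapB : B.map f = E₂ := by
    rw [hB, Subgroup.map_comap_eq, hrange]; exact inf_eq_right.mpr hE2S
  have hAB : A ⊔ B = ⊤ := by
    have h3 : f.ker ≤ A ⊔ B := hkA.trans le_sup_left
    rw [← Subgroup.comap_map_eq_self h3, Subgroup.map_sup, hmapA, hmapB]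
    rw [eq_top_iff]
    intro x _
    exact hfS x
  have hAn : A.Normal := by
    constructor
    intro n hn g
    rw [hA, Subgroup.mem_comap] at hn ⊢
    rw [map_mul, map_mul, map_inv]
    exact conj_mem_of_mem_sup E₁ E₂ hn21 (f g) (hfS g) (f n) hn
  have hBn : B.Normal := by
    constructor
    intro n hn g
    rw [hB, Subgroup.mem_comap] at hn ⊢
    rw [map_mul, map_mul, map_inv]
    have hg : f g ∈ E₂ ⊔ E₁ := by rw [sup_comm]; exact hfS g
    exact conj_mem_of_mem_sup E₂ E₁ hn12 (f g) hg (f n) hn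
  have hA2 : ∀ a ∈ A, a * a = 1 := by
    intro a ha
    apply Subtype.ext
    exact hE1 (a : D) ha
  have hB2 : ∀ b ∈ B, b * b = 1 := by
    intro b hb
    apply Subtype.ext
    exact hE2 (b : D) hb
  -- lifts of the generators
  have hlift : ∀ y ∈ S, ∃ x : ↥Sh, f x = y := by
    intro y hy
    rw [← hrange] at hy
    exact hy
  obtain ⟨α₁, hα₁⟩ := hlift a₁ (hE1S ha₁)
  obtain ⟨α₂, hα₂⟩ := hlift a₂ (hE1S ha₂)
  obtain ⟨β₁, hβ₁⟩ := hlift b₁ (hE2S hb₁)
  obtain ⟨β₂, hβ₂⟩ := hlift b₂ (hE2S hb₂)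
  have hinf : (A ⊓ B).map f = E₁ ⊓ E₂ := by
    have : A ⊓ B = (E₁ ⊓ E₂).comap f := by rw [hA, hB, Subgroup.comap_inf]
    rw [this, Subgroup.map_comap_eq, hrange]
    exact inf_eq_right.mpr (inf_le_left.trans hE1S)
  have hgenA : A ≤ closure {α₁, α₂} ⊔ (A ⊓ B) := by
    have h3 : f.ker ≤ closure {α₁, α₂} ⊔ (A ⊓ B) := (le_inf hkA hkB).trans le_sup_right
    rw [← Subgroup.comap_map_eq_self h3, Subgroup.map_sup, hinf, MonoidHom.map_closure,
      Set.image_pair, hα₁, hα₂, hA]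
    exact Subgroup.comap_mono hg1
  have hgenB : B ≤ closure {β₁, β₂} ⊔ (A ⊓ B) := by
    have h3 : f.ker ≤ closure {β₁, β₂} ⊔ (A ⊓ B) := (le_inf hkA hkB).trans le_sup_right
    rw [← Subgroup.comap_map_eq_self h3, Subgroup.map_sup, hinf, MonoidHom.map_closure,
      Set.image_pair, hβ₁, hβ₂, hB]
    exact Subgroup.comap_mono hg2
  have h16 : Nat.card (commutator ↥Sh) ≤ 16 :=
    hsb A B hAn hBn hA2 hB2 hAB α₁ α₂ β₁ β₂
      (by rw [hA, Subgroup.mem_comap, hα₁]; exact ha₁)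
      (by rw [hA, Subgroup.mem_comap, hα₂]; exact ha₂)
      (by rw [hB, Subgroup.mem_comap, hβ₁]; exact hb₁)
      (by rw [hB, Subgroup.mem_comap, hβ₂]; exact hb₂) hgenA hgenB
  -- transfer: the kernel lies in the commutator subgroup of `Sh`
  have hoddS : Odd Sh.index := by
    rw [hSh, Subgroup.index_comap_of_surjective S hsurj]; exact hodd
  have hkC : f.ker ≤ commutator ↥Sh := by
    intro x hx
    have hx' : (x : D) ∈ ρ.ker := (hkerf x).mp hx
    obtain ⟨y, hy, hyx⟩ := htr hperf Sh hoddS (x : D) (hker hx') (hexp _ hx') x.2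
    have : y = x := Subtype.ext hyx
    rw [← this]; exact hy
  -- the restriction onto `S`
  let f' : ↥Sh →* ↥S := f.codRestrict S hfS
  have hf'surj : Function.Surjective f' := by
    intro y
    obtain ⟨x, hx⟩ := hlift y y.2
    exact ⟨x, Subtype.ext hx⟩
  have hkerf' : f'.ker = f.ker := by
    ext x
    rw [MonoidHom.mem_ker, MonoidHom.mem_ker]
    constructor
    · intro h
      have := congrArg Subtype.val h
      exact this
    · intro h
      exact Subtype.ext h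
  have hmapC : (commutator ↥Sh).map f' = commutator ↥S := by
    rw [commutator_def, Subgroup.map_commutator, ← MonoidHom.range_eq_map,
      MonoidHom.range_eq_top.mpr hf'surj, commutator_def]
  have hcount : Nat.card f.ker * Nat.card (commutator ↥S) = Nat.card (commutator ↥Sh) := by
    have h := Subgroup.relIndex_mul_relIndex (H := (⊥ : Subgroup ↥Sh)) (K := f'.ker)
      (L := commutator ↥Sh) bot_le (by rw [hkerf']; exact hkC)
    rw [Subgroup.relIndex_bot_left, Subgroup.relIndex_bot_left, Subgroup.relIndex_ker, hmapC,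
      hkerf'] at h
    exact h
  have hcardker : Nat.card f.ker = Nat.card ρ.ker := by
    have hKS : ρ.ker ≤ Sh := fun z hz => by
      rw [hSh, Subgroup.mem_comap, MonoidHom.mem_ker.mp hz]; exact S.one_mem
    apply Nat.card_congr
    refine ⟨fun x => ⟨(x.1 : D), (hkerf x.1).mp x.2⟩,
      fun z => ⟨⟨z.1, hKS z.2⟩, (hkerf _).mpr z.2⟩, fun x => rfl, fun z => rfl⟩
  rw [hcardker] at hcount
  by_contra hlt
  push Not at hlt
  have : 5 * 4 ≤ Nat.card ρ.ker * Nat.card (commutator ↥S) := Nat.mul_le_mul hlt hcomm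
  omega

end Cfsg.Agent.H91.L34
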