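import Mathlib
import Cfsg.Agent.H56.OrdDefs
import Cfsg.Agent.S0294

/-!
# helper91: S2363 piece MINUS (for helper56) -- the order bounds for `PΩ⁻_{2m}(q)`, `m ≥ 4`

From S0294, `gcd(4, q^m+1) #PΩ⁻_{2m}(q) = q^(m(m-1)) (q^m + 1) ∏_{i<m-1} (q^(2(i+1)) - 1)`; the
cofactor is `≤ q^(m+1) q^(m(m-1)) = q^(m²+1)`, far below what the two bounds need.
-/

set_option autoImplicit false

namespace Cfsg.Agent.H91.Ord

open Cfsg Cfsg.Agent.H56.Ord

/-- `∏_{i<k} (q^(2(i+1)) - 1) ≤ q^(k(k+1))`. -/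
theorem prod_sq_le (q k : ℕ) :
    ∏ i ∈ Finset.range k, (q ^ (2 * (i + 1)) - 1) ≤ q ^ (k * (k + 1)) := by
  induction k with
  | zero => simp
  | succ k ih =>
    rw [Finset.prod_range_succ]
    have e : q ^ ((k + 1) * (k + 1 + 1)) = q ^ (k * (k + 1)) * q ^ (2 * (k + 1)) := by
      rw [← pow_add]; congr 1; ring
    rw [e]
    exact Nat.mul_le_mul ih (Nat.sub_le _ _)

/-- Piece MINUS of S2363. -/
theorem pminus : PMinusStmt := by
  intro p hp F _ _ _ m a b hm hab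
  obtain ⟨f, hf, hcard⟩ := card_eq_pow p F
  obtain ⟨q, hqdef⟩ : ∃ q, q = p ^ f := ⟨_, rfl⟩
  have hF : Fintype.card F = q := by rw [hcard, hqdef]
  have h := Cfsg.Agent.S0294.result hF m hm a b hab
  have hq1 : 2 ≤ q := by
    rw [hqdef]
    exact le_trans hp.two_le (Nat.le_self_pow hf p)
  obtain ⟨k, rfl⟩ : ∃ k, m = k + 1 := ⟨m - 1, by omega⟩
  have hk : 3 ≤ k := by omega
  rw [Nat.add_sub_cancel] at h
  rw [mul_assoc] at h
  have hP := prod_sq_le q k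
  have h1 : q ^ (k + 1) + 1 ≤ q ^ (k + 2) := by
    have h2 : 1 ≤ q ^ (k + 1) := Nat.one_le_pow _ _ (by omega)
    have h3 : q ^ (k + 2) = q ^ (k + 1) * q := by rw [← pow_succ]
    rw [h3]
    nlinarith
  have hM : (q ^ (k + 1) + 1) * ∏ i ∈ Finset.range k, (q ^ (2 * (i + 1)) - 1) ≤
      q ^ (k + 2 + k * (k + 1)) := by
    rw [pow_add q (k + 2) (k * (k + 1))]
    exact Nat.mul_le_mul h1 hP
  have hkk : 3 * k ≤ k * k := Nat.mul_le_mul_right k hk
  refine good_of_eq_q hp hqdef hf h ?_ ?_ ?_ ?_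
  · exact Nat.Coprime.coprime_dvd_right (Nat.gcd_dvd_right _ _) (coprime_pow_add_one q (by omega))
  · refine Nat.Coprime.mul_right (coprime_pow_add_one q (by omega)) ?_
    refine Nat.Coprime.prod_right fun i _ => ?_
    exact coprime_pow_sub_one (by omega) (by omega)
  · refine lt_of_le_of_lt hM (Nat.pow_lt_pow_right (by omega) ?_)
    nlinarith
  · calc ((q ^ (k + 1) + 1) * ∏ i ∈ Finset.range k, (q ^ (2 * (i + 1)) - 1)) ^ 3
        ≤ (q ^ (k + 2 + k * (k + 1))) ^ 3 := Nat.pow_le_pow_left hM 3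
      _ = q ^ (3 * (k + 2 + k * (k + 1))) := by rw [← pow_mul, mul_comm]
      _ < q ^ (5 * ((k + 1) * k)) := Nat.pow_lt_pow_right (by omega) (by nlinarith)

example : PMinusStmt := pminus

end Cfsg.Agent.H91.Ord
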