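import Mathlib
import Cfsg.Agent.H56.OrdDefs
import Cfsg.Agent.S0280

/-!
# helper91: S2363 piece PSU (for helper56) -- the order bounds for `PSU_n(q)`, `n ≥ 3`

From S0280, `gcd(n, q+1) (q+1) #PSU_n(q) = q^(n(n-1)/2) ∏_{i<n} (q^(i+1) - (-1)^(i+1))`.  Cancel
`q + 1`; the remaining product `(q² - 1)(q³ + 1)(q⁴ - 1) ⋯` is `< q^(2 + 3 + ⋯ + n)` (pair the
factors), which is what the two bounds need (tight for `n = 3`).
-/

set_option autoImplicit false

namespace Cfsg.Agent.H91.Ord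

open Cfsg Cfsg.Agent.H56.Ord

/-- The factor of index `i` in the order formula of `PSU_n(q)`. -/
def tU (q i : ℕ) : ℕ := if Even i then q ^ (i + 1) + 1 else q ^ (i + 1) - 1

/-- `MU q k = ∏_{i < k} tU q (i + 1) = (q² - 1)(q³ + 1)(q⁴ - 1) ⋯` (`k` factors). -/
def MU (q k : ℕ) : ℕ := ∏ i ∈ Finset.range k, tU q (i + 1)

/-- `EU k = Σ_{i < k} (i + 2)`. -/
def EU (k : ℕ) : ℕ := ∑ i ∈ Finset.range k, (i + 2)

theorem MU_succ (q k : ℕ) : MU q (k + 1) = MU q k * tU q (k + 1) := by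
  unfold MU; rw [Finset.prod_range_succ]

theorem EU_succ (k : ℕ) : EU (k + 1) = EU k + (k + 2) := by
  unfold EU; rw [Finset.sum_range_succ]

theorem two_EU (k : ℕ) : 2 * EU k = k * (k + 3) := by
  induction k with
  | zero => simp [EU]
  | succ k ih => rw [EU_succ, mul_add, ih]; ring

theorem pair_le (q j : ℕ) (hq : 1 ≤ q) :
    (q ^ (2 * j + 2) - 1) * (q ^ (2 * j + 3) + 1) + 1 ≤ q ^ (4 * j + 5) := by
  have ha : 1 ≤ q ^ (2 * j + 2) := Nat.one_le_pow _ _ hq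
  have hab : q ^ (2 * j + 2) ≤ q ^ (2 * j + 3) := Nat.pow_le_pow_right hq (by omega)
  have e : q ^ (4 * j + 5) = q ^ (2 * j + 2) * q ^ (2 * j + 3) := by
    rw [← pow_add]; congr 1; ring
  rw [e]
  obtain ⟨a, ha'⟩ : ∃ a, q ^ (2 * j + 2) = a + 1 := ⟨q ^ (2 * j + 2) - 1, by omega⟩
  rw [ha'] at hab ⊢
  rw [Nat.add_sub_cancel]
  nlinarith

theorem MU_even (q : ℕ) (hq : 1 ≤ q) (j : ℕ) :
    MU q (2 * j) ≤ q ^ EU (2 * j) ∧ (1 ≤ j → MU q (2 * j) + 1 ≤ q ^ EU (2 * j)) := by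
  induction j with
  | zero => simp [MU, EU]
  | succ j ih =>
    have h1 : 2 * (j + 1) = 2 * j + 1 + 1 := by ring
    have hM : MU q (2 * (j + 1)) =
        MU q (2 * j) * ((q ^ (2 * j + 2) - 1) * (q ^ (2 * j + 3) + 1)) := by
      rw [h1, MU_succ, MU_succ, mul_assoc]
      congr 1
      unfold tU
      rw [if_neg (by rw [Nat.not_even_iff_odd]; exact ⟨j, rfl⟩), if_pos ⟨j + 1, by ring⟩]
    have hE : EU (2 * (j + 1)) = EU (2 * j) + (4 * j + 5) := by
      rw [h1, EU_succ, EU_succ]; ring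
    have hpair := pair_le q j hq
    have h2 : MU q (2 * (j + 1)) + 1 ≤ q ^ EU (2 * (j + 1)) := by
      rw [hM, hE, pow_add q (EU (2 * j)) (4 * j + 5)]
      calc MU q (2 * j) * ((q ^ (2 * j + 2) - 1) * (q ^ (2 * j + 3) + 1)) + 1
          ≤ q ^ EU (2 * j) * ((q ^ (2 * j + 2) - 1) * (q ^ (2 * j + 3) + 1)) + 1 :=
            Nat.add_le_add_right (Nat.mul_le_mul_right _ ih.1) 1
        _ ≤ q ^ EU (2 * j) * ((q ^ (2 * j + 2) - 1) * (q ^ (2 * j + 3) + 1) + 1) := by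
            rw [mul_add, mul_one]
            exact Nat.add_le_add_left (Nat.one_le_pow _ _ hq) _
        _ ≤ q ^ EU (2 * j) * q ^ (4 * j + 5) := Nat.mul_le_mul_left _ hpair
    exact ⟨by omega, fun _ => h2⟩

/-- `MU q k < q ^ EU k` for `k ≥ 1`. -/
theorem MU_lt (q : ℕ) (hq : 1 ≤ q) (k : ℕ) (hk : 1 ≤ k) : MU q k < q ^ EU k := by
  rcases Nat.even_or_odd' k with ⟨j, rfl | rfl⟩
  · exact (MU_even q hq j).2 (by omega)
  · rw [MU_succ, EU_succ, pow_add q (EU (2 * j)) (2 * j + 2)]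
    have h1 : tU q (2 * j + 1) = q ^ (2 * j + 2) - 1 := by
      unfold tU
      rw [if_neg (by rw [Nat.not_even_iff_odd]; exact ⟨j, rfl⟩)]
    rw [h1]
    have h2 : 1 ≤ q ^ (2 * j + 2) := Nat.one_le_pow _ _ hq
    have h3 : 1 ≤ q ^ EU (2 * j) := Nat.one_le_pow _ _ hq
    calc MU q (2 * j) * (q ^ (2 * j + 2) - 1) ≤ q ^ EU (2 * j) * (q ^ (2 * j + 2) - 1) :=
          Nat.mul_le_mul_right _ (MU_even q hq j).1
      _ < q ^ EU (2 * j) * q ^ (2 * j + 2) := Nat.mul_lt_mul_of_pos_left (by omega) (by omega)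

/-- Piece PSU of S2363. -/
theorem psu : PSUStmt := by
  intro p hp F _ _ _ n q hF hn
  have h := Cfsg.Agent.S0280.result hF n (by omega)
  -- `q` is a power of `p`
  obtain ⟨f, hf, hcard⟩ := card_eq_pow p F
  have hq2 : q ^ 2 = p ^ f := by rw [← hF, hcard]
  have hqdvd : q ∣ p ^ f := ⟨q, by rw [← hq2]; ring⟩
  obtain ⟨g, -, hqg⟩ := (Nat.dvd_prime_pow hp).1 hqdvd
  have hg0 : g ≠ 0 := by
    rintro rfl
    rw [pow_zero] at hqg
    rw [hqg, one_pow] at hq2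
    exact (Nat.one_lt_pow hf hp.one_lt).ne hq2
  have hq1 : 2 ≤ q := by
    rw [hqg]
    exact le_trans hp.two_le (Nat.le_self_pow hg0 p)
  obtain ⟨k, rfl⟩ : ∃ k, n = k + 1 := ⟨n - 1, by omega⟩
  have hk : 2 ≤ k := by omega
  -- cancel `q + 1`
  have hprod : ∏ i ∈ Finset.range (k + 1), (if Even i then q ^ (i + 1) + 1 else q ^ (i + 1) - 1) =
      (q + 1) * MU q k := by
    rw [Finset.prod_range_succ', mul_comm]
    congr 1
    simp
  rw [hprod] at h
  obtain ⟨N, hNdef⟩ : ∃ N, (k + 1) * (k + 1 - 1) / 2 = N := ⟨_, rfl⟩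
  rw [hNdef] at h
  have hN : N * 2 = (k + 1) * k := by
    rw [← hNdef, Nat.add_sub_cancel]
    exact Nat.div_mul_cancel (even_iff_two_dvd.mp (Nat.even_mul_succ_self k |> fun h => by
      rwa [mul_comm] at h))
  have h' : Nat.gcd (k + 1) (q + 1) * Nat.card (PSU (k + 1) F q) = q ^ N * MU q k := by
    have h1 : (q + 1) * (Nat.gcd (k + 1) (q + 1) * Nat.card (PSU (k + 1) F q)) =
        (q + 1) * (q ^ N * MU q k) := by
      calc (q + 1) * (Nat.gcd (k + 1) (q + 1) * Nat.card (PSU (k + 1) F q))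
          = Nat.gcd (k + 1) (q + 1) * ((q + 1) * Nat.card (PSU (k + 1) F q)) := by ring
        _ = q ^ N * ((q + 1) * MU q k) := h
        _ = (q + 1) * (q ^ N * MU q k) := by ring
    exact Nat.eq_of_mul_eq_mul_left (by omega) h1
  have hE := two_EU k
  have hlt := MU_lt q (by omega) k (by omega)
  have hkk : k * (k + 3) ≤ k * (2 * (k + 1)) := Nat.mul_le_mul_left k (by omega)
  have hkk' : k * (3 * (k + 3)) ≤ k * (5 * (k + 1)) := Nat.mul_le_mul_left k (by omega)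
  refine good_of_eq_q hp hqg hg0 h' ?_ ?_ ?_ ?_
  · exact Nat.Coprime.coprime_dvd_right (Nat.gcd_dvd_right _ _) (by simp)
  · unfold MU
    refine Nat.Coprime.prod_right fun i _ => ?_
    unfold tU
    split_ifs
    · exact coprime_pow_add_one q (by omega)
    · exact coprime_pow_sub_one (by omega) (by omega)
  · refine lt_of_lt_of_le hlt (Nat.pow_le_pow_right (by omega) ?_)
    nlinarith
  · calc MU q k ^ 3 < (q ^ EU k) ^ 3 := Nat.pow_lt_pow_left hlt (by norm_num)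
      _ = q ^ (3 * EU k) := by rw [← pow_mul, mul_comm]
      _ ≤ q ^ (5 * N) := Nat.pow_le_pow_right (by omega) (by nlinarith)

example : PSUStmt := psu

end Cfsg.Agent.H91.Ord
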