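import Cfsg.Agent.S5357

/-!
# Geometry of vectors of a fixed norm in a quadratic space over `𝔽₃`

Helper facts for the reflection groups of one norm class (statement S5360).
-/

set_option autoImplicit false
open scoped MatrixGroups
open Cfsg
open scoped Matrix

namespace Cfsg.Agent.H91

open Cfsg.Agent.S5357 Cfsg.Agent.S5358

theorem zmod3_pm : ∀ a : ZMod 3, a ≠ 0 → a = 1 ∨ a = -1 := by decide

theorem zmod3_neg_two : ∀ c : ZMod 3, c ≠ 0 → -((2 : ℕ) • c : ZMod 3) ≠ ((2 : ℕ) • c : ZMod 3) := by decide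

theorem zmod3_iso1 : ∀ c p : ZMod 3, c ≠ 0 → p ≠ 0 →
    c + (c * p) * (c * p) * c + (c * p) * p = 0 := by decide

theorem zmod3_iso2 : ∀ c p : ZMod 3, c ≠ 0 → p + (c * p) * (2 • c) = 0 := by decide

theorem zmod3_half : ∀ a b : ZMod 3, a + b = 0 → a - b = 0 → a = 0 := by decide

theorem reflF3_neg (n : ℕ) (Q : QuadraticForm (ZMod 3) (Fin n → ZMod 3)) (v : Fin n → ZMod 3) :
    Cfsg.reflectionMatrix (⇑Q) (-v) = Cfsg.reflectionMatrix (⇑Q) v := by
  apply Matrix.mulVec_injective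
  ext1 x
  rw [refl_mulVec, refl_mulVec, QuadraticMap.map_neg, QuadraticMap.polar_neg_left]
  ext i
  simp only [Pi.sub_apply, Pi.smul_apply, smul_eq_mul, Pi.neg_apply]
  ring

theorem reflF3_ne_of_polar_zero (n : ℕ) (Q : QuadraticForm (ZMod 3) (Fin n → ZMod 3))
    (u v : Fin n → ZMod 3) (hu : Q u ≠ 0) (huv : QuadraticMap.polar (⇑Q) u v = 0) :
    Cfsg.reflectionMatrix (⇑Q) u ≠ Cfsg.reflectionMatrix (⇑Q) v := by
  intro h
  have h1 := refl_mulVec n Q u u
  have h2 := refl_mulVec n Q v u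
  rw [QuadraticMap.polar_comm, huv, mul_zero, zero_smul, sub_zero, ← h, h1,
    QuadraticMap.polar_self] at h2
  have hu0 : u ≠ 0 := by
    intro h0; apply hu; rw [h0]; exact QuadraticMap.map_zero Q
  have h3 : ((Q u)⁻¹ * 2 • Q u) • u = 0 := by
    have : u - ((Q u)⁻¹ * 2 • Q u) • u = u - 0 := by rw [sub_zero]; exact h2
    exact sub_right_injective this
  rcases smul_eq_zero.mp h3 with h4 | h4
  · exact mul_ne_zero (inv_ne_zero hu) (zmod3_two_ne _ hu) h4
  · exact hu0 h4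

/-- for orthogonal `u`, `v` of norm `c` there is `e` of norm `c` orthogonal to `u`, not orthogonal
to `v` and not `± v` -/
theorem exists_norm_comm_not (n : ℕ) (hn : 5 ≤ n) (Q : QuadraticForm (ZMod 3) (Fin n → ZMod 3))
    (hQ : (QuadraticMap.polarBilin Q).Nondegenerate) (c : ZMod 3) (hc : c ≠ 0)
    (u v : Fin n → ZMod 3) (hu : Q u = c) (hv : Q v = c)
    (huv : QuadraticMap.polar (⇑Q) u v = 0) :
    ∃ e : Fin n → ZMod 3, Q e = c ∧ QuadraticMap.polar (⇑Q) u e = 0 ∧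
      QuadraticMap.polar (⇑Q) v e ≠ 0 ∧ e ≠ v ∧ e ≠ -v := by
  have hvu : QuadraticMap.polar (⇑Q) v u = 0 := by rw [QuadraticMap.polar_comm]; exact huv
  have hu0 : Q u ≠ 0 := by rw [hu]; exact hc
  have hv0 : Q v ≠ 0 := by rw [hv]; exact hc
  have horth : ∀ i j : Fin 2, i ≠ j →
      QuadraticMap.polar (⇑Q) ((![u, v] : Fin 2 → (Fin n → ZMod 3)) i)
        ((![u, v] : Fin 2 → (Fin n → ZMod 3)) j) = 0 := by
    intro i j hij
    fin_cases i <;> fin_cases j
    · exact absurd rfl hij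
    · exact huv
    · exact hvu
    · exact absurd rfl hij
  have hani : ∀ i : Fin 2, Q ((![u, v] : Fin 2 → (Fin n → ZMod 3)) i) ≠ 0 := by
    intro i
    fin_cases i
    · exact hu0
    · exact hv0
  obtain ⟨t₁, ht₁, hQt₁⟩ := exists_perp_norm n 2 Q hQ (by omega) ![u, v] horth hani c hc
  have hut₁ : QuadraticMap.polar (⇑Q) u t₁ = 0 := ht₁ 0
  have hvt₁ : QuadraticMap.polar (⇑Q) v t₁ = 0 := ht₁ 1
  have ht₁0 : Q t₁ ≠ 0 := by rw [hQt₁]; exact hc
  have horth3 : ∀ i j : Fin 3, i ≠ j →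
      QuadraticMap.polar (⇑Q) ((![u, v, t₁] : Fin 3 → (Fin n → ZMod 3)) i)
        ((![u, v, t₁] : Fin 3 → (Fin n → ZMod 3)) j) = 0 := by
    intro i j hij
    fin_cases i <;> fin_cases j
    · exact absurd rfl hij
    · exact huv
    · exact hut₁
    · exact hvu
    · exact absurd rfl hij
    · exact hvt₁
    · show QuadraticMap.polar (⇑Q) t₁ u = 0
      rw [QuadraticMap.polar_comm]; exact hut₁
    · show QuadraticMap.polar (⇑Q) t₁ v = 0
      rw [QuadraticMap.polar_comm]; exact hvt₁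
    · exact absurd rfl hij
  have hani3 : ∀ i : Fin 3, Q ((![u, v, t₁] : Fin 3 → (Fin n → ZMod 3)) i) ≠ 0 := by
    intro i
    fin_cases i
    · exact hu0
    · exact hv0
    · exact ht₁0
  obtain ⟨t₂, ht₂, hQt₂⟩ := exists_perp_norm n 3 Q hQ (by omega) ![u, v, t₁] horth3 hani3 (-c)
    (neg_ne_zero.mpr hc)
  have hut₂ : QuadraticMap.polar (⇑Q) u t₂ = 0 := ht₂ 0
  have hvt₂ : QuadraticMap.polar (⇑Q) v t₂ = 0 := ht₂ 1
  have htt : QuadraticMap.polar (⇑Q) t₁ t₂ = 0 := ht₂ 2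
  have hve : QuadraticMap.polar (⇑Q) v (v + t₁ + t₂) = 2 • Q v := by
    rw [QuadraticMap.polar_add_right, QuadraticMap.polar_add_right, hvt₁, hvt₂,
      QuadraticMap.polar_self, add_zero, add_zero]
  refine ⟨v + t₁ + t₂, ?_, ?_, ?_, ?_, ?_⟩
  · rw [QuadraticMap.map_add Q, QuadraticMap.map_add Q, hv, hQt₁, hQt₂, hvt₁,
      QuadraticMap.polar_add_left, hvt₂, htt]
    ring
  · rw [QuadraticMap.polar_add_right, QuadraticMap.polar_add_right, huv, hut₁, hut₂, add_zero,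
      add_zero]
  · rw [hve]
    exact zmod3_two_ne _ hv0
  · intro h
    have h1 : t₁ + t₂ = 0 := by
      have : v + (t₁ + t₂) = v + 0 := by rw [add_zero, ← add_assoc]; exact h
      exact add_left_cancel this
    have h2 : QuadraticMap.polar (⇑Q) t₁ (t₁ + t₂) = 2 • Q t₁ := by
      rw [QuadraticMap.polar_add_right, htt, add_zero, QuadraticMap.polar_self]
    rw [h1, QuadraticMap.polar_zero_right] at h2
    exact zmod3_two_ne _ ht₁0 h2.symm
  · intro h
    rw [h, QuadraticMap.polar_neg_right, QuadraticMap.polar_self] at hve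
    exact zmod3_neg_two _ hv0 hve

/-- the isotropic part of `w` relative to `d` -/
theorem exists_iso_part (n : ℕ) (Q : QuadraticForm (ZMod 3) (Fin n → ZMod 3)) (c : ZMod 3)
    (hc : c ≠ 0) (d w : Fin n → ZMod 3) (hd : Q d = c) (hw : Q w = c)
    (hdw : QuadraticMap.polar (⇑Q) d w ≠ 0) (h1 : w ≠ d) (h2 : w ≠ -d) :
    ∃ z : Fin n → ZMod 3, z ≠ 0 ∧ Q z = 0 ∧ QuadraticMap.polar (⇑Q) d z = 0 ∧
      ∀ e : Fin n → ZMod 3, QuadraticMap.polar (⇑Q) d e = 0 →
        QuadraticMap.polar (⇑Q) w e = QuadraticMap.polar (⇑Q) z e := by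
  obtain ⟨p, hp⟩ : ∃ p : ZMod 3, p = QuadraticMap.polar (⇑Q) d w := ⟨_, rfl⟩
  have hp0 : p ≠ 0 := by rw [hp]; exact hdw
  refine ⟨w + (c * p) • d, ?_, ?_, ?_, ?_⟩
  · intro h0
    have hw' : w = (-(c * p)) • d := by
      rw [neg_smul]; exact eq_neg_of_add_eq_zero_left h0
    rcases zmod3_pm (c * p) (mul_ne_zero hc hp0) with h | h
    · rw [h] at hw'; apply h2; rw [hw']; simp
    · rw [h] at hw'; apply h1; rw [hw']; simp
  · rw [QuadraticMap.map_add Q, QuadraticMap.map_smul, QuadraticMap.polar_smul_right, hw, hd,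
      QuadraticMap.polar_comm, ← hp, smul_eq_mul, smul_eq_mul]
    exact zmod3_iso1 c p hc hp0
  · rw [QuadraticMap.polar_add_right, QuadraticMap.polar_smul_right, QuadraticMap.polar_self, hd,
      ← hp, smul_eq_mul]
    exact zmod3_iso2 c p hc
  · intro e he
    rw [QuadraticMap.polar_add_left, QuadraticMap.polar_smul_left, he, smul_zero, add_zero]

/-- a vector orthogonal to `d` and not orthogonal to `z` -/
theorem exists_partner (n : ℕ) (Q : QuadraticForm (ZMod 3) (Fin n → ZMod 3))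
    (hQ : (QuadraticMap.polarBilin Q).Nondegenerate) (c : ZMod 3) (hc : c ≠ 0)
    (d z : Fin n → ZMod 3) (hd : Q d = c) (hz : z ≠ 0)
    (hdz : QuadraticMap.polar (⇑Q) d z = 0) :
    ∃ f : Fin n → ZMod 3, QuadraticMap.polar (⇑Q) d f = 0 ∧ QuadraticMap.polar (⇑Q) z f ≠ 0 := by
  have h1 : ∃ f : Fin n → ZMod 3, QuadraticMap.polar (⇑Q) z f ≠ 0 := by
    by_contra hcon
    push Not at hcon
    apply hz
    apply hQ.1 z
    intro y
    rw [QuadraticMap.polarBilin_apply_apply]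
    exact hcon y
  obtain ⟨f, hf⟩ := h1
  refine ⟨f + (c * QuadraticMap.polar (⇑Q) d f) • d, ?_, ?_⟩
  · rw [QuadraticMap.polar_add_right, QuadraticMap.polar_smul_right, QuadraticMap.polar_self, hd,
      smul_eq_mul]
    exact zmod3_iso2 c _ hc
  · rw [QuadraticMap.polar_add_right, QuadraticMap.polar_smul_right,
      QuadraticMap.polar_comm (⇑Q) z d, hdz, smul_zero, add_zero]
    exact hf

/-- for non-orthogonal `d`, `w` of norm `c` on different lines there is `e` of norm `c` orthogonal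
to `d` and not orthogonal to `w` -/
theorem exists_norm_perp_not_perp (n : ℕ) (Q : QuadraticForm (ZMod 3) (Fin n → ZMod 3))
    (hQ : (QuadraticMap.polarBilin Q).Nondegenerate) (c : ZMod 3) (hc : c ≠ 0)
    (d w : Fin n → ZMod 3) (hd : Q d = c) (hw : Q w = c)
    (hdw : QuadraticMap.polar (⇑Q) d w ≠ 0) (h1 : w ≠ d) (h2 : w ≠ -d) :
    ∃ e : Fin n → ZMod 3, Q e = c ∧ QuadraticMap.polar (⇑Q) d e = 0 ∧
      QuadraticMap.polar (⇑Q) w e ≠ 0 := by
  obtain ⟨z, hz0, hQz, hdz, hzw⟩ := exists_iso_part n Q c hc d w hd hw hdw h1 h2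
  obtain ⟨f, hdf, hzf⟩ := exists_partner n Q hQ c hc d z hd hz0 hdz
  obtain ⟨q, hq⟩ : ∃ q : ZMod 3, q = QuadraticMap.polar (⇑Q) z f := ⟨_, rfl⟩
  have hq0 : q ≠ 0 := by rw [hq]; exact hzf
  have hde : QuadraticMap.polar (⇑Q) d (f + (q * (c - Q f)) • z) = 0 := by
    rw [QuadraticMap.polar_add_right, QuadraticMap.polar_smul_right, hdf, hdz, smul_zero,
      add_zero]
  refine ⟨f + (q * (c - Q f)) • z, ?_, hde, ?_⟩
  · rw [QuadraticMap.map_add Q, QuadraticMap.map_smul, hQz, QuadraticMap.polar_smul_right,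
      QuadraticMap.polar_comm (⇑Q) f z, ← hq, smul_eq_mul, smul_eq_mul, mul_zero, add_zero]
    have := zmod3_sq q hq0
    linear_combination (c - Q f) * this
  · rw [hzw _ hde, QuadraticMap.polar_add_right, QuadraticMap.polar_smul_right,
      QuadraticMap.polar_self, hQz, ← hq]
    simpa using hq0

/-- any two vectors of norm `c` have a common orthogonal vector of norm `c` -/
theorem exists_norm_perp_both (n : ℕ) (hn : 5 ≤ n) (Q : QuadraticForm (ZMod 3) (Fin n → ZMod 3))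
    (hQ : (QuadraticMap.polarBilin Q).Nondegenerate) (c : ZMod 3) (hc : c ≠ 0)
    (u v : Fin n → ZMod 3) (hu : Q u = c) (hv : Q v = c) :
    ∃ e : Fin n → ZMod 3, Q e = c ∧ QuadraticMap.polar (⇑Q) u e = 0 ∧
      QuadraticMap.polar (⇑Q) v e = 0 := by
  have hu0 : Q u ≠ 0 := by rw [hu]; exact hc
  have hv0 : Q v ≠ 0 := by rw [hv]; exact hc
  have hone : ∃ e : Fin n → ZMod 3, Q e = c ∧ QuadraticMap.polar (⇑Q) u e = 0 := by
    obtain ⟨e, he, hQe⟩ := exists_perp_norm n 1 Q hQ (by omega) ![u]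
      (fun i j hij => absurd (Subsingleton.elim i j) hij)
      (fun i => by fin_cases i; exact hu0) c hc
    exact ⟨e, hQe, he 0⟩
  by_cases huv : QuadraticMap.polar (⇑Q) u v = 0
  · have hvu : QuadraticMap.polar (⇑Q) v u = 0 := by rw [QuadraticMap.polar_comm]; exact huv
    have horth : ∀ i j : Fin 2, i ≠ j →
        QuadraticMap.polar (⇑Q) ((![u, v] : Fin 2 → (Fin n → ZMod 3)) i)
          ((![u, v] : Fin 2 → (Fin n → ZMod 3)) j) = 0 := by
      intro i j hij
      fin_cases i <;> fin_cases j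
      · exact absurd rfl hij
      · exact huv
      · exact hvu
      · exact absurd rfl hij
    have hani : ∀ i : Fin 2, Q ((![u, v] : Fin 2 → (Fin n → ZMod 3)) i) ≠ 0 := by
      intro i
      fin_cases i
      · exact hu0
      · exact hv0
    obtain ⟨e, he, hQe⟩ := exists_perp_norm n 2 Q hQ (by omega) ![u, v] horth hani c hc
    exact ⟨e, hQe, he 0, he 1⟩
  by_cases h1 : v = u
  · obtain ⟨e, hQe, he⟩ := hone
    exact ⟨e, hQe, he, by rw [h1]; exact he⟩
  by_cases h2 : v = -u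
  · obtain ⟨e, hQe, he⟩ := hone
    exact ⟨e, hQe, he, by rw [h2, QuadraticMap.polar_neg_left, he, neg_zero]⟩
  obtain ⟨z, hz0, hQz, hdz, hzw⟩ := exists_iso_part n Q c hc u v hu hv huv h1 h2
  obtain ⟨f, hdf, hzf⟩ := exists_partner n Q hQ c hc u z hu hz0 hdz
  obtain ⟨q, hq⟩ : ∃ q : ZMod 3, q = QuadraticMap.polar (⇑Q) z f := ⟨_, rfl⟩
  have hq0 : q ≠ 0 := by rw [hq]; exact hzf
  have hqq := zmod3_sq q hq0
  -- an isotropic `f₀` orthogonal to `u` with `polar z f₀ = 1`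
  obtain ⟨f₀, hf₀⟩ : ∃ f₀ : Fin n → ZMod 3, f₀ = q • f + (-(Q f)) • z := ⟨_, rfl⟩
  have hQf₀ : Q f₀ = 0 := by
    rw [hf₀, QuadraticMap.map_add Q, QuadraticMap.map_smul, QuadraticMap.map_smul, hQz,
      QuadraticMap.polar_smul_right, QuadraticMap.polar_smul_left,
      QuadraticMap.polar_comm (⇑Q) f z, ← hq]
    simp only [smul_eq_mul]
    linear_combination (Q f) * hqq - (Q f) * hqq
  have hzf₀ : QuadraticMap.polar (⇑Q) z f₀ = 1 := by
    rw [hf₀, QuadraticMap.polar_add_right, QuadraticMap.polar_smul_right,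
      QuadraticMap.polar_smul_right, QuadraticMap.polar_self, hQz, ← hq]
    simp only [smul_eq_mul, smul_zero, mul_zero, add_zero]
    exact hqq
  have huf₀ : QuadraticMap.polar (⇑Q) u f₀ = 0 := by
    rw [hf₀, QuadraticMap.polar_add_right, QuadraticMap.polar_smul_right,
      QuadraticMap.polar_smul_right, hdf, hdz, smul_zero, smul_zero, add_zero]
  have hf₀z : QuadraticMap.polar (⇑Q) f₀ z = 1 := by rw [QuadraticMap.polar_comm]; exact hzf₀
  have hQx₁ : Q (z + f₀) = 1 := by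
    rw [QuadraticMap.map_add Q, hQz, hQf₀, hzf₀]; ring
  have hQx₂ : Q (z + -f₀) = -1 := by
    rw [QuadraticMap.map_add Q, QuadraticMap.map_neg, hQz, hQf₀, QuadraticMap.polar_neg_right,
      hzf₀]; ring
  have hx₁x₂ : QuadraticMap.polar (⇑Q) (z + f₀) (z + -f₀) = 0 := by
    rw [QuadraticMap.polar_add_left, QuadraticMap.polar_add_right, QuadraticMap.polar_add_right,
      QuadraticMap.polar_neg_right, QuadraticMap.polar_neg_right, QuadraticMap.polar_self,
      QuadraticMap.polar_self, hQz, hQf₀, hzf₀, hf₀z]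
    simp
  have hux₁ : QuadraticMap.polar (⇑Q) u (z + f₀) = 0 := by
    rw [QuadraticMap.polar_add_right, hdz, huf₀, add_zero]
  have hux₂ : QuadraticMap.polar (⇑Q) u (z + -f₀) = 0 := by
    rw [QuadraticMap.polar_add_right, QuadraticMap.polar_neg_right, hdz, huf₀, neg_zero, add_zero]
  have horth3 : ∀ i j : Fin 3, i ≠ j →
      QuadraticMap.polar (⇑Q) ((![u, z + f₀, z + -f₀] : Fin 3 → (Fin n → ZMod 3)) i)
        ((![u, z + f₀, z + -f₀] : Fin 3 → (Fin n → ZMod 3)) j) = 0 := by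
    intro i j hij
    fin_cases i <;> fin_cases j
    · exact absurd rfl hij
    · exact hux₁
    · exact hux₂
    · show QuadraticMap.polar (⇑Q) (z + f₀) u = 0
      rw [QuadraticMap.polar_comm]; exact hux₁
    · exact absurd rfl hij
    · exact hx₁x₂
    · show QuadraticMap.polar (⇑Q) (z + -f₀) u = 0
      rw [QuadraticMap.polar_comm]; exact hux₂
    · show QuadraticMap.polar (⇑Q) (z + -f₀) (z + f₀) = 0
      rw [QuadraticMap.polar_comm]; exact hx₁x₂
    · exact absurd rfl hij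
  have hani3 : ∀ i : Fin 3, Q ((![u, z + f₀, z + -f₀] : Fin 3 → (Fin n → ZMod 3)) i) ≠ 0 := by
    intro i
    fin_cases i
    · exact hu0
    · show Q (z + f₀) ≠ 0
      rw [hQx₁]; decide
    · show Q (z + -f₀) ≠ 0
      rw [hQx₂]; decide
  obtain ⟨e, he, hQe⟩ := exists_perp_norm n 3 Q hQ (by omega) ![u, z + f₀, z + -f₀] horth3 hani3
    c hc
  have hue : QuadraticMap.polar (⇑Q) u e = 0 := he 0
  have h1e : QuadraticMap.polar (⇑Q) (z + f₀) e = 0 := he 1
  have h2e : QuadraticMap.polar (⇑Q) (z + -f₀) e = 0 := he 2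
  rw [QuadraticMap.polar_add_left] at h1e
  rw [QuadraticMap.polar_add_left, QuadraticMap.polar_neg_left, ← sub_eq_add_neg] at h2e
  refine ⟨e, hQe, hue, ?_⟩
  rw [hzw e hue]
  exact zmod3_half _ _ h1e h2e

end Cfsg.Agent.H91
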