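import Mathlib
import Cfsg.Agent.H91.S4Rel

set_option autoImplicit false

/-!
Helper library of helper91: the recognition lemma for the symmetric group of degree 4 of
`S4Rel.lean`, with the images of the three generating involutions made explicit.
-/

namespace Cfsg.Agent.H91

open Equiv

variable {G : Type*} [Group G]

/-- Recognition of `S₄`, with the images of the generators: a finite group generated by three involutions `d`, `v`, `e` with
`d`, `v` commuting, `d`, `e` braided and not commuting, such that with `n₁ = d v`,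
`n₃ = e n₁ e` and `n₂ = n₃ n₁` the involutions `n₂`, `n₃` conjugate `d` to `v`, is isomorphic
to the symmetric group of degree 4. -/
theorem s4_of_relations_explicit [Finite G] (d v e : G)
    (hd : d * d = 1) (hv : v * v = 1) (he : e * e = 1) (hdv : Commute d v)
    (hbr : e * d * e = d * e * d) (hde : ¬ Commute d e) (hvd : v ≠ d) (hv1 : v ≠ 1)
    (hR1 : (e * (d * v) * e) * d * (e * (d * v) * e) = v)
    (hR2 : (e * (d * v) * e * (d * v)) * d * (e * (d * v) * e * (d * v)) = v)
    (hR3 : (e * (d * v) * e * (d * v)) * (e * (d * v) * e * (d * v)) = 1)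
    (hgen : Subgroup.closure ({d, e, v} : Set G) = ⊤) :
    ∃ ρ : G ≃* Equiv.Perm (Fin 4), ρ v = swap 0 1 ∧ ρ e = swap 1 2 ∧ ρ d = swap 2 3 := by
  classical
  have hdi : d⁻¹ = d := inv_eq_of_mul_eq_one_right hd
  have hvi : v⁻¹ = v := inv_eq_of_mul_eq_one_right hv
  have hei : e⁻¹ = e := inv_eq_of_mul_eq_one_right he
  obtain ⟨H, hH⟩ : ∃ H : Subgroup G, H = Subgroup.closure ({d, e} : Set G) := ⟨_, rfl⟩
  have hdH : d ∈ H := by rw [hH]; exact Subgroup.subset_closure (by simp)
  have heH : e ∈ H := by rw [hH]; exact Subgroup.subset_closure (by simp)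
  have hS : ∀ h ∈ H, h = 1 ∨ h = d ∨ h = e ∨ h = d * e ∨ h = e * d ∨ h = d * e * d := by
    rw [hH]; exact closure_pair_braid hd he hbr
  have hHcard : Nat.card H ≤ 6 := by rw [hH]; exact card_closure_pair_braid_le hd he hbr
  -- the elements n₁, n₂, n₃
  obtain ⟨n₁, hn₁⟩ : ∃ n : G, n = d * v := ⟨_, rfl⟩
  obtain ⟨n₃, hn₃⟩ : ∃ n : G, n = e * n₁ * e := ⟨_, rfl⟩
  obtain ⟨n₂, hn₂⟩ : ∃ n : G, n = n₃ * n₁ := ⟨_, rfl⟩
  rw [← hn₁, ← hn₃, ← hn₂] at hR2 hR3
  rw [← hn₁, ← hn₃] at hR1
  have hn₁2 : n₁ * n₁ = 1 := by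
    rw [hn₁]
    calc (d * v) * (d * v) = d * (v * d) * v := by group
      _ = d * (d * v) * v := by rw [hdv.eq]
      _ = (d * d) * (v * v) := by group
      _ = 1 := by rw [hd, hv, one_mul]
  have hn₃2 : n₃ * n₃ = 1 := by
    rw [hn₃]
    calc (e * n₁ * e) * (e * n₁ * e) = e * n₁ * (e * e) * n₁ * e := by group
      _ = e * (n₁ * n₁) * e := by rw [he]; group
      _ = 1 := by rw [hn₁2, mul_one, he]
  have hn₁i : n₁⁻¹ = n₁ := inv_eq_of_mul_eq_one_right hn₁2
  have hn₂i : n₂⁻¹ = n₂ := inv_eq_of_mul_eq_one_right hR3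
  have hn₃i : n₃⁻¹ = n₃ := inv_eq_of_mul_eq_one_right hn₃2
  have hn₃' : n₃ = n₂ * n₁ := by
    rw [hn₂, mul_assoc, hn₁2, mul_one]
  -- conjugation facts
  have hR1' : n₃ * v * n₃ = d := by
    calc n₃ * v * n₃ = n₃ * (n₃ * d * n₃) * n₃ := by rw [hR1]
      _ = (n₃ * n₃) * d * (n₃ * n₃) := by group
      _ = d := by rw [hn₃2, one_mul, mul_one]
  have hR2' : n₂ * v * n₂ = d := by
    calc n₂ * v * n₂ = n₂ * (n₂ * d * n₂) * n₂ := by rw [hR2]
      _ = (n₂ * n₂) * d * (n₂ * n₂) := by group
      _ = d := by rw [hR3, one_mul, mul_one]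
  have hvn₁ : v * n₁ = d := by
    rw [hn₁]
    calc v * (d * v) = (v * d) * v := by group
      _ = (d * v) * v := by rw [hdv.eq]
      _ = d * (v * v) := by group
      _ = d := by rw [hv, mul_one]
  have hn₁d : n₁ * d = d * n₁ := by
    rw [hn₁]
    calc (d * v) * d = d * (v * d) := by group
      _ = d * (d * v) := by rw [hdv.eq]
  have hen₂ : e * n₂ * e = n₂ := by
    have h1 : e * n₂ * e = n₂⁻¹ := by
      rw [hn₂, hn₃, mul_inv_rev, mul_inv_rev, mul_inv_rev, hn₁i, hei]
      calc e * (e * n₁ * e * n₁) * e = (e * e) * n₁ * e * n₁ * e := by group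
        _ = n₁ * (e * (n₁ * e)) := by rw [he]; group
    rw [h1, hn₂i]
  -- the four cosets
  obtain ⟨c0, hc0⟩ : ∃ c : G ⧸ H, c = QuotientGroup.mk 1 := ⟨_, rfl⟩
  obtain ⟨c1, hc1⟩ : ∃ c : G ⧸ H, c = QuotientGroup.mk n₁ := ⟨_, rfl⟩
  obtain ⟨c2, hc2⟩ : ∃ c : G ⧸ H, c = QuotientGroup.mk n₃ := ⟨_, rfl⟩
  obtain ⟨c3, hc3⟩ : ∃ c : G ⧸ H, c = QuotientGroup.mk n₂ := ⟨_, rfl⟩
  have hmk : ∀ (g a b : G), (g * a)⁻¹ * b ∈ H →
      g • (QuotientGroup.mk a : G ⧸ H) = QuotientGroup.mk b := by
    intro g a b h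
    rw [MulAction.Quotient.smul_mk, smul_eq_mul]
    exact QuotientGroup.eq.mpr h
  -- action of v
  have tv0 : v • c0 = c1 := by
    rw [hc0, hc1]; apply hmk
    have : (v * 1)⁻¹ * n₁ = d := by
      rw [mul_one, hvi, hvn₁]
    rw [this]; exact hdH
  have tv1 : v • c1 = c0 := by
    rw [hc0, hc1]; apply hmk
    have : (v * n₁)⁻¹ * 1 = d := by
      rw [hvn₁, mul_one, hdi]
    rw [this]; exact hdH
  have tv2 : v • c2 = c2 := by
    rw [hc2]; apply hmk
    have : (v * n₃)⁻¹ * n₃ = d := by
      rw [mul_inv_rev, hn₃i, hvi]; exact hR1'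
    rw [this]; exact hdH
  have tv3 : v • c3 = c3 := by
    rw [hc3]; apply hmk
    have : (v * n₂)⁻¹ * n₂ = d := by
      rw [mul_inv_rev, hn₂i, hvi]; exact hR2'
    rw [this]; exact hdH
  -- action of e
  have te0 : e • c0 = c0 := by
    rw [hc0]; apply hmk
    have : (e * 1)⁻¹ * 1 = e := by
      rw [mul_one, mul_one, hei]
    rw [this]; exact heH
  have te1 : e • c1 = c2 := by
    rw [hc1, hc2]; apply hmk
    have : (e * n₁)⁻¹ * n₃ = e := by
      rw [hn₃]; group
    rw [this]; exact heH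
  have te2 : e • c2 = c1 := by
    rw [hc1, hc2]; apply hmk
    have : (e * n₃)⁻¹ * n₁ = e := by
      rw [hn₃, mul_inv_rev, mul_inv_rev, mul_inv_rev, hei, hn₁i]
      calc e * (n₁ * e) * e * n₁ = e * n₁ * (e * e) * n₁ := by group
        _ = e * (n₁ * n₁) := by rw [he]; group
        _ = e := by rw [hn₁2, mul_one]
    rw [this]; exact heH
  have te3 : e • c3 = c3 := by
    rw [hc3]; apply hmk
    have : (e * n₂)⁻¹ * n₂ = e := by
      rw [mul_inv_rev, hn₂i, hei]
      calc n₂ * e * n₂ = (e * n₂ * e) * e * n₂ := by rw [hen₂]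
        _ = e * n₂ * (e * e) * n₂ := by group
        _ = e * (n₂ * n₂) := by rw [he]; group
        _ = e := by rw [hR3, mul_one]
    rw [this]; exact heH
  -- action of d
  have td0 : d • c0 = c0 := by
    rw [hc0]; apply hmk
    have : (d * 1)⁻¹ * 1 = d := by
      rw [mul_one, mul_one, hdi]
    rw [this]; exact hdH
  have td1 : d • c1 = c1 := by
    rw [hc1]; apply hmk
    have : (d * n₁)⁻¹ * n₁ = d := by
      rw [← hn₁d, mul_inv_rev, hdi, hn₁i]
      calc d * n₁ * n₁ = d * (n₁ * n₁) := by group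
        _ = d := by rw [hn₁2, mul_one]
    rw [this]; exact hdH
  have td2 : d • c2 = c3 := by
    rw [hc2, hc3]; apply hmk
    have : (d * n₃)⁻¹ * n₂ = d := by
      rw [mul_inv_rev, hn₃i, hdi, hn₂]
      calc n₃ * d * (n₃ * n₁) = (n₃ * d * n₃) * n₁ := by group
        _ = d := by rw [hR1, hvn₁]
    rw [this]; exact hdH
  have td3 : d • c3 = c2 := by
    rw [hc2, hc3]; apply hmk
    have : (d * n₂)⁻¹ * n₃ = d := by
      rw [mul_inv_rev, hn₂i, hdi, hn₃']
      calc n₂ * d * (n₂ * n₁) = (n₂ * d * n₂) * n₁ := by group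
        _ = d := by rw [hR2, hvn₁]
    rw [this]; exact hdH
  -- n₁ ∉ H
  have h01 : c0 ≠ c1 := by
    rw [hc0, hc1]
    intro h
    have h1 : (1 : G)⁻¹ * n₁ ∈ H := QuotientGroup.eq.mp h
    rw [inv_one, one_mul, hn₁] at h1
    have hcd : Commute d (d * v) := (Commute.refl d).mul_right hdv
    rcases hS _ h1 with h2 | h2 | h2 | h2 | h2 | h2
    · apply hvd
      have : v = d⁻¹ := (eq_inv_of_mul_eq_one_right h2)
      rw [this, hdi]
    · apply hv1
      have : d * v = d * 1 := by rw [mul_one]; exact h2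
      exact mul_left_cancel this
    · rw [h2] at hcd; exact hde hcd
    · have : v = e := mul_left_cancel h2
      rw [this] at hdv; exact hde hdv
    · rw [h2] at hcd
      apply hde
      have h3 : d * (e * d) = (e * d) * d := hcd.eq
      show d * e = e * d
      calc d * e = d * e * (d * d) := by rw [hd, mul_one]
        _ = (d * (e * d)) * d := by group
        _ = (e * d * d) * d := by rw [h3]
        _ = e * (d * d) * d := by group
        _ = e * d := by rw [hd, mul_one]
    · rw [h2] at hcd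
      apply hde
      have h3 : d * (d * e * d) = (d * e * d) * d := hcd.eq
      show d * e = e * d
      calc d * e = d * e * (d * d) := by rw [hd, mul_one]
        _ = (d * e * d) * d := by group
        _ = d * (d * e * d) := by rw [h3]
        _ = (d * d) * e * d := by group
        _ = e * d := by rw [hd, one_mul]
  have h02 : c0 ≠ c2 := fun h => h01 (by
    have := congrArg (fun x => e • x) h
    simp only [te0, te2] at this
    exact this)
  have h03 : c0 ≠ c3 := fun h => h02 (by
    have := congrArg (fun x => d • x) h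
    simp only [td0, td3] at this
    exact this)
  have h12 : c1 ≠ c2 := fun h => h02 (by
    have := congrArg (fun x => v • x) h
    simp only [tv1, tv2] at this
    exact this)
  have h13 : c1 ≠ c3 := fun h => h12 (by
    have := congrArg (fun x => d • x) h
    simp only [td1, td3] at this
    exact this)
  have h23 : c2 ≠ c3 := fun h => h13 (by
    have := congrArg (fun x => e • x) h
    simp only [te2, te3] at this
    exact this)
  -- the labelling
  obtain ⟨c, hc⟩ : ∃ c : Fin 4 → G ⧸ H, c = ![c0, c1, c2, c3] := ⟨_, rfl⟩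
  have hcinj : Function.Injective c := by
    intro i j hij
    rw [hc] at hij
    fin_cases i <;> fin_cases j <;> first
      | rfl
      | exact absurd hij h01
      | exact absurd hij h02
      | exact absurd hij h03
      | exact absurd hij h12
      | exact absurd hij h13
      | exact absurd hij h23
      | exact absurd hij.symm h01
      | exact absurd hij.symm h02
      | exact absurd hij.symm h03
      | exact absurd hij.symm h12
      | exact absurd hij.symm h13
      | exact absurd hij.symm h23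
  have hPv : ∀ i, v • c i = c (swap 0 1 i) := by
    intro i; rw [hc]
    fin_cases i
    · exact tv0
    · exact tv1
    · exact tv2
    · exact tv3
  have hPe : ∀ i, e • c i = c (swap 1 2 i) := by
    intro i; rw [hc]
    fin_cases i
    · exact te0
    · exact te1
    · exact te2
    · exact te3
  have hPd : ∀ i, d • c i = c (swap 2 3 i) := by
    intro i; rw [hc]
    fin_cases i
    · exact td0
    · exact td1
    · exact td2
    · exact td3
  have hP : ∀ g : G, ∃ σ : Equiv.Perm (Fin 4), ∀ i, g • c i = c (σ i) := by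
    intro g
    have hg : g ∈ Subgroup.closure ({d, e, v} : Set G) := by rw [hgen]; trivial
    induction hg using Subgroup.closure_induction with
    | mem x hx =>
      rcases hx with rfl | rfl | hx
      · exact ⟨_, hPd⟩
      · exact ⟨_, hPe⟩
      · have hx' : x = v := hx
        rw [hx']; exact ⟨_, hPv⟩
    | one => exact ⟨1, fun i => by simp⟩
    | mul x y _ _ hx hy =>
      obtain ⟨σ, hσ⟩ := hx
      obtain ⟨τ, hτ⟩ := hy
      exact ⟨σ * τ, fun i => by rw [mul_smul, hτ, hσ]; rfl⟩
    | inv x _ hx =>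
      obtain ⟨σ, hσ⟩ := hx
      refine ⟨σ⁻¹, fun i => ?_⟩
      rw [inv_smul_eq_iff, hσ]
      simp
  have hcsurj : Function.Surjective c := by
    intro x
    induction x using QuotientGroup.induction_on with
    | H g =>
      obtain ⟨σ, hσ⟩ := hP g
      refine ⟨σ 0, ?_⟩
      rw [← hσ 0, hc]
      show g • c0 = _
      rw [hc0, MulAction.Quotient.smul_mk, smul_eq_mul, mul_one]
  obtain ⟨E, hE⟩ : ∃ E : Fin 4 ≃ G ⧸ H, ∀ i, E i = c i :=
    ⟨Equiv.ofBijective c ⟨hcinj, hcsurj⟩, fun i => rfl⟩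
  -- the homomorphism
  let ρ : G →* Equiv.Perm (Fin 4) :=
    (E.symm.permCongrHom.toMonoidHom).comp (MulAction.toPermHom G (G ⧸ H))
  have hρ : ∀ (g : G) (σ : Equiv.Perm (Fin 4)), (∀ i, g • c i = c (σ i)) → ρ g = σ := by
    intro g σ h
    ext i
    have : ρ g i = E.symm (g • E i) := rfl
    rw [this, hE, h, ← hE, E.symm_apply_apply]
  have hρv : ρ v = swap 0 1 := hρ v _ hPv
  have hρe : ρ e = swap 1 2 := hρ e _ hPe
  have hρd : ρ d = swap 2 3 := hρ d _ hPd
  have hsurj : Function.Surjective ρ := by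
    have h1 : Submonoid.closure (Set.range fun i : Fin 3 => swap i.castSucc i.succ) ≤
        (MonoidHom.mrange ρ) := by
      rw [Submonoid.closure_le]
      rintro _ ⟨i, rfl⟩
      fin_cases i
      · exact ⟨v, hρv⟩
      · exact ⟨e, hρe⟩
      · exact ⟨d, hρd⟩
    rw [Equiv.Perm.mclosure_swap_castSucc_succ] at h1
    intro σ
    exact h1 (Submonoid.mem_top σ)
  have hcardG : Nat.card G ≤ Nat.card (Equiv.Perm (Fin 4)) := by
    have h1 : Nat.card (G ⧸ H) = 4 := by
      rw [← Nat.card_congr E, Nat.card_fin]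
    rw [Subgroup.card_eq_card_quotient_mul_card_subgroup H, h1, Nat.card_perm, Nat.card_fin]
    calc 4 * Nat.card H ≤ 4 * 6 := Nat.mul_le_mul_left 4 hHcard
      _ = Nat.factorial 4 := by decide
  exact ⟨MulEquiv.ofBijective ρ (hsurj.bijective_of_nat_card_le hcardG), hρv, hρe, hρd⟩

end Cfsg.Agent.H91
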