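import Cfsg.Agent.H91.SRGSpectral
import Cfsg.Agent.H91.TTRank3
import Cfsg.Agent.H91.WBlocks

/-!
# Primitive 3-transposition groups with triangle-free commuting graph

If `G` is primitive on the class `D` of 3-transpositions, some two members commute, and no three
different members commute pairwise, then every member commutes with exactly three others.
-/

set_option autoImplicit false
open Cfsg

namespace Cfsg.Agent.H91

universe u

/-! ### Arithmetic -/

theorem not_sq_three_pow_mul : ∀ (j m n : ℕ), m % 3 = 2 → n * n = 3 ^ j * m → False := by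
  intro j
  induction j using Nat.twoStepInduction with
  | zero =>
    intro m n hm h
    rw [pow_zero, one_mul] at h
    have h1 : n * n % 3 = 2 := by rw [h]; exact hm
    have h2 : n % 3 < 3 := Nat.mod_lt _ (by norm_num)
    rw [Nat.mul_mod] at h1
    interval_cases (n % 3) <;> simp at h1
  | one =>
    intro m n hm h
    rw [pow_one] at h
    have h3 : 3 ∣ n := by
      have h4 : 3 ∣ n * n := ⟨m, h⟩
      exact ((Nat.Prime.dvd_mul Nat.prime_three).mp h4).elim id id
    obtain ⟨t, rfl⟩ := h3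
    have h5 : 3 * (3 * (t * t)) = 3 * m := by
      calc 3 * (3 * (t * t)) = 3 * t * (3 * t) := by ring
        _ = 3 * m := h
    have h6 : 3 * (t * t) = m := Nat.eq_of_mul_eq_mul_left (by norm_num) h5
    omega
  | more j ih0 _ =>
    intro m n hm h
    have h3 : 3 ∣ n := by
      have h4 : 3 ∣ n * n := ⟨3 ^ (j + 1) * m, by rw [h]; ring⟩
      exact ((Nat.Prime.dvd_mul Nat.prime_three).mp h4).elim id id
    obtain ⟨t, rfl⟩ := h3
    apply ih0 m t hm
    have h5 : 9 * (t * t) = 9 * (3 ^ j * m) := by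
      calc 9 * (t * t) = 3 * t * (3 * t) := by ring
        _ = 3 ^ (j + 2) * m := h
        _ = 9 * (3 ^ j * m) := by ring
    exact Nat.eq_of_mul_eq_mul_left (by norm_num) h5

theorem three_pow_srg {k j : ℕ} (hjk : j < k)
    (h : IsSquare ((3 ^ j) ^ 2 + 4 * (3 ^ k - 3 ^ j))) : k = 1 ∧ j = 0 := by
  obtain ⟨n, hn⟩ := h
  obtain ⟨i, rfl⟩ : ∃ i, k = j + (i + 1) := ⟨k - j - 1, by omega⟩
  have e1 : 3 ^ (j + (i + 1)) - 3 ^ j = 3 ^ j * (3 ^ (i + 1) - 1) := by
    rw [pow_add, Nat.mul_sub_one]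
  rw [e1] at hn
  rcases Nat.eq_zero_or_pos j with rfl | hj
  · rcases Nat.eq_zero_or_pos i with rfl | hi
    · exact ⟨by simp, rfl⟩
    · exfalso
      obtain ⟨i', rfl⟩ : ∃ i', i = i' + 1 := ⟨i - 1, by omega⟩
      have e : 3 ^ (i' + 1 + 1) = 9 * 3 ^ i' := by ring
      have hpos : 0 < 3 ^ i' := by positivity
      rw [e] at hn
      simp only [pow_zero, one_pow, one_mul] at hn
      have h9 : n * n % 9 = 6 := by omega
      have h2 : n % 9 < 9 := Nat.mod_lt _ (by norm_num)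
      rw [Nat.mul_mod] at h9
      interval_cases (n % 9) <;> simp at h9
  · exfalso
    apply not_sq_three_pow_mul j (3 ^ j + 4 * (3 ^ (i + 1) - 1)) n
    · obtain ⟨j', rfl⟩ : ∃ j', j = j' + 1 := ⟨j - 1, by omega⟩
      have h1 : 3 ^ (j' + 1) = 3 * 3 ^ j' := by ring
      have h2 : 3 ^ (i + 1) = 3 * 3 ^ i := by ring
      have h3 : 0 < 3 ^ i := by positivity
      omega
    · rw [← hn]; ring

section ttpetersen

variable {G : Type u} [Group G]

/-! ### Sets of pairwise non-commuting 3-transpositions -/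

/-- a set of pairwise non-commuting 3-transpositions closed under conjugation by its members has
3-power size -/
theorem ncard_three_pow_of_no_commuting [Finite G] (hBS : Cfsg.Agent.H75.BrauerSuzukiStmt.{u})
    {D : Set G} (hD : IsThreeTranspositionSet D) {S : Set G} (hSD : S ⊆ D) (hne : S.Nonempty)
    (hnc : ∀ s ∈ S, ∀ t ∈ S, s ≠ t → ¬ Commute s t)
    (hcl : ∀ s ∈ S, ∀ t ∈ S, t * s * t⁻¹ ∈ S) : ∃ n : ℕ, S.ncard = 3 ^ n := by
  classical
  have : Fact (Nat.Prime 3) := ⟨Nat.prime_three⟩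
  obtain ⟨Y, hY⟩ : ∃ Y : Subgroup G, Y = Subgroup.closure S := ⟨_, rfl⟩
  have hSY : S ⊆ Y := by rw [hY]; exact Subgroup.subset_closure
  obtain ⟨S', hS'⟩ : ∃ S' : Set ↥Y, S' = {y : ↥Y | (y : G) ∈ S} := ⟨_, rfl⟩
  have hmem : ∀ y : ↥Y, y ∈ S' ↔ (y : G) ∈ S := by intro y; rw [hS']; rfl
  have hset' : IsThreeTranspositionSet S' := by
    constructor
    · intro y hy
      rw [← Subgroup.orderOf_coe]
      exact hD.1 _ (hSD ((hmem y).mp hy))
    · intro y hy z hz
      rcases hD.2 _ (hSD ((hmem y).mp hy)) _ (hSD ((hmem z).mp hz)) with h | h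
      · left; apply Subtype.ext; simpa using h
      · right; apply Subtype.ext; simpa using h
  have hconj' : ∀ g : ↥Y, ∀ d ∈ S', g * d * g⁻¹ ∈ S' := by
    intro g d hd
    rw [hmem] at hd ⊢
    have h1 := conj_mem_of_gens (S := S) (T := S) (fun x hx => sq_one (hD.1 x (hSD hx)))
      (fun x hx s hs => hcl s hs x hx) (g : G) (by rw [← hY]; exact g.2) (d : G) hd
    simpa using h1
  obtain ⟨d₀, hd₀⟩ := hne
  have hd₀' : (⟨d₀, hSY hd₀⟩ : ↥Y) ∈ S' := (hmem _).mpr hd₀
  have hempty : ∀ v ∈ S', Dd S' v = ∅ := by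
    intro v hv
    ext y
    simp only [Dd, Set.mem_ofPred_eq, Set.mem_empty_iff_false, iff_false]
    rintro ⟨hy, hyv, hc⟩
    apply hnc (v : G) ((hmem v).mp hv) (y : G) ((hmem y).mp hy)
      (fun h => hyv (Subtype.ext h.symm))
    exact congrArg Subtype.val hc.eq
  have hW : ∀ w ∈ S', WSim S' ⟨d₀, hSY hd₀⟩ w := by
    intro w hw
    refine ⟨hd₀', hw, ?_⟩
    rw [hempty _ hd₀', hempty w hw]
  letI act : MulAction ↥(pCore 3 ↥Y) ↥Y :=
    MulAction.compHom ↥Y (MulAut.conj.comp (pCore 3 ↥Y).subtype)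
  have hsmul : ∀ (g : ↥(pCore 3 ↥Y)) (y : ↥Y), g • y = (g : ↥Y) * y * (g : ↥Y)⁻¹ :=
    fun g y => rfl
  have horb : S' = MulAction.orbit ↥(pCore 3 ↥Y) (⟨d₀, hSY hd₀⟩ : ↥Y) := by
    ext w
    constructor
    · intro hw
      have h1 := WSim.mul_mem_pCore_three hBS hset' hconj' (hW w hw)
      refine ⟨⟨_, h1⟩, ?_⟩
      show (⟨_, h1⟩ : ↥(pCore 3 ↥Y)) • (⟨d₀, hSY hd₀⟩ : ↥Y) = w
      rw [hsmul]
      show (⟨d₀, hSY hd₀⟩ : ↥Y) * w * ⟨d₀, hSY hd₀⟩ * ((⟨d₀, hSY hd₀⟩ : ↥Y) * w)⁻¹ = w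
      have hd2 := sq_one (hset'.1 _ hd₀')
      have hw2 := sq_one (hset'.1 _ hw)
      have hdi := inv_self hd2
      have hwi := inv_self hw2
      by_cases hdw : (⟨d₀, hSY hd₀⟩ : ↥Y) = w
      · rw [← hdw, hd2]; simp
      · rcases commute_or_braid hset' hd₀' hw with hc | hb
        · exfalso
          apply hnc d₀ hd₀ (w : G) ((hmem w).mp hw) (fun h => hdw (Subtype.ext h))
          exact congrArg Subtype.val hc.eq
        · rw [mul_inv_rev, hdi, hwi, hb]
          calc w * ⟨d₀, hSY hd₀⟩ * w * (w * ⟨d₀, hSY hd₀⟩)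
              = w * ⟨d₀, hSY hd₀⟩ * (w * w) * ⟨d₀, hSY hd₀⟩ := by group
            _ = w * ((⟨d₀, hSY hd₀⟩ : ↥Y) * ⟨d₀, hSY hd₀⟩) := by rw [hw2]; group
            _ = w := by rw [hd2, mul_one]
    · rintro ⟨g, rfl⟩
      show g • (⟨d₀, hSY hd₀⟩ : ↥Y) ∈ S'
      rw [hsmul]
      exact hconj' _ _ hd₀'
  obtain ⟨n, hn⟩ := (pCore_isPGroup (G := ↥Y) 3).card_orbit (⟨d₀, hSY hd₀⟩ : ↥Y)
  refine ⟨n, ?_⟩
  rw [← hn, ← horb, Nat.card_coe_set_eq]
  have e : S' = Subtype.val ⁻¹' S := by rw [hS']; rfl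
  rw [e, Set.ncard_preimage_of_injective_subset_range Subtype.val_injective
    (by intro s hs; exact ⟨⟨s, hSY hs⟩, rfl⟩)]

/-! ### Conjugation images -/

theorem commonNbrs_conj_gen {D : Set G} (hconj : ∀ g : G, ∀ d ∈ D, g * d * g⁻¹ ∈ D) (g d p : G) :
    commonNbrs D (g * d * g⁻¹) (g * p * g⁻¹) = (fun e => g * e * g⁻¹) '' commonNbrs D d p := by
  ext e
  constructor
  · rintro ⟨heD, hde, hep⟩
    have e1 : g * (g⁻¹ * e * g⁻¹⁻¹) * g⁻¹ = e := by group
    refine ⟨g⁻¹ * e * g⁻¹⁻¹, ⟨hconj g⁻¹ e heD, ?_, ?_⟩, e1⟩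
    · have h1 : Commute (g * d * g⁻¹) (g * (g⁻¹ * e * g⁻¹⁻¹) * g⁻¹) := by
        rw [e1]; exact hde
      exact commute_of_conj' g h1
    · have h1 : Commute (g * (g⁻¹ * e * g⁻¹⁻¹) * g⁻¹) (g * p * g⁻¹) := by
        rw [e1]; exact hep
      exact commute_of_conj' g h1
  · rintro ⟨e', ⟨heD, hde, hep⟩, rfl⟩
    exact ⟨hconj g e' heD, commute_conj' g hde, commute_conj' g hep⟩

theorem commonNbrs_ncard_conj_gen {D : Set G} (hconj : ∀ g : G, ∀ d ∈ D, g * d * g⁻¹ ∈ D)
    (g d p : G) :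
    (commonNbrs D (g * d * g⁻¹) (g * p * g⁻¹)).ncard = (commonNbrs D d p).ncard := by
  rw [commonNbrs_conj_gen hconj]
  apply Set.ncard_image_of_injective
  intro y z hyz
  simpa using hyz

theorem Dd_conj_image {D : Set G} (hconj : ∀ g : G, ∀ d ∈ D, g * d * g⁻¹ ∈ D) (g x : G) :
    Dd D (g * x * g⁻¹) = (fun e => g * e * g⁻¹) '' Dd D x := by
  ext z
  rw [mem_Dd_conj hconj]
  constructor
  · intro h; exact ⟨_, h, by group⟩
  · rintro ⟨e, he, rfl⟩
    have e1 : g⁻¹ * (g * e * g⁻¹) * g = e := by group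
    rw [e1]; exact he

theorem Dd_ncard_conj {D : Set G} (hconj : ∀ g : G, ∀ d ∈ D, g * d * g⁻¹ ∈ D) (g x : G) :
    (Dd D (g * x * g⁻¹)).ncard = (Dd D x).ncard := by
  rw [Dd_conj_image hconj]
  apply Set.ncard_image_of_injective
  intro y z hyz
  simpa using hyz

theorem sum_indicator_subtype {D : Set G} [Fintype ↥D] (R : G → Prop)
    [∀ z : ↥D, Decidable (R (z : G))] :
    (∑ z : ↥D, if R (z : G) then (1 : ℝ) else 0) = (({g : G | g ∈ D ∧ R g}.ncard : ℕ) : ℝ) := by
  classical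
  rw [Finset.sum_boole]
  congr 1
  have e : {g : G | g ∈ D ∧ R g} =
      Subtype.val '' ((Finset.univ.filter fun z : ↥D => R (z : G)) : Set ↥D) := by
    ext g
    constructor
    · rintro ⟨hg, hR⟩
      exact ⟨⟨g, hg⟩, by simpa using hR, rfl⟩
    · rintro ⟨z, hz, rfl⟩
      exact ⟨z.2, by simpa using hz⟩
  rw [e, Set.ncard_image_of_injective _ Subtype.val_injective, Set.ncard_coe_finset]

theorem commute_of_mem_closure_commute {D : Set G} {x h : G}
    (hh : h ∈ Subgroup.closure {y : G | y ∈ D ∧ Commute x y}) : Commute x h := by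
  have h1 : Subgroup.closure {y : G | y ∈ D ∧ Commute x y} ≤ Subgroup.centralizer {x} := by
    rw [Subgroup.closure_le]
    intro y hy
    rw [SetLike.mem_coe, Subgroup.mem_centralizer_iff]
    intro z hz
    rw [Set.mem_singleton_iff] at hz
    rw [hz]; exact hy.2.eq
  have h2 := h1 hh
  rw [Subgroup.mem_centralizer_iff] at h2
  exact h2 x rfl

/-! ### The main count -/

/-- **Triangle-free case**: in a primitive class of 3-transpositions in which some two different
members commute but no three different members commute pairwise, every member commutes with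
exactly three others. -/
theorem card_Dd_eq_three_of_triangle_free [Finite G]
    (hBS : Cfsg.Agent.H75.BrauerSuzukiStmt.{u})
    {D : Set G} (hD : IsThreeTranspositionClass D) (hprim : IsPrimitiveUnderConj D)
    (hw : ∃ a ∈ D, ∃ b ∈ D, a ≠ b ∧ Commute a b)
    (hfree : ∀ x ∈ D, ∀ y ∈ Dd D x, ∀ z ∈ Dd D x, y ≠ z → ¬ Commute y z)
    {x : G} (hx : x ∈ D) : (Dd D x).ncard = 3 := by
  classical
  have hset := hD.1
  have hconj := class_conj hD
  have hD2 := hprim.2.1
  have hconn := connected_of_primitive hD hw hprim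
  have hκconst : ∀ y ∈ D, (Dd D y).ncard = (Dd D x).ncard := by
    intro y hy
    obtain ⟨g, rfl⟩ := class_exists_conj hD hx hy
    exact Dd_ncard_conj hconj g x
  have hDdne : (Dd D x).Nonempty := by
    obtain ⟨a, ha, b, hb, hab, hc⟩ := hw
    have h1 : b ∈ Dd D a := ⟨hb, hab.symm, hc⟩
    have h2 := hκconst a ha
    by_contra hcon
    rw [Set.not_nonempty_iff_eq_empty] at hcon
    rw [hcon, Set.ncard_empty] at h2
    exact (Set.ncard_ne_zero_of_mem h1 (Set.toFinite _)) h2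
  obtain ⟨k, hk⟩ := ncard_three_pow_of_no_commuting hBS hset (S := Dd D x) (fun y hy => hy.1)
    hDdne (hfree x hx) (by
      intro s hs t ht
      refine ⟨hconj t s hs.1, ?_, ?_⟩
      · intro h
        apply hs.2.1
        have e1 : s = t⁻¹ * (t * s * t⁻¹) * t := by group
        have hc : Commute x t := ht.2.2
        rw [e1, h, mul_assoc, hc.eq, inv_mul_cancel_left]
      · exact (ht.2.2.mul_right hs.2.2).mul_right ht.2.2.inv_right)
  obtain ⟨a, ha, hxa⟩ := class_exists_not_commute hD hD2 hx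
  have hCN_sub : ∀ y ∈ D, ∀ b ∈ D, ¬ Commute y b → commonNbrs D y b ⊆ Dd D y := by
    intro y hy b hb hyb e he
    refine ⟨he.1, ?_, he.2.1⟩
    rintro rfl
    exact hyb he.2.2
  have hμconst : ∀ y ∈ D, ∀ b ∈ D, ¬ Commute y b →
      (commonNbrs D y b).ncard = (commonNbrs D x a).ncard := by
    intro y hy b hb hyb
    obtain ⟨g, rfl⟩ := class_exists_conj hD hx hy
    have hb' : g⁻¹ * b * g⁻¹⁻¹ ∈ D := hconj g⁻¹ b hb
    have e1 : g * (g⁻¹ * b * g⁻¹⁻¹) * g⁻¹ = b := by group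
    have hxb' : ¬ Commute x (g⁻¹ * b * g⁻¹⁻¹) := by
      intro hc
      apply hyb
      have h1 := commute_conj' g hc
      rwa [e1] at h1
    obtain ⟨h, hh, hhab⟩ := trans_on_noncommuting hD hprim hw hx a ha _ hb' hxa hxb'
    have hhx : h * x * h⁻¹ = x := by
      rw [← (commute_of_mem_closure_commute hh).eq, mul_inv_cancel_right]
    calc (commonNbrs D (g * x * g⁻¹) b).ncard
        = (commonNbrs D (g * x * g⁻¹) (g * (g⁻¹ * b * g⁻¹⁻¹) * g⁻¹)).ncard := by rw [e1]
      _ = (commonNbrs D x (g⁻¹ * b * g⁻¹⁻¹)).ncard := commonNbrs_ncard_conj_gen hconj g x _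
      _ = (commonNbrs D x (h * a * h⁻¹)).ncard := by rw [hhab]
      _ = (commonNbrs D x a).ncard := commonNbrs_ncard_conj hconj hhx a
  obtain ⟨j, hj⟩ := ncard_three_pow_of_no_commuting hBS hset (S := commonNbrs D x a)
    (fun y hy => hy.1)
    (by
      obtain ⟨e, he, hxe, hea⟩ := exists_common_neighbour hD hconn hx ha hxa
      exact ⟨e, he, hxe, hea⟩)
    (fun s hs t ht hst => hfree x hx s (hCN_sub x hx a ha hxa hs) t (hCN_sub x hx a ha hxa ht) hst)
    (by
      intro s hs t ht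
      exact ⟨hconj t s hs.1, (ht.2.1.mul_right hs.2.1).mul_right ht.2.1.inv_right,
        (ht.2.2.mul_left hs.2.2).mul_left ht.2.2.inv_left⟩)
  have hμκ : (commonNbrs D x a).ncard < (Dd D x).ncard := by
    apply Set.ncard_lt_ncard _ (Set.toFinite _)
    refine ⟨hCN_sub x hx a ha hxa, ?_⟩
    intro hsub
    obtain ⟨e, he⟩ := hDdne
    apply false_of_commute_all hD hD2 hx he.1 he.2.2
    intro b hb hxb
    obtain ⟨h, hh, rfl⟩ := trans_on_noncommuting hD hprim hw hx a ha b hb hxa hxb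
    have hhx : Commute x h := commute_of_mem_closure_commute hh
    have he' : h⁻¹ * e * h ∈ Dd D x := by
      refine ⟨?_, ?_, ?_⟩
      · have h1 := hconj h⁻¹ e he.1
        rwa [inv_inv] at h1
      · intro hc
        apply he.2.1
        have e3 : e = h * (h⁻¹ * e * h) * h⁻¹ := by group
        rw [e3, hc, ← hhx.eq, mul_inv_cancel_right]
      · exact (hhx.inv_right.mul_right he.2.2).mul_right hhx
    have h3 := (hsub he').2.2
    have h4 := commute_conj' h h3
    have e2 : h * (h⁻¹ * e * h) * h⁻¹ = e := by group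
    rwa [e2] at h4
  haveI : Fintype ↥D := Fintype.ofFinite _
  haveI : Nonempty ↥D := ⟨⟨x, hx⟩⟩
  obtain ⟨A, hAdef⟩ : ∃ A : Matrix ↥D ↥D ℝ, A = Matrix.of (fun y z : ↥D =>
      if (y : G) ≠ z ∧ Commute (y : G) (z : G) then (1 : ℝ) else 0) := ⟨_, rfl⟩
  have hAapp : ∀ y z : ↥D, A y z =
      if (y : G) ≠ z ∧ Commute (y : G) (z : G) then (1 : ℝ) else 0 := by
    intro y z; rw [hAdef]; rfl
  have hAH : A.IsHermitian := by
    apply Matrix.IsHermitian.ext
    intro y z
    rw [hAapp, hAapp, star_trivial]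
    by_cases h : (y : G) ≠ z ∧ Commute (y : G) (z : G)
    · rw [if_pos h, if_pos ⟨h.1.symm, h.2.symm⟩]
    · rw [if_neg h, if_neg (fun h' => h ⟨h'.1.symm, h'.2.symm⟩)]
  have htr : A.trace = 0 := by
    rw [Matrix.trace]
    apply Finset.sum_eq_zero
    intro y _
    rw [Matrix.diag_apply, hAapp, if_neg (fun h => h.1 rfl)]
  have hAJ : A * Matrix.of (fun _ _ : ↥D => (1 : ℝ))
      = ((Dd D x).ncard : ℝ) • Matrix.of (fun _ _ : ↥D => (1 : ℝ)) := by
    ext y z
    rw [Matrix.mul_apply, Matrix.smul_apply]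
    simp only [Matrix.of_apply, mul_one, smul_eq_mul]
    have hterm : ∀ w : ↥D, A y w =
        if ((w : G) ≠ y ∧ Commute (y : G) (w : G)) then (1 : ℝ) else 0 := by
      intro w
      rw [hAapp]
      by_cases h : (y : G) ≠ w ∧ Commute (y : G) (w : G)
      · rw [if_pos h, if_pos ⟨h.1.symm, h.2⟩]
      · rw [if_neg h, if_neg (fun h' => h ⟨h'.1.symm, h'.2⟩)]
    rw [Finset.sum_congr rfl (fun w _ => hterm w),
      sum_indicator_subtype (D := D) (fun w => w ≠ (y : G) ∧ Commute (y : G) w)]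
    have e : {g : G | g ∈ D ∧ g ≠ (y : G) ∧ Commute (y : G) g} = Dd D y := rfl
    rw [e, hκconst y y.2]
  have hA2 : A * A = (((Dd D x).ncard : ℝ) - ((commonNbrs D x a).ncard : ℝ)) •
        (1 : Matrix ↥D ↥D ℝ) - ((commonNbrs D x a).ncard : ℝ) • A
      + ((commonNbrs D x a).ncard : ℝ) • Matrix.of (fun _ _ : ↥D => (1 : ℝ)) := by
    ext y z
    rw [Matrix.mul_apply]
    simp only [Matrix.add_apply, Matrix.sub_apply, Matrix.smul_apply, Matrix.of_apply,
      smul_eq_mul, mul_one]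
    have hterm : ∀ w : ↥D, A y w * A w z =
        if ((w : G) ≠ y ∧ Commute (y : G) (w : G)) ∧ ((w : G) ≠ z ∧ Commute (w : G) (z : G))
        then (1 : ℝ) else 0 := by
      intro w
      rw [hAapp, hAapp]
      by_cases h1 : (y : G) ≠ w ∧ Commute (y : G) (w : G)
      · by_cases h2 : (w : G) ≠ z ∧ Commute (w : G) (z : G)
        · rw [if_pos h1, if_pos h2, if_pos ⟨⟨h1.1.symm, h1.2⟩, h2⟩, mul_one]
        · rw [if_pos h1, if_neg h2, if_neg (fun h' => h2 h'.2), mul_zero]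
      · rw [if_neg h1, zero_mul, if_neg (fun h' => h1 ⟨h'.1.1.symm, h'.1.2⟩)]
    rw [Finset.sum_congr rfl (fun w _ => hterm w),
      sum_indicator_subtype (D := D)
        (fun w => (w ≠ (y : G) ∧ Commute (y : G) w) ∧ (w ≠ (z : G) ∧ Commute w (z : G)))]
    by_cases hyz : y = z
    · subst hyz
      rw [Matrix.one_apply_eq, hAapp, if_neg (fun h => h.1 rfl)]
      have e : {g : G | g ∈ D ∧ (g ≠ (y : G) ∧ Commute (y : G) g) ∧
          (g ≠ (y : G) ∧ Commute g (y : G))} = Dd D y := by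
        ext g
        constructor
        · rintro ⟨h1, h2, -⟩; exact ⟨h1, h2.1, h2.2⟩
        · rintro ⟨h1, h2, h3⟩; exact ⟨h1, ⟨h2, h3⟩, ⟨h2, h3.symm⟩⟩
      rw [e, hκconst y y.2]; ring
    · rw [Matrix.one_apply_ne hyz, hAapp]
      have hyz' : (y : G) ≠ z := fun h => hyz (Subtype.ext h)
      by_cases hc : Commute (y : G) (z : G)
      · rw [if_pos ⟨hyz', hc⟩]
        have e : {g : G | g ∈ D ∧ (g ≠ (y : G) ∧ Commute (y : G) g) ∧
            (g ≠ (z : G) ∧ Commute g (z : G))} = ∅ := by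
          ext g
          simp only [Set.mem_ofPred_eq, Set.mem_empty_iff_false, iff_false]
          rintro ⟨h1, h2, h3⟩
          exact hfree y y.2 g ⟨h1, h2.1, h2.2⟩ z ⟨z.2, hyz'.symm, hc⟩ h3.1 h3.2
        rw [e, Set.ncard_empty]; simp
      · rw [if_neg (fun h => hc h.2)]
        have e : {g : G | g ∈ D ∧ (g ≠ (y : G) ∧ Commute (y : G) g) ∧
            (g ≠ (z : G) ∧ Commute g (z : G))} = commonNbrs D y z := by
          ext g
          constructor
          · rintro ⟨h1, h2, h3⟩; exact ⟨h1, h2.2, h3.2⟩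
          · rintro ⟨h1, h2, h3⟩
            refine ⟨h1, ⟨?_, h2⟩, ⟨?_, h3⟩⟩
            · rintro rfl; exact hc h3
            · rintro rfl; exact hc h2
        rw [e, hμconst y y.2 z z.2 hc]; ring
  have hμpos : 0 < (commonNbrs D x a).ncard := by rw [hj]; positivity
  have hjk : j < k := by
    rw [hk, hj] at hμκ
    exact (Nat.pow_lt_pow_iff_right (by norm_num)).mp hμκ
  rcases srg_spectral A hAH (Dd D x).ncard (commonNbrs D x a).ncard hμpos hμκ htr hA2 hAJ
    with h | h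
  · rw [hk, hj] at h
    obtain ⟨rfl, rfl⟩ := three_pow_srg hjk h
    rw [hk]; norm_num
  · exfalso
    rw [hk, hj] at h
    have h1 : 3 ^ 1 ≤ 3 ^ k := Nat.pow_le_pow_right (by norm_num) (by omega)
    have h2 : 0 < 3 ^ j := by positivity
    omega

end ttpetersen

end Cfsg.Agent.H91
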