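import Cfsg.Agent.H91.TTClass

/-!
# Commuting sets of 3-transpositions of maximum size

Let `E` be a set of pairwise commuting members of a class `D` of 3-transpositions of the finite
group `G`, of maximum size.  Then `E = D ∩ T` for every 2-subgroup `T` containing `E`; hence
the normaliser of `E` contains a Sylow 2-subgroup of `G` and controls fusion in `E`.
-/

set_option autoImplicit false
open Cfsg
open scoped commutatorElement Pointwise

namespace Cfsg.Agent.H91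

universe u

section ttsylow

variable {G : Type u} [Group G]

/-- the members of `D` in a 2-subgroup commute -/
theorem commute_of_mem_two_group {D : Set G} (hD : IsThreeTranspositionSet D) {T : Subgroup G}
    (hT : IsPGroup 2 T) {a b : G} (ha : a ∈ D) (hb : b ∈ D) (haT : a ∈ T) (hbT : b ∈ T) :
    Commute a b := by
  by_contra hnc
  have h3 := orderOf_mul_of_not_commute hD ha hb hnc
  obtain ⟨k, hk⟩ := hT ⟨a * b, T.mul_mem haT hbT⟩
  have hk' : (a * b) ^ 2 ^ k = 1 := by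
    have := congrArg Subtype.val hk
    simpa using this
  have hdvd : 3 ∣ 2 ^ k := by
    rw [← h3]
    exact orderOf_dvd_of_pow_eq_one hk'
  have := Nat.Prime.dvd_of_dvd_pow Nat.prime_three hdvd
  omega

/-- a commuting subset of `D` of maximum size contains every member of `D` in a 2-subgroup
containing it -/
theorem mem_of_mem_two_group [Finite G] {D : Set G} (hD : IsThreeTranspositionSet D) {E : Set G}
    (hE : E ⊆ D)
    (hmax : ∀ E' : Set G, E' ⊆ D → (∀ a ∈ E', ∀ b ∈ E', Commute a b) → E'.ncard ≤ E.ncard)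
    {T : Subgroup G} (hT : IsPGroup 2 T) (hET : E ⊆ T) {x : G} (hx : x ∈ D) (hxT : x ∈ T) :
    x ∈ E := by
  have hsub : E ⊆ {y | y ∈ D ∧ y ∈ T} := fun y hy => ⟨hE hy, hET hy⟩
  have hle := hmax {y | y ∈ D ∧ y ∈ T} (fun y hy => hy.1)
    (fun a ha b hb => commute_of_mem_two_group hD hT ha.1 hb.1 ha.2 hb.2)
  have heq := Set.eq_of_subset_of_ncard_le hsub hle (Set.toFinite _)
  rw [heq]
  exact ⟨hx, hxT⟩

/-- fusion of 2-subgroups of a subgroup `C`: any two of them lie, after conjugating one by an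
element of `C`, in a common 2-subgroup -/
theorem exists_conj_le_two_group [Finite G] (C A B : Subgroup G) (hA : IsPGroup 2 A)
    (hB : IsPGroup 2 B) (hAC : A ≤ C) (hBC : B ≤ C) :
    ∃ u ∈ C, ∃ T : Subgroup G, IsPGroup 2 T ∧ A ≤ T ∧ ∀ b ∈ B, u * b * u⁻¹ ∈ T := by
  have : Fact (Nat.Prime 2) := ⟨Nat.prime_two⟩
  obtain ⟨QA, hQA⟩ := (hA.comap_subtype (K := C)).exists_le_sylow
  obtain ⟨QB, hQB⟩ := (hB.comap_subtype (K := C)).exists_le_sylow
  obtain ⟨u, hu⟩ := MulAction.exists_smul_eq (↥C) QB QA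
  refine ⟨u.1, u.2, (QA : Subgroup ↥C).map C.subtype, QA.2.map _, ?_, ?_⟩
  · intro a ha
    exact ⟨⟨a, hAC ha⟩, hQA (show (⟨a, hAC ha⟩ : ↥C) ∈ A.comap C.subtype from ha), rfl⟩
  · intro b hb
    have hb' : (⟨b, hBC hb⟩ : ↥C) ∈ (QB : Subgroup ↥C) :=
      hQB (show (⟨b, hBC hb⟩ : ↥C) ∈ B.comap C.subtype from hb)
    have h1 : u * ⟨b, hBC hb⟩ * u⁻¹ ∈ (QA : Subgroup ↥C) := by
      rw [← hu, Sylow.coe_subgroup_smul]
      exact ⟨⟨b, hBC hb⟩, hb', rfl⟩
    exact ⟨u * ⟨b, hBC hb⟩ * u⁻¹, h1, rfl⟩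

/-- the fusion lemma for a commuting subset `E` of `D` of maximum size: if `E` and a conjugate
`g E g⁻¹` lie in the subgroup `C`, then `u * g` normalises `E` for some `u ∈ C` -/
theorem exists_mul_mem_normalizer [Finite G] {D : Set G} (hD : IsThreeTranspositionSet D)
    (hconj : ∀ g : G, ∀ d ∈ D, g * d * g⁻¹ ∈ D) {E : Set G} (hE : E ⊆ D)
    (hc : ∀ a ∈ E, ∀ b ∈ E, Commute a b)
    (hmax : ∀ E' : Set G, E' ⊆ D → (∀ a ∈ E', ∀ b ∈ E', Commute a b) → E'.ncard ≤ E.ncard)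
    (C : Subgroup G) (hEC : E ⊆ C) (g : G) (hgC : ∀ e ∈ E, g * e * g⁻¹ ∈ C) :
    ∃ u ∈ C, u * g ∈ Subgroup.normalizer E := by
  have hsq : ∀ x ∈ E, x * x = 1 := fun x hx => sq_one (hD.1 x (hE hx))
  have hA : IsPGroup 2 (Subgroup.closure E) := isPGroup_two_closure hc hsq
  have hcB : ∀ x ∈ (fun e => g * e * g⁻¹) '' E, ∀ y ∈ (fun e => g * e * g⁻¹) '' E,
      Commute x y := by
    rintro _ ⟨x, hx, rfl⟩ _ ⟨y, hy, rfl⟩
    have := (hc x hx y hy).eq
    show g * x * g⁻¹ * (g * y * g⁻¹) = g * y * g⁻¹ * (g * x * g⁻¹)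
    calc g * x * g⁻¹ * (g * y * g⁻¹) = g * (x * y) * g⁻¹ := by group
      _ = g * (y * x) * g⁻¹ := by rw [this]
      _ = g * y * g⁻¹ * (g * x * g⁻¹) := by group
  have hsqB : ∀ x ∈ (fun e => g * e * g⁻¹) '' E, x * x = 1 := by
    rintro _ ⟨x, hx, rfl⟩
    calc g * x * g⁻¹ * (g * x * g⁻¹) = g * (x * x) * g⁻¹ := by group
      _ = 1 := by rw [hsq x hx]; group
  have hB : IsPGroup 2 (Subgroup.closure ((fun e => g * e * g⁻¹) '' E)) :=
    isPGroup_two_closure hcB hsqB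
  have hAC : Subgroup.closure E ≤ C := (Subgroup.closure_le C).mpr hEC
  have hBC : Subgroup.closure ((fun e => g * e * g⁻¹) '' E) ≤ C := by
    rw [Subgroup.closure_le]
    rintro _ ⟨x, hx, rfl⟩
    exact hgC x hx
  obtain ⟨u, hu, T, hT, hAT, hBT⟩ := exists_conj_le_two_group C _ _ hA hB hAC hBC
  refine ⟨u, hu, Subgroup.mem_normalizer_fintype ?_⟩
  intro e he
  have h1 : u * (g * e * g⁻¹) * u⁻¹ ∈ T :=
    hBT _ (Subgroup.subset_closure ⟨e, he, rfl⟩)
  have h2 : u * g * e * (u * g)⁻¹ = u * (g * e * g⁻¹) * u⁻¹ := by group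
  rw [h2]
  refine mem_of_mem_two_group hD hE hmax hT (fun y hy => hAT (Subgroup.subset_closure hy)) ?_ h1
  rw [← h2]
  exact hconj _ _ (hE he)

/-- a Sylow 2-subgroup normalises a commuting subset of `D` of maximum size -/
theorem exists_sylow_le_normalizer [Finite G] {D : Set G} (hD : IsThreeTranspositionSet D)
    (hconj : ∀ g : G, ∀ d ∈ D, g * d * g⁻¹ ∈ D) {E : Set G} (hE : E ⊆ D)
    (hc : ∀ a ∈ E, ∀ b ∈ E, Commute a b)
    (hmax : ∀ E' : Set G, E' ⊆ D → (∀ a ∈ E', ∀ b ∈ E', Commute a b) → E'.ncard ≤ E.ncard) :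
    ∃ P : Sylow 2 G, (P : Subgroup G) ≤ Subgroup.normalizer E := by
  have : Fact (Nat.Prime 2) := ⟨Nat.prime_two⟩
  have hsq : ∀ x ∈ E, x * x = 1 := fun x hx => sq_one (hD.1 x (hE hx))
  have hA : IsPGroup 2 (Subgroup.closure E) := isPGroup_two_closure hc hsq
  obtain ⟨P, hP⟩ := hA.exists_le_sylow
  refine ⟨P, fun g hg => Subgroup.mem_normalizer_fintype ?_⟩
  intro e he
  have heP : e ∈ (P : Subgroup G) := hP (Subgroup.subset_closure he)
  exact mem_of_mem_two_group hD hE hmax P.2 (fun y hy => hP (Subgroup.subset_closure hy))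
    (hconj _ _ (hE he)) ((P : Subgroup G).mul_mem ((P : Subgroup G).mul_mem hg heP)
      ((P : Subgroup G).inv_mem hg))

/-- the normaliser of a commuting subset of `D` of maximum size is transitive on it -/
theorem exists_mem_normalizer_conj [Finite G] {D : Set G} (hD : IsThreeTranspositionClass D)
    {E : Set G} (hE : E ⊆ D) (hc : ∀ a ∈ E, ∀ b ∈ E, Commute a b)
    (hmax : ∀ E' : Set G, E' ⊆ D → (∀ a ∈ E', ∀ b ∈ E', Commute a b) → E'.ncard ≤ E.ncard)
    {a c : G} (ha : a ∈ E) (hcE : c ∈ E) :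
    ∃ n ∈ Subgroup.normalizer E, n * a * n⁻¹ = c := by
  obtain ⟨g, hg⟩ := class_exists_conj hD (hE ha) (hE hcE)
  obtain ⟨u, hu, hn⟩ := exists_mul_mem_normalizer hD.1 (class_conj hD) hE hc hmax
    (Subgroup.centralizer {c}) (fun e he => by
      rw [SetLike.mem_coe, Subgroup.mem_centralizer_iff]
      intro z hz
      rw [Set.mem_singleton_iff] at hz
      subst hz
      exact (hc z hcE e he).eq) g (fun e he => by
      rw [Subgroup.mem_centralizer_iff]
      intro z hz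
      rw [Set.mem_singleton_iff] at hz
      subst hz
      have := (hc a ha e he).eq
      rw [hg]
      calc g * a * g⁻¹ * (g * e * g⁻¹) = g * (a * e) * g⁻¹ := by group
        _ = g * (e * a) * g⁻¹ := by rw [this]
        _ = g * e * g⁻¹ * (g * a * g⁻¹) := by group)
  refine ⟨u * g, hn, ?_⟩
  rw [Subgroup.mem_centralizer_iff] at hu
  have huc := hu c rfl
  calc u * g * a * (u * g)⁻¹ = u * (g * a * g⁻¹) * u⁻¹ := by group
    _ = u * c * u⁻¹ := by rw [← hg]
    _ = c * u * u⁻¹ := by rw [huc]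
    _ = c := by group

/-- the stabiliser of `c` in the normaliser of a commuting subset `E ∋ c` of `D` of maximum size
is transitive on the rest of `E`, provided `Dd D c` is a single class of the subgroup it
generates -/
theorem exists_mem_normalizer_conj_fix [Finite G] {D : Set G} (hD : IsThreeTranspositionClass D)
    {E : Set G} (hE : E ⊆ D) (hc : ∀ a ∈ E, ∀ b ∈ E, Commute a b)
    (hmax : ∀ E' : Set G, E' ⊆ D → (∀ a ∈ E', ∀ b ∈ E', Commute a b) → E'.ncard ≤ E.ncard)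
    {c : G} (hcE : c ∈ E) (hcls : ∀ y ∈ Dd D c, ∀ y' ∈ Dd D c, y' ∈ cls D c y)
    {b d : G} (hb : b ∈ E) (hd : d ∈ E) (hbc : b ≠ c) (hdc : d ≠ c) :
    ∃ n ∈ Subgroup.normalizer E, n * c * n⁻¹ = c ∧ n * b * n⁻¹ = d := by
  have hbD : b ∈ Dd D c := ⟨hE hb, hbc, hc c hcE b hb⟩
  have hdD : d ∈ Dd D c := ⟨hE hd, hdc, hc c hcE d hd⟩
  obtain ⟨g, hg, hgd⟩ := hcls b hbD d hdD
  have hgc : Commute g c := closure_Dd_commute hg
  have hgc' : g * c * g⁻¹ = c := by rw [hgc.eq]; group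
  obtain ⟨u, hu, hn⟩ := exists_mul_mem_normalizer hD.1 (class_conj hD) hE hc hmax
    (Subgroup.centralizer {c, d}) (fun e he => by
      rw [SetLike.mem_coe, Subgroup.mem_centralizer_iff]
      intro z hz
      rcases hz with rfl | hz
      · exact (hc z hcE e he).eq
      · rw [Set.mem_singleton_iff] at hz
        subst hz
        exact (hc z hd e he).eq) g (fun e he => by
      rw [Subgroup.mem_centralizer_iff]
      intro z hz
      rcases hz with rfl | hz
      · have := (hc z hcE e he).eq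
        calc z * (g * e * g⁻¹) = g * z * g⁻¹ * (g * e * g⁻¹) := by rw [hgc']
          _ = g * (z * e) * g⁻¹ := by group
          _ = g * (e * z) * g⁻¹ := by rw [this]
          _ = g * e * g⁻¹ * (g * z * g⁻¹) := by group
          _ = g * e * g⁻¹ * z := by rw [hgc']
      · rw [Set.mem_singleton_iff] at hz
        subst hz
        have := (hc b hb e he).eq
        rw [hgd]
        calc g * b * g⁻¹ * (g * e * g⁻¹) = g * (b * e) * g⁻¹ := by group
          _ = g * (e * b) * g⁻¹ := by rw [this]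
          _ = g * e * g⁻¹ * (g * b * g⁻¹) := by group)
  rw [Subgroup.mem_centralizer_iff] at hu
  have huc := hu c (Set.mem_insert _ _)
  have hud := hu d (Set.mem_insert_of_mem _ rfl)
  refine ⟨u * g, hn, ?_, ?_⟩
  · calc u * g * c * (u * g)⁻¹ = u * (g * c * g⁻¹) * u⁻¹ := by group
      _ = u * c * u⁻¹ := by rw [hgc']
      _ = c * u * u⁻¹ := by rw [huc]
      _ = c := by group
  · calc u * g * b * (u * g)⁻¹ = u * (g * b * g⁻¹) * u⁻¹ := by group
      _ = u * d * u⁻¹ := by rw [← hgd]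
      _ = d * u * u⁻¹ := by rw [hud]
      _ = d := by group

/-- the normaliser of a commuting subset of `D` of maximum size is doubly transitive on it,
provided each `Dd D c` is a single class of the subgroup it generates -/
theorem normalizer_two_transitive [Finite G] {D : Set G} (hD : IsThreeTranspositionClass D)
    {E : Set G} (hE : E ⊆ D) (hc : ∀ a ∈ E, ∀ b ∈ E, Commute a b)
    (hmax : ∀ E' : Set G, E' ⊆ D → (∀ a ∈ E', ∀ b ∈ E', Commute a b) → E'.ncard ≤ E.ncard)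
    (hcls : ∀ c ∈ D, ∀ y ∈ Dd D c, ∀ y' ∈ Dd D c, y' ∈ cls D c y) :
    ∀ a ∈ E, ∀ b ∈ E, ∀ c ∈ E, ∀ d ∈ E, a ≠ b → c ≠ d →
      ∃ g ∈ Subgroup.normalizer E, g * a * g⁻¹ = c ∧ g * b * g⁻¹ = d := by
  intro a ha b hb c hcE d hd hab hcd
  obtain ⟨n₁, hn₁, hn₁a⟩ := exists_mem_normalizer_conj hD hE hc hmax ha hcE
  have hb' : n₁ * b * n₁⁻¹ ∈ E := (Subgroup.mem_set_normalizer_iff.mp hn₁ b).mp hb
  have hb'c : n₁ * b * n₁⁻¹ ≠ c := by
    intro h
    apply hab
    rw [← hn₁a] at h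
    have h' : n₁⁻¹ * (n₁ * b * n₁⁻¹) * n₁ = n₁⁻¹ * (n₁ * a * n₁⁻¹) * n₁ := by rw [h]
    have e1 : n₁⁻¹ * (n₁ * b * n₁⁻¹) * n₁ = b := by group
    have e2 : n₁⁻¹ * (n₁ * a * n₁⁻¹) * n₁ = a := by group
    rw [e1, e2] at h'
    exact h'.symm
  obtain ⟨n₂, hn₂, hn₂c, hn₂b⟩ := exists_mem_normalizer_conj_fix hD hE hc hmax hcE
    (hcls c (hE hcE)) hb' hd hb'c (Ne.symm hcd)
  refine ⟨n₂ * n₁, Subgroup.mul_mem _ hn₂ hn₁, ?_, ?_⟩
  · calc n₂ * n₁ * a * (n₂ * n₁)⁻¹ = n₂ * (n₁ * a * n₁⁻¹) * n₂⁻¹ := by group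
      _ = c := by rw [hn₁a, hn₂c]
  · calc n₂ * n₁ * b * (n₂ * n₁)⁻¹ = n₂ * (n₁ * b * n₁⁻¹) * n₂⁻¹ := by group
      _ = d := hn₂b

end ttsylow

end Cfsg.Agent.H91
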