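import Cfsg.Agent.Lib.Helper96.TWDefs

/-!
# S5707 team project (helper96), piece S5707-CCONJ

Similarities of the exchange form normalize the Clifford space `C F k` (characteristic 2).
-/

set_option autoImplicit false

namespace Cfsg.Agent.H91.TW

open Cfsg.Agent.Lib.Helper96.TW Matrix

universe u

variable {F : Type u} [Field F]

theorem Jm_mul_apply {k : ℕ} (A : Matrix (Fin k) (Fin k) F) (p q : Fin k) :
    (Jm F k * A) p q = A p.rev q := by
  simp [Jm, Matrix.mul_apply]

/-- In characteristic 2, `Mᵀ S M` has zero diagonal when `S` is symmetric with zero diagonal. -/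
theorem diag_conj_zero (h2 : (2 : F) = 0) {k : ℕ} (S M : Matrix (Fin k) (Fin k) F)
    (hS : ∀ q r, S q r = S r q) (hd : ∀ q, S q q = 0) (p : Fin k) :
    (Mᵀ * S * M) p p = 0 := by
  simp only [Matrix.mul_apply, Matrix.transpose_apply, Finset.sum_mul]
  rw [← Finset.sum_product']
  refine Finset.sum_involution (fun x _ => Prod.swap x) ?_ ?_ ?_ ?_
  · rintro ⟨r, q⟩ -
    simp only [Prod.fst_swap, Prod.snd_swap]
    rw [hS r q]
    linear_combination (M q p * S q r * M r p) * h2
  · rintro ⟨r, q⟩ - hne heq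
    simp only [Prod.swap_prod_mk, Prod.mk.injEq] at heq
    apply hne
    obtain ⟨rfl, -⟩ := heq
    simp [hd]
  · intro x _
    exact Finset.mem_univ _
  · intro x _
    exact Prod.swap_swap x

theorem cConj : StCConj.{u} := by
  intro F _ k h2 hk g hsim A hA
  obtain ⟨μ, hμ, hg⟩ := hsim
  obtain ⟨hsym, hdiag, s, hsq⟩ := hA
  set G : Matrix (Fin k) (Fin k) F := (g : Matrix (Fin k) (Fin k) F) with hG
  set G' : Matrix (Fin k) (Fin k) F := ((g⁻¹ : GL (Fin k) F) : Matrix (Fin k) (Fin k) F) with hG'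
  have h1 : G * G' = 1 := by
    rw [hG, hG', ← Units.val_mul, mul_inv_cancel, Units.val_one]
  have h1' : G' * G = 1 := by
    rw [hG, hG', ← Units.val_mul, inv_mul_cancel, Units.val_one]
  -- `Jm * G = μ • G'ᵀ * Jm`
  have hJ : Jm F k * G = μ • (G'ᵀ * Jm F k) := by
    have h3 : G'ᵀ * (Gᵀ * Jm F k * G) = G'ᵀ * (μ • Jm F k) := by rw [hg]
    have h4 : G'ᵀ * Gᵀ = 1 := by
      rw [← Matrix.transpose_mul, h1, Matrix.transpose_one]
    rw [← Matrix.mul_assoc, ← Matrix.mul_assoc, h4, Matrix.one_mul] at h3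
    rw [h3, Matrix.mul_smul]
  have hJB : Jm F k * (G * A * G') = μ • (G'ᵀ * (Jm F k * A) * G') := by
    rw [← Matrix.mul_assoc, ← Matrix.mul_assoc, hJ]
    simp only [Matrix.smul_mul, Matrix.mul_assoc]
  have hS : ∀ q r, (Jm F k * A) q r = (Jm F k * A) r q := by
    intro q r
    rw [Jm_mul_apply, Jm_mul_apply]
    exact hsym q r
  have hST : (Jm F k * A)ᵀ = Jm F k * A := by
    ext q r
    rw [Matrix.transpose_apply]
    exact hS r q
  refine ⟨?_, ?_, s, ?_⟩
  · intro p q
    rw [← Jm_mul_apply (G * A * G') p q, ← Jm_mul_apply (G * A * G') q p, hJB]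
    have hT : (G'ᵀ * (Jm F k * A) * G')ᵀ = G'ᵀ * (Jm F k * A) * G' := by
      rw [Matrix.transpose_mul, Matrix.transpose_mul, Matrix.transpose_transpose, hST]
      simp only [Matrix.mul_assoc]
    have := congrFun (congrFun hT q) p
    rw [Matrix.transpose_apply] at this
    rw [Matrix.smul_apply, Matrix.smul_apply, this]
  · intro hk4 p
    rw [← Jm_mul_apply (G * A * G') p p, hJB, Matrix.smul_apply]
    have hd : ∀ q, (Jm F k * A) q q = 0 := by
      intro q
      rw [Jm_mul_apply]
      exact hdiag hk4 q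
    rw [diag_conj_zero h2 _ _ hS hd p, smul_zero]
  · calc G * A * G' * (G * A * G') = G * (A * (G' * G) * A) * G' := by
          simp only [Matrix.mul_assoc]
      _ = G * (A * A) * G' := by rw [h1', Matrix.mul_one]
      _ = s • (G * G') := by
          rw [hsq, Matrix.mul_smul, Matrix.mul_one, Matrix.smul_mul]
      _ = s • 1 := by rw [h1]

example : Cfsg.Agent.Lib.Helper96.TW.StCConj.{u} := cConj

end Cfsg.Agent.H91.TW
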