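import Cfsg.Agent.Lib.Helper96.TWDefs

/-!
# S5707 team project (helper96), piece S5707-CLIFF

The Clifford space `C F k` (`k ∈ {2, 4}`, characteristic 2) is closed under addition, its
elements have scalar squares and scalar anticommutators, and it contains `Xm`, `Nm`, `Um`.
-/

set_option autoImplicit false

namespace Cfsg.Agent.H91.TW

open Cfsg.Agent.Lib.Helper96.TW Matrix

universe u

variable {F : Type u} [Field F]

/-! ### `k = 2` -/

theorem sq_two (h2 : (2 : F) = 0) (A : Matrix (Fin 2) (Fin 2) F) (h : A 0 0 = A 1 1) :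
    A * A = (A 0 0 ^ 2 + A 0 1 * A 1 0) • (1 : Matrix (Fin 2) (Fin 2) F) := by
  ext i j
  fin_cases i <;> fin_cases j <;>
    simp [Matrix.mul_apply, Fin.sum_univ_two, ← h] <;>
    first
      | ring1
      | linear_combination (A 0 0 * A 0 1) * h2
      | linear_combination (A 0 0 * A 1 0) * h2

theorem mem_C_two (h2 : (2 : F) = 0) (A : Matrix (Fin 2) (Fin 2) F) :
    A ∈ C F 2 ↔ A 0 0 = A 1 1 := by
  constructor
  · rintro ⟨hs, -, -⟩
    exact (hs 0 1).symm
  · intro h
    refine ⟨?_, fun h4 => absurd h4 (by norm_num), _, sq_two h2 A h⟩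
    intro p q
    fin_cases p <;> fin_cases q <;> first | rfl | exact h | exact h.symm

/-! ### `k = 4` -/

theorem sq_four (h2 : (2 : F) = 0) (A : Matrix (Fin 4) (Fin 4) F)
    (hs : ∀ p q, A p.rev q = A q.rev p) (hd : ∀ p, A p.rev p = 0) (h : A 0 0 = A 1 1) :
    A * A = (A 3 1 * A 0 2 + A 3 2 * A 0 1 + A 0 0 ^ 2) • (1 : Matrix (Fin 4) (Fin 4) F) := by
  have e03 : A 0 3 = 0 := hd 3
  have e12 : A 1 2 = 0 := hd 2
  have e21 : A 2 1 = 0 := hd 1
  have e30 : A 3 0 = 0 := hd 0
  have e10 : A 1 0 = A 3 2 := hs 2 0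
  have e20 : A 2 0 = A 3 1 := hs 1 0
  have e13 : A 1 3 = A 0 2 := hs 2 3
  have e23 : A 2 3 = A 0 1 := hs 1 3
  have e33 : A 3 3 = A 0 0 := hs 0 3
  have e22 : A 2 2 = A 1 1 := hs 1 2
  have e11 : A 1 1 = A 0 0 := h.symm
  ext i j
  fin_cases i <;> fin_cases j <;>
    simp [Matrix.mul_apply, Fin.sum_univ_four, e03, e12, e21, e30, e10, e20, e13, e23, e33, e22,
      e11] <;>
    first
      | ring1
      | linear_combination (A 0 0 * A 0 1) * h2
      | linear_combination (A 0 0 * A 0 2) * h2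
      | linear_combination (A 0 1 * A 0 2) * h2
      | linear_combination (A 3 2 * A 0 0) * h2
      | linear_combination (A 3 2 * A 0 2) * h2
      | linear_combination (A 3 1 * A 0 0) * h2
      | linear_combination (A 3 1 * A 0 1) * h2
      | linear_combination (A 3 1 * A 3 2) * h2

theorem mem_C_four (h2 : (2 : F) = 0) (A : Matrix (Fin 4) (Fin 4) F) :
    A ∈ C F 4 ↔ (∀ p q, A p.rev q = A q.rev p) ∧ (∀ p, A p.rev p = 0) ∧ A 0 0 = A 1 1 := by
  constructor
  · rintro ⟨hs, hd, s, hsq⟩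
    have hd := hd rfl
    refine ⟨hs, hd, ?_⟩
    have e03 : A 0 3 = 0 := hd 3
    have e12 : A 1 2 = 0 := hd 2
    have e20 : A 2 0 = A 3 1 := hs 1 0
    have e13 : A 1 3 = A 0 2 := hs 2 3
    have h00 := congrFun (congrFun hsq 0) 0
    have h11 := congrFun (congrFun hsq 1) 1
    simp only [Matrix.mul_apply, Fin.sum_univ_four, Matrix.smul_apply, Matrix.one_apply_eq,
      smul_eq_mul, mul_one] at h00 h11
    have h3 : (A 0 0 - A 1 1) ^ 2 = 0 := by
      linear_combination h00 - h11 - A 0 2 * e20 + A 3 1 * e13 - A 3 0 * e03 + A 2 1 * e12 +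
        (A 1 1 ^ 2 - A 0 0 * A 1 1) * h2
    exact sub_eq_zero.mp ((pow_eq_zero_iff (two_ne_zero)).mp h3)
  · rintro ⟨hs, hd, h⟩
    exact ⟨hs, fun _ => hd, _, sq_four h2 A hs hd h⟩

/-! ### The explicit matrices -/

theorem Nm_mul_Nm (k : ℕ) : Nm F k * Nm F k = 0 := by
  ext p q
  rw [Matrix.mul_apply, Matrix.zero_apply]
  apply Finset.sum_eq_zero
  intro r _
  simp only [Nm]
  by_cases h1 : p.val < k / 2 ∧ r.val = p.val + k / 2
  · rw [if_pos h1, if_neg (by omega), mul_zero]
  · rw [if_neg h1, zero_mul]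

theorem Um_mul_Um (h2 : (2 : F) = 0) (k : ℕ) : Um F k * Um F k = 1 := by
  have hNN : Nm F k + Nm F k = 0 := by rw [← two_smul F (Nm F k), h2, zero_smul]
  have h3 : Um F k * Um F k = 1 + (Nm F k + Nm F k) + Nm F k * Nm F k := by
    simp only [Um, add_mul, mul_add, one_mul, mul_one]
    abel
  rw [h3, hNN, Nm_mul_Nm, add_zero, add_zero]

theorem Xm_mul_Xm {k : ℕ} (hsh : ∀ p : Fin k, sh (sh p) = p) : Xm F k * Xm F k = 1 := by
  ext p q
  rw [Matrix.mul_apply, Finset.sum_eq_single (sh p)]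
  · simp only [Xm, if_true, one_mul, hsh, Matrix.one_apply]
    exact if_congr eq_comm rfl rfl
  · intro r _ hr
    simp only [Xm, if_neg hr, zero_mul]
  · intro h
    exact absurd (Finset.mem_univ _) h

/-- the anticommutator from the squares -/
theorem anticomm_of_sq {n : ℕ} (A B : Matrix (Fin n) (Fin n) F) (a b c : F)
    (hA : A * A = a • (1 : Matrix (Fin n) (Fin n) F)) (hB : B * B = b • (1 : Matrix (Fin n) (Fin n) F))
    (hAB : (A + B) * (A + B) = c • (1 : Matrix (Fin n) (Fin n) F)) :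
    A * B + B * A = (c - a - b) • (1 : Matrix (Fin n) (Fin n) F) := by
  have h3 : A * B + B * A = (A + B) * (A + B) - A * A - B * B := by
    simp only [add_mul, mul_add]
    abel
  rw [h3, hA, hB, hAB, sub_smul, sub_smul]

theorem cliff : StCliff.{u} := by
  intro F _ k h2 hk
  rcases hk with rfl | rfl
  · -- `k = 2`
    have hadd : ∀ A ∈ C F 2, ∀ B ∈ C F 2, A + B ∈ C F 2 := by
      intro A hA B hB
      rw [mem_C_two h2] at hA hB ⊢
      rw [Matrix.add_apply, Matrix.add_apply, hA, hB]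
    have hN : Nm F 2 ∈ C F 2 := by
      rw [mem_C_two h2]
      exact (if_neg (by decide)).trans (if_neg (by decide)).symm
    have h1 : (1 : Matrix (Fin 2) (Fin 2) F) ∈ C F 2 := by
      rw [mem_C_two h2]
      simp
    refine ⟨h1, ?_, hadd, ?_, ?_, hN, hadd _ h1 _ hN, ?_, Nm_mul_Nm 2, Um_mul_Um h2 2⟩
    · rw [mem_C_two h2]
      simp
    · intro A hA B hB
      have hAB := hadd A hA B hB
      rw [mem_C_two h2] at hA hB hAB
      exact ⟨_, anticomm_of_sq A B _ _ _ (sq_two h2 A hA) (sq_two h2 B hB)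
        (sq_two h2 (A + B) hAB)⟩
    · rw [mem_C_two h2]
      exact (if_neg (by decide)).trans (if_neg (by decide)).symm
    · exact Xm_mul_Xm (by decide)
  · -- `k = 4`
    have hadd : ∀ A ∈ C F 4, ∀ B ∈ C F 4, A + B ∈ C F 4 := by
      intro A hA B hB
      rw [mem_C_four h2] at hA hB ⊢
      obtain ⟨hsA, hdA, hA⟩ := hA
      obtain ⟨hsB, hdB, hB⟩ := hB
      refine ⟨?_, ?_, ?_⟩
      · intro p q
        rw [Matrix.add_apply, Matrix.add_apply, hsA, hsB]
      · intro p
        rw [Matrix.add_apply, hdA, hdB, add_zero]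
      · rw [Matrix.add_apply, Matrix.add_apply, hA, hB]
    have hN : Nm F 4 ∈ C F 4 := by
      rw [mem_C_four h2]
      refine ⟨?_, ?_, ?_⟩
      · intro p q
        exact if_congr (by revert p q; decide) rfl rfl
      · intro p
        exact if_neg (by revert p; decide)
      · exact (if_neg (by decide)).trans (if_neg (by decide)).symm
    have h1 : (1 : Matrix (Fin 4) (Fin 4) F) ∈ C F 4 := by
      rw [mem_C_four h2]
      refine ⟨?_, ?_, ?_⟩
      · intro p q
        rw [Matrix.one_apply, Matrix.one_apply]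
        exact if_congr (by revert p q; decide) rfl rfl
      · intro p
        exact Matrix.one_apply_ne (by revert p; decide)
      · simp
    refine ⟨h1, ?_, hadd, ?_, ?_, hN, hadd _ h1 _ hN, ?_, Nm_mul_Nm 4, Um_mul_Um h2 4⟩
    · rw [mem_C_four h2]
      simp
    · intro A hA B hB
      have hAB := hadd A hA B hB
      rw [mem_C_four h2] at hA hB hAB
      exact ⟨_, anticomm_of_sq A B _ _ _ (sq_four h2 A hA.1 hA.2.1 hA.2.2)
        (sq_four h2 B hB.1 hB.2.1 hB.2.2) (sq_four h2 (A + B) hAB.1 hAB.2.1 hAB.2.2)⟩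
    · rw [mem_C_four h2]
      refine ⟨?_, ?_, ?_⟩
      · intro p q
        exact if_congr (by revert p q; decide) rfl rfl
      · intro p
        exact if_neg (by revert p; decide)
      · exact (if_neg (by decide)).trans (if_neg (by decide)).symm
    · exact Xm_mul_Xm (by decide)

example : Cfsg.Agent.Lib.Helper96.TW.StCliff.{u} := cliff

end Cfsg.Agent.H91.TW
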