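import Mathlib
import Cfsg.Prelude.Def_Solvable
import Cfsg.Agent.S0023
import Cfsg.Agent.H58.Prod

/-!
# A class of involutions with products of `p`-power order, modulo a Z*-type hypothesis

`tp_of_odd_normal`: if `d` is an involution of the finite group `G`, all products of two conjugates
of `d` have order a power of the odd prime `p`, and some normal subgroup of odd order contains all
commutators `[d, g]`, then all products of two conjugates of `d` lie in `O_p(G)`.
-/

set_option autoImplicit false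

namespace Cfsg.Agent.H91

section tp

variable {G : Type*} [Group G]

/-- two involutions whose product has odd order are conjugate by a power of the product -/
theorem conj_of_odd_prod {d e : G} (hd : d * d = 1) (he : e * e = 1) (m : ℕ)
    (hm : (d * e) ^ (2 * m + 1) = 1) : (d * e) ^ m * d * ((d * e) ^ m)⁻¹ = e := by
  have hdinv : d⁻¹ = d := inv_eq_of_mul_eq_one_right hd
  have h1 : d * (d * e) * d⁻¹ = (d * e)⁻¹ := by
    rw [hdinv]
    apply eq_inv_of_mul_eq_one_left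
    calc d * (d * e) * d * (d * e) = (d * d) * e * (d * d) * e := by group
      _ = 1 := by rw [hd, one_mul, mul_one, he]
  have h2 : d * ((d * e) ^ m)⁻¹ * d⁻¹ = (d * e) ^ m := by
    rw [← inv_pow, ← conj_pow, ← conj_inv, h1, inv_inv]
  have h3 : (d * e) ^ m * (d * e) ^ m = (d * e)⁻¹ := by
    apply eq_inv_of_mul_eq_one_left
    rw [← pow_add, ← pow_succ, ← hm]
    congr 1
    omega
  calc (d * e) ^ m * d * ((d * e) ^ m)⁻¹
      = (d * e) ^ m * (d * ((d * e) ^ m)⁻¹ * d⁻¹) * d := by group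
    _ = (d * e) ^ m * (d * e) ^ m * d := by rw [h2]
    _ = (d * e)⁻¹ * d := by rw [h3]
    _ = e⁻¹ * (d⁻¹ * d) := by group
    _ = e := by rw [inv_mul_cancel, mul_one]; exact inv_eq_of_mul_eq_one_right he

theorem card_ineq {p r c a i : ℕ} (hp : p.Prime) (hr : r ≠ 0) (hc : c ≠ 0)
    (ha : a = p ^ r.factorization p) (hia : i ∣ a) (hic : i ∣ c)
    (hq : ∀ q : ℕ, q.Prime → q ≠ p → q ^ r.factorization q ∣ c) : r * i ≤ a * c := by
  have ha0 : a ≠ 0 := by rw [ha]; exact pow_ne_zero _ hp.ne_zero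
  have hi0 : i ≠ 0 := fun h => ha0 (by rw [h] at hia; exact zero_dvd_iff.mp hia)
  obtain ⟨t, -, ht⟩ := (Nat.dvd_prime_pow hp).mp (ha ▸ hia)
  apply Nat.le_of_dvd (Nat.pos_of_ne_zero (mul_ne_zero ha0 hc))
  rw [← Nat.factorization_le_iff_dvd (mul_ne_zero hr hi0) (mul_ne_zero ha0 hc)]
  intro q
  rw [Nat.factorization_mul hr hi0, Nat.factorization_mul ha0 hc]
  simp only [Finsupp.coe_add, Pi.add_apply]
  by_cases hqp : q.Prime
  · by_cases hqe : q = p
    · subst hqe
      have h1 : a.factorization q = r.factorization q := by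
        rw [ha, Nat.Prime.factorization_pow hp]
        simp
      have h2 : i.factorization q ≤ c.factorization q :=
        (Nat.factorization_le_iff_dvd hi0 hc).mpr hic q
      omega
    · have h1 : i.factorization q = 0 := by
        rw [ht, Nat.Prime.factorization_pow hp]
        simp [Ne.symm hqe]
      have h2 : r.factorization q ≤ c.factorization q :=
        (Nat.Prime.pow_dvd_iff_le_factorization hqp hc).mp (hq q hqp hqe)
      omega
  · rw [Nat.factorization_eq_zero_of_not_prime _ hqp, Nat.factorization_eq_zero_of_not_prime _ hqp]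
    omega

theorem tp_of_odd_normal [Finite G] {p : ℕ} (hp : p.Prime) (hp2 : p ≠ 2) (d : G)
    (hd : orderOf d = 2)
    (hprod : ∀ a ∈ conjugatesOf d, ∀ b ∈ conjugatesOf d, ∃ k : ℕ, orderOf (a * b) = p ^ k)
    (N : Subgroup G) (hN : N.Normal) (hodd : Odd (Nat.card N))
    (hcomm : ∀ g : G, d * g * d⁻¹ * g⁻¹ ∈ N) :
    ∀ a ∈ conjugatesOf d, ∀ b ∈ conjugatesOf d, a * b ∈ Cfsg.pCore p G := by
  classical
  have : Fact p.Prime := ⟨hp⟩
  have hdd : d * d = 1 := by rw [← pow_two, ← hd, pow_orderOf_eq_one]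
  have hdinv : d⁻¹ = d := inv_eq_of_mul_eq_one_right hdd
  have hdmem : d ∈ conjugatesOf d := mem_conjugatesOf_self
  have hconj : ∀ e ∈ conjugatesOf d, ∃ g : G, g * d * g⁻¹ = e := fun e he =>
    isConj_iff.mp he
  have hinv : ∀ e ∈ conjugatesOf d, e * e = 1 := by
    intro e he
    obtain ⟨g, rfl⟩ := hconj e he
    calc g * d * g⁻¹ * (g * d * g⁻¹) = g * (d * d) * g⁻¹ := by group
      _ = 1 := by rw [hdd]; group
  set S : Set G := {x | ∃ a ∈ conjugatesOf d, ∃ b ∈ conjugatesOf d, x = a * b} with hS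
  set R : Subgroup G := Subgroup.normalClosure S with hR
  have hRn : R.Normal := Subgroup.normalClosure_normal
  -- R ≤ N
  have hSN : S ⊆ (N : Set G) := by
    rintro x ⟨a, ha, b, hb, rfl⟩
    obtain ⟨g, rfl⟩ := hconj a ha
    obtain ⟨h, rfl⟩ := hconj b hb
    have h1 : g * d * g⁻¹ * d⁻¹ ∈ N := by
      have := N.inv_mem (hcomm g)
      have e : (d * g * d⁻¹ * g⁻¹)⁻¹ = g * d * g⁻¹ * d⁻¹ := by group
      rwa [e] at this
    have h2 : h * d * h⁻¹ * d⁻¹ ∈ N := by
      have := N.inv_mem (hcomm h)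
      have e : (d * h * d⁻¹ * h⁻¹)⁻¹ = h * d * h⁻¹ * d⁻¹ := by group
      rwa [e] at this
    have h3 : d * (h * d * h⁻¹ * d⁻¹) * d⁻¹ ∈ N := hN.conj_mem _ h2 d
    have e : g * d * g⁻¹ * (h * d * h⁻¹) =
        (g * d * g⁻¹ * d⁻¹) * (d * (h * d * h⁻¹ * d⁻¹) * d⁻¹) * (d * d) := by group
    show g * d * g⁻¹ * (h * d * h⁻¹) ∈ N
    rw [e, hdd, mul_one]
    exact N.mul_mem h1 h3
  have hRN : R ≤ N := Subgroup.normalClosure_le_normal hSN
  have hRodd : Odd (Nat.card R) := by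
    obtain ⟨k, hk⟩ := Subgroup.card_dvd_of_le hRN
    rw [hk] at hodd
    exact (Nat.odd_mul.mp hodd).1
  have hR0 : Nat.card R ≠ 0 := Nat.card_pos.ne'
  -- the acting group
  set A : Subgroup G := Subgroup.zpowers d with hA
  have hAR : A ≤ Subgroup.normalizer (R : Set G) := by
    rw [Subgroup.normalizer_eq_top]; exact le_top
  have hAcard : Nat.card A = 2 := by rw [hA, Nat.card_zpowers, hd]
  have hcop : (Nat.card A).Coprime (Nat.card R) := by
    rw [hAcard]
    exact (Nat.coprime_two_left).mpr hRodd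
  have hsolv : Group.IsSolvable A :=
    Group.isSolvable_of_comm (fun a b => (Subgroup.zpowers_isMulCommutative d).is_comm.comm a b)
  have hdA : d ∈ A := Subgroup.mem_zpowers d
  -- invariant Sylow subgroups
  have hsyl : ∀ q : ℕ, q.Prime → ∃ Q : Subgroup G, Q ≤ R ∧ IsPGroup q Q ∧
      Nat.card Q = q ^ (Nat.card R).factorization q ∧ d ∈ Subgroup.normalizer (Q : Set G) := by
    intro q hq
    have : Fact q.Prime := ⟨hq⟩
    obtain ⟨Q, hQ⟩ := Cfsg.Agent.S0023.result A R hAR hcop (Or.inl hsolv) q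
    refine ⟨(Q : Subgroup R).map R.subtype, ?_, ?_, ?_, hQ hdA⟩
    · rintro _ ⟨y, -, rfl⟩
      exact y.2
    · exact Q.isPGroup'.map R.subtype
    · rw [Subgroup.card_map_of_injective R.subtype_injective]
      exact Q.card_eq_multiplicity
  -- products of two conjugates commute appropriately
  have hcent : ∀ q : ℕ, q.Prime → q ≠ p → ∀ Q : Subgroup G, IsPGroup q Q →
      d ∈ Subgroup.normalizer (Q : Set G) → ∀ y ∈ Q, d * y = y * d := by
    intro q hq hqp Q hQ hdQ y hy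
    have hz : d * y * d⁻¹ * y⁻¹ ∈ Q :=
      Q.mul_mem ((Subgroup.mem_normalizer_iff.mp hdQ y).mp hy) (Q.inv_mem hy)
    obtain ⟨k, hk⟩ := hQ ⟨d * y * d⁻¹ * y⁻¹, hz⟩
    have hk' : (d * y * d⁻¹ * y⁻¹) ^ q ^ k = 1 := by
      have := congrArg Subtype.val hk
      simpa using this
    have e : d * y * d⁻¹ * y⁻¹ = d * (y * d * y⁻¹) := by rw [hdinv]; group
    obtain ⟨l, hl⟩ := hprod d hdmem (y * d * y⁻¹)
      (isConj_iff.mpr ⟨y, rfl⟩)
    rw [← e] at hl
    have h1 : orderOf (d * y * d⁻¹ * y⁻¹) ∣ q ^ k := orderOf_dvd_of_pow_eq_one hk'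
    rw [hl] at h1
    have h2 : p ^ l = 1 := by
      have hcop' : Nat.Coprime (p ^ l) (q ^ k) :=
        Nat.Coprime.pow _ _ ((Nat.coprime_primes hp hq).mpr (Ne.symm hqp))
      exact Nat.eq_one_of_dvd_coprimes hcop' dvd_rfl h1
    rw [h2] at hl
    have h3 : d * y * d⁻¹ * y⁻¹ = 1 := orderOf_eq_one_iff.mp hl
    have h4 : d * y = y * d := by
      calc d * y = (d * y * d⁻¹ * y⁻¹) * y * d := by group
        _ = y * d := by rw [h3, one_mul]
    exact h4
  -- the centralizer of d in R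
  set C : Subgroup G := R ⊓ Subgroup.centralizer {d} with hC
  have hCR : C ≤ R := inf_le_left
  have hC0 : Nat.card C ≠ 0 := Nat.card_pos.ne'
  obtain ⟨P, hPR, hPp, hPcard, hdP⟩ := hsyl p hp
  -- R = P C
  have hfac : ∀ r ∈ R, ∃ x ∈ P, ∃ c ∈ C, r = x * c := by
    apply Cfsg.Agent.H58.exists_mul_of_card_le R P C hPR hCR
    apply card_ineq hp hR0 hC0 hPcard (Subgroup.card_dvd_of_le inf_le_left)
      (Subgroup.card_dvd_of_le inf_le_right)
    intro q hq hqp
    obtain ⟨Q, hQR, hQq, hQcard, hdQ⟩ := hsyl q hq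
    rw [← hQcard]
    apply Subgroup.card_dvd_of_le
    intro y hy
    refine Subgroup.mem_inf.mpr ⟨hQR hy, ?_⟩
    rw [Subgroup.mem_centralizer_iff]
    intro h hh
    rw [Set.mem_singleton_iff] at hh
    subst hh
    exact hcent q hq hqp Q hQq hdQ y hy
  -- every conjugate is a P-conjugate
  have hDP : ∀ e ∈ conjugatesOf d, ∃ x ∈ P, e = x * d * x⁻¹ := by
    intro e he
    obtain ⟨k, hk⟩ := hprod d hdmem e he
    have hoddk : Odd (p ^ k) := (hp.odd_of_ne_two hp2).pow
    obtain ⟨m, hm⟩ := hoddk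
    have hpow : (d * e) ^ (2 * m + 1) = 1 := by
      rw [← hm, ← hk]; exact pow_orderOf_eq_one _
    have hwR : d * e ∈ R := Subgroup.subset_normalClosure ⟨d, hdmem, e, he, rfl⟩
    obtain ⟨x, hx, c, hc, hxc⟩ := hfac _ (R.pow_mem hwR m)
    refine ⟨x, hx, ?_⟩
    have hcd : c * d = d * c := by
      have := (Subgroup.mem_centralizer_iff.mp (Subgroup.mem_inf.mp hc).2) d rfl
      exact this.symm
    have h := conj_of_odd_prod hdd (hinv e he) m hpow
    rw [hxc] at h
    rw [← h]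
    calc x * c * d * (x * c)⁻¹ = x * (c * d) * c⁻¹ * x⁻¹ := by group
      _ = x * d * x⁻¹ := by rw [hcd]; group
  -- products of two conjugates lie in P
  have hprodP : ∀ a ∈ conjugatesOf d, ∀ b ∈ conjugatesOf d, a * b ∈ P := by
    intro a ha b hb
    obtain ⟨x, hx, rfl⟩ := hDP a ha
    obtain ⟨y, hy, rfl⟩ := hDP b hb
    have h1 : d * (x⁻¹ * y) * d⁻¹ ∈ P :=
      (Subgroup.mem_normalizer_iff.mp hdP _).mp (P.mul_mem (P.inv_mem hx) hy)
    have e : x * d * x⁻¹ * (y * d * y⁻¹) = x * (d * (x⁻¹ * y) * d⁻¹) * (d * d) * y⁻¹ := by group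
    rw [e, hdd, mul_one]
    exact P.mul_mem (P.mul_mem hx h1) (P.inv_mem hy)
  have hRP : R ≤ P := by
    rw [hR, Subgroup.normalClosure, Subgroup.closure_le]
    intro x hx
    obtain ⟨s, hs, hxs⟩ := Group.mem_conjugatesOfSet_iff.mp hx
    obtain ⟨a, ha, b, hb, rfl⟩ := hs
    obtain ⟨g, rfl⟩ := isConj_iff.mp hxs
    have e : g * (a * b) * g⁻¹ = (g * a * g⁻¹) * (g * b * g⁻¹) := by group
    rw [SetLike.mem_coe, e]
    apply hprodP
    · obtain ⟨u, rfl⟩ := hconj a ha
      exact isConj_iff.mpr ⟨g * u, by group⟩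
    · obtain ⟨u, rfl⟩ := hconj b hb
      exact isConj_iff.mpr ⟨g * u, by group⟩
  have hRp : IsPGroup p R := hPp.to_le hRP
  intro a ha b hb
  have hab : a * b ∈ R := Subgroup.subset_normalClosure ⟨a, ha, b, hb, rfl⟩
  exact (le_sSup (show R ∈ {N : Subgroup G | N.Normal ∧ IsPGroup p N} from ⟨hRn, hRp⟩)) hab

/-- the statement of the Z*-theorem for the group `G`, as a hypothesis -/
def ZStar (G : Type*) [Group G] : Prop :=
  ∀ (P : Sylow 2 G) (u : G), orderOf u = 2 → u ∈ P →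
    (∀ g : G, g * u * g⁻¹ ∈ P → g * u * g⁻¹ = u) →
    ∃ N : Subgroup G, N.Normal ∧ Odd (Nat.card N) ∧ ∀ g : G, u * g * u⁻¹ * g⁻¹ ∈ N

/-- the Z*-type theorem for an odd prime, from the Z*-theorem -/
theorem tp_of_zstar [Finite G] (hZ : ZStar G) {p : ℕ} (hp : p.Prime) (hp2 : p ≠ 2) (d : G)
    (hd : orderOf d = 2)
    (hprod : ∀ a ∈ conjugatesOf d, ∀ b ∈ conjugatesOf d, ∃ k : ℕ, orderOf (a * b) = p ^ k) :
    ∀ a ∈ conjugatesOf d, ∀ b ∈ conjugatesOf d, a * b ∈ Cfsg.pCore p G := by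
  have hdd : d * d = 1 := by rw [← pow_two, ← hd, pow_orderOf_eq_one]
  have h2 : IsPGroup 2 (Subgroup.zpowers d) :=
    IsPGroup.of_card (n := 1) (by rw [Nat.card_zpowers, hd, pow_one])
  obtain ⟨P, hP⟩ := h2.exists_le_sylow
  have hdP : d ∈ P := hP (Subgroup.mem_zpowers d)
  obtain ⟨N, hN, hodd, hcomm⟩ := hZ P d hd hdP (by
    intro g hg
    have hx : d * (g * d * g⁻¹) ∈ (P : Subgroup G) := mul_mem hdP hg
    obtain ⟨k, hk⟩ := P.isPGroup' ⟨d * (g * d * g⁻¹), hx⟩
    have hk' : (d * (g * d * g⁻¹)) ^ 2 ^ k = 1 := by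
      have := congrArg Subtype.val hk
      simpa using this
    obtain ⟨l, hl⟩ := hprod d mem_conjugatesOf_self (g * d * g⁻¹) (isConj_iff.mpr ⟨g, rfl⟩)
    have h1 : orderOf (d * (g * d * g⁻¹)) ∣ 2 ^ k := orderOf_dvd_of_pow_eq_one hk'
    rw [hl] at h1
    have h3 : p ^ l = 1 := by
      have hcop' : Nat.Coprime (p ^ l) (2 ^ k) :=
        Nat.Coprime.pow _ _ ((Nat.coprime_primes hp Nat.prime_two).mpr hp2)
      exact Nat.eq_one_of_dvd_coprimes hcop' dvd_rfl h1
    rw [h3] at hl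
    have h4 : d * (g * d * g⁻¹) = 1 := orderOf_eq_one_iff.mp hl
    calc g * d * g⁻¹ = (d * d) * (g * d * g⁻¹) := by rw [hdd, one_mul]
      _ = d * (d * (g * d * g⁻¹)) := by group
      _ = d := by rw [h4, mul_one])
  exact tp_of_odd_normal hp hp2 d hd hprod N hN hodd hcomm

/-- a group generated by a class of involutions with products of `p`-power order is
`O_p(G)⟨d⟩` -/
theorem sup_pCore_of_zstar [Finite G] (hZ : ZStar G) {p : ℕ} (hp : p.Prime) (hp2 : p ≠ 2) (d : G)
    (hd : orderOf d = 2)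
    (hprod : ∀ a ∈ conjugatesOf d, ∀ b ∈ conjugatesOf d, ∃ k : ℕ, orderOf (a * b) = p ^ k)
    (hgen : Subgroup.closure (conjugatesOf d) = ⊤) :
    Subgroup.zpowers d ⊔ Cfsg.pCore p G = ⊤ := by
  have hdd : d * d = 1 := by rw [← pow_two, ← hd, pow_orderOf_eq_one]
  have key := tp_of_zstar hZ hp hp2 d hd hprod
  rw [eq_top_iff, ← hgen, Subgroup.closure_le]
  intro e he
  have h1 : d * e ∈ Cfsg.pCore p G := key d mem_conjugatesOf_self e he
  have h2 : e = d * (d * e) := by
    calc e = (d * d) * e := by rw [hdd, one_mul]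
      _ = d * (d * e) := by group
  rw [SetLike.mem_coe, h2]
  exact Subgroup.mul_mem_sup (Subgroup.mem_zpowers d) h1

/-- if `G = ⟨d⟩ K` with `K` normal then the commutator subgroup lies in `K` -/
theorem commutator_le_of_zpowers_sup (d : G) (K : Subgroup G) [hK : K.Normal]
    (h : Subgroup.zpowers d ⊔ K = ⊤) : commutator G ≤ K := by
  have hmem : ∀ x : G, ∃ n : ℤ, QuotientGroup.mk' K x = QuotientGroup.mk' K d ^ n := by
    intro x
    have hx : x ∈ ((Subgroup.zpowers d ⊔ K : Subgroup G) : Set G) := by rw [h]; trivial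
    rw [Subgroup.mul_normal] at hx
    obtain ⟨y, hy, z, hz, rfl⟩ := Set.mem_mul.mp hx
    obtain ⟨n, rfl⟩ := Subgroup.mem_zpowers_iff.mp hy
    refine ⟨n, ?_⟩
    have hz1 : QuotientGroup.mk' K z = 1 := (QuotientGroup.eq_one_iff z).mpr hz
    rw [map_mul, map_zpow, hz1, mul_one]
  rw [commutator_def, Subgroup.commutator_le]
  intro x _ y _
  obtain ⟨n, hn⟩ := hmem x
  obtain ⟨m, hm⟩ := hmem y
  rw [← QuotientGroup.eq_one_iff, ← QuotientGroup.mk'_apply, commutatorElement_def, map_mul,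
    map_mul, map_mul, map_inv, map_inv, hn, hm]
  have hc : Commute (QuotientGroup.mk' K d ^ n) (QuotientGroup.mk' K d ^ m) :=
    (Commute.refl _).zpow_zpow n m
  rw [hc.eq]
  group

/-- Fischer: a group generated by a class of involutions whose pairwise products have order a
power of the odd prime `p` has nilpotent commutator subgroup (from the Z*-theorem) -/
theorem nilpotent_commutator_of_zstar [Finite G] (hZ : ZStar G) (p : ℕ) (hp : p.Prime)
    (hodd : p ≠ 2) {D : Set G} (hinv : ∀ d ∈ D, orderOf d = 2)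
    (hconj : ∃ d ∈ D, D = conjugatesOf d) (hgen : Subgroup.closure D = ⊤)
    (hprod : ∀ x ∈ D, ∀ y ∈ D, x ≠ y → ∃ k : ℕ, orderOf (x * y) = p ^ k) :
    Group.IsNilpotent ↥(commutator G) := by
  have : Fact p.Prime := ⟨hp⟩
  obtain ⟨d, hdD, hDeq⟩ := hconj
  have hd : orderOf d = 2 := hinv d hdD
  have hprod' : ∀ a ∈ conjugatesOf d, ∀ b ∈ conjugatesOf d, ∃ k : ℕ, orderOf (a * b) = p ^ k := by
    intro a ha b hb
    by_cases hab : a = b
    · subst hab
      refine ⟨0, ?_⟩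
      have ha2 : orderOf a = 2 := hinv a (hDeq ▸ ha)
      have : a * a = 1 := by rw [← pow_two, ← ha2, pow_orderOf_eq_one]
      rw [this, orderOf_one, pow_zero]
    · exact hprod a (hDeq ▸ ha) b (hDeq ▸ hb) hab
  have hsup := sup_pCore_of_zstar hZ hp hodd d hd hprod' (hDeq ▸ hgen)
  have hKn : (Cfsg.pCore p G).Normal := Subgroup.sSup_normal _ (fun _ hH => hH.1)
  have hKp : IsPGroup p (Cfsg.pCore p G) :=
    Sylow.sSup_of_normal _ (fun _ hH => hH.2) (fun _ hH => hH.1)
  have hle := commutator_le_of_zpowers_sup d (Cfsg.pCore p G) hsup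
  have hcp : IsPGroup p ↥(commutator G) := hKp.to_le hle
  exact hcp.isNilpotent

/-- the Z*-type statement for the odd prime `p` and the group `G`, as a hypothesis
(= the statement of S5560 for the one group `G`) -/
def TP (G : Type*) [Group G] (p : ℕ) : Prop :=
  ∀ d : G, orderOf d = 2 →
    (∀ a ∈ conjugatesOf d, ∀ b ∈ conjugatesOf d, ∃ k : ℕ, orderOf (a * b) = p ^ k) →
    ∀ a ∈ conjugatesOf d, ∀ b ∈ conjugatesOf d, a * b ∈ Cfsg.pCore p G

theorem tp_of_zstar' [Finite G] (hZ : ZStar G) {p : ℕ} (hp : p.Prime) (hp2 : p ≠ 2) : TP G p :=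
  fun d hd hprod => tp_of_zstar hZ hp hp2 d hd hprod

theorem sup_pCore_of_tp {p : ℕ} (hT : TP G p) (d : G) (hd : orderOf d = 2)
    (hprod : ∀ a ∈ conjugatesOf d, ∀ b ∈ conjugatesOf d, ∃ k : ℕ, orderOf (a * b) = p ^ k)
    (hgen : Subgroup.closure (conjugatesOf d) = ⊤) :
    Subgroup.zpowers d ⊔ Cfsg.pCore p G = ⊤ := by
  have hdd : d * d = 1 := by rw [← pow_two, ← hd, pow_orderOf_eq_one]
  have key := hT d hd hprod
  rw [eq_top_iff, ← hgen, Subgroup.closure_le]
  intro e he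
  have h1 : d * e ∈ Cfsg.pCore p G := key d mem_conjugatesOf_self e he
  have h2 : e = d * (d * e) := by
    calc e = (d * d) * e := by rw [hdd, one_mul]
      _ = d * (d * e) := by group
  rw [SetLike.mem_coe, h2]
  exact Subgroup.mul_mem_sup (Subgroup.mem_zpowers d) h1

/-- Fischer's theorem (statement of S1618) from the Z*-type statement `TP G p` -/
theorem nilpotent_commutator_of_tp [Finite G] (p : ℕ) (hT : TP G p) (hp : p.Prime)
    {D : Set G} (hinv : ∀ d ∈ D, orderOf d = 2)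
    (hconj : ∃ d ∈ D, D = conjugatesOf d) (hgen : Subgroup.closure D = ⊤)
    (hprod : ∀ x ∈ D, ∀ y ∈ D, x ≠ y → ∃ k : ℕ, orderOf (x * y) = p ^ k) :
    Group.IsNilpotent ↥(commutator G) := by
  have : Fact p.Prime := ⟨hp⟩
  obtain ⟨d, hdD, hDeq⟩ := hconj
  have hd : orderOf d = 2 := hinv d hdD
  have hprod' : ∀ a ∈ conjugatesOf d, ∀ b ∈ conjugatesOf d, ∃ k : ℕ, orderOf (a * b) = p ^ k := by
    intro a ha b hb
    by_cases hab : a = b
    · subst hab
      refine ⟨0, ?_⟩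
      have ha2 : orderOf a = 2 := hinv a (hDeq ▸ ha)
      have : a * a = 1 := by rw [← pow_two, ← ha2, pow_orderOf_eq_one]
      rw [this, orderOf_one, pow_zero]
    · exact hprod a (hDeq ▸ ha) b (hDeq ▸ hb) hab
  have hsup := sup_pCore_of_tp hT d hd hprod' (hDeq ▸ hgen)
  have hKn : (Cfsg.pCore p G).Normal := Subgroup.sSup_normal _ (fun _ hH => hH.1)
  have hKp : IsPGroup p (Cfsg.pCore p G) :=
    Sylow.sSup_of_normal _ (fun _ hH => hH.2) (fun _ hH => hH.1)
  have hle := commutator_le_of_zpowers_sup d (Cfsg.pCore p G) hsup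
  have hcp : IsPGroup p ↥(commutator G) := hKp.to_le hle
  exact hcp.isNilpotent

end tp

end Cfsg.Agent.H91
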