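import Cfsg.Agent.H91.TpZStar
import Cfsg.Agent.S5345

/-!
# Width-one 3-transposition groups, modulo the Z*-theorem
-/

set_option autoImplicit false

namespace Cfsg.Agent.H91

open Cfsg

section width

variable {G : Type*} [Group G]

theorem zpowers_two {d y : G} (hd : d * d = 1) (hy : y ∈ Subgroup.zpowers d) : y = 1 ∨ y = d := by
  obtain ⟨n, rfl⟩ := Subgroup.mem_zpowers_iff.mp hy
  rcases Int.even_or_odd' n with ⟨k, rfl | rfl⟩
  · left
    rw [zpow_mul, zpow_two, hd, one_zpow]
  · right
    rw [zpow_add, zpow_mul, zpow_two, hd, one_zpow, one_mul, zpow_one]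

/-- width one: no two different members commute -/
theorem width_one_iff_of_zstar [Finite G] (hZ : ZStar G) {D : Set G}
    (hD : Cfsg.IsThreeTranspositionGroup D) {d : G} (hd : d ∈ D) :
    Cfsg.commutingWidth D = 1 ↔ Subgroup.zpowers d ⊔ Cfsg.pCore 3 G = ⊤ := by
  have hD' := hD
  obtain ⟨hD3, hDconj, hDgen⟩ := hD
  have hinv : ∀ e ∈ D, e * e = 1 := by
    intro e he
    rw [← pow_two, ← hD3.1 e he, pow_orderOf_eq_one]
  have hdd := hinv d hd
  have h2 : IsPGroup 2 (Subgroup.zpowers d) :=
    IsPGroup.of_card (n := 1) (by rw [Nat.card_zpowers, hD3.1 d hd, pow_one])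
  have h3p : Nat.Prime 3 := by norm_num
  have : Fact (Nat.Prime 3) := ⟨h3p⟩
  constructor
  · intro hw
    -- no two different members of D commute
    have hnc : ∀ a ∈ D, ∀ b ∈ D, a * b = b * a → a = b := by
      intro a ha b hb hab
      by_contra hne
      -- the subgroup generated by a and b is a 2-group
      have hsq : ∀ x ∈ Subgroup.closure ({a, b} : Set G), x ^ 2 = 1 := by
        intro x hx
        have hcomm : IsMulCommutative (Subgroup.closure ({a, b} : Set G)) :=
          Subgroup.isMulCommutative_closure (by
            intro u hu v hv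
            rcases hu with rfl | rfl <;> rcases hv with rfl | rfl
            · rfl
            · exact hab
            · exact hab.symm
            · rfl)
        induction hx using Subgroup.closure_induction with
        | mem x hx =>
          rcases hx with rfl | rfl
          · rw [pow_two]; exact hinv _ ha
          · rw [pow_two]; exact hinv _ hb
        | one => simp
        | mul x y hx hy ihx ihy =>
          have hc : Commute x y := by
            have := mul_comm' (⟨x, hx⟩ : Subgroup.closure ({a, b} : Set G)) ⟨y, hy⟩
            exact congrArg Subtype.val this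
          rw [hc.mul_pow, ihx, ihy, one_mul]
        | inv x hx ih => rw [inv_pow, ih, inv_one]
      have hp : IsPGroup 2 (Subgroup.closure ({a, b} : Set G)) := by
        intro x
        refine ⟨1, ?_⟩
        apply Subtype.ext
        have := hsq x x.2
        simpa using this
      obtain ⟨T, hT⟩ := hp.exists_le_sylow
      have hres := (Cfsg.Agent.S5345.result hD' T).2
      rw [hw] at hres
      have haT : a ∈ {d : G | d ∈ D ∧ d ∈ T} :=
        ⟨ha, hT (Subgroup.subset_closure (Set.mem_insert _ _))⟩
      have hbT : b ∈ {d : G | d ∈ D ∧ d ∈ T} :=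
        ⟨hb, hT (Subgroup.subset_closure (Set.mem_insert_of_mem _ rfl))⟩
      obtain ⟨c, hc⟩ := Set.ncard_eq_one.mp hres
      rw [hc] at haT hbT
      exact hne (haT.trans hbT.symm)
    -- all products have 3-power order
    have hord : ∀ a ∈ D, ∀ b ∈ D, ∃ k : ℕ, orderOf (a * b) = 3 ^ k := by
      intro a ha b hb
      by_cases hab : a = b
      · subst hab
        exact ⟨0, by rw [hinv a ha, orderOf_one, pow_zero]⟩
      · have h3 : (a * b) ^ 3 = 1 := by
          rcases hD3.2 a ha b hb with h | h
          · exfalso
            apply hab
            apply hnc a ha b hb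
            have h5 : a * b * (a * b) = 1 := by rw [← pow_two]; exact h
            calc a * b = a * b * (a * b) * (b * a) := by
                  rw [show a * b * (a * b) * (b * a) = a * b * (a * (b * b) * a) by group,
                    hinv b hb, mul_one, hinv a ha, mul_one]
              _ = b * a := by rw [h5, one_mul]
          · exact h
        have hdvd : orderOf (a * b) ∣ 3 ^ 1 := by
          rw [pow_one]; exact orderOf_dvd_of_pow_eq_one h3
        obtain ⟨k, -, hk⟩ := (Nat.dvd_prime_pow h3p).mp hdvd
        exact ⟨k, hk⟩
    -- D is the class of d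
    have hDd : D = conjugatesOf d := by
      ext e
      constructor
      · intro he
        have h3 : (d * e) ^ (2 * 1 + 1) = 1 := by
          obtain ⟨k, hk⟩ := hord d hd e he
          rcases hD3.2 d hd e he with h | h
          · have h1 : orderOf (d * e) ∣ 2 := orderOf_dvd_of_pow_eq_one h
            rw [hk] at h1
            have h4 : 3 ^ k = 1 := by
              have hcop' : Nat.Coprime (3 ^ k) 2 := Nat.Coprime.pow_left _ (by norm_num)
              exact Nat.eq_one_of_dvd_coprimes hcop' dvd_rfl h1
            rw [h4] at hk
            rw [orderOf_eq_one_iff.mp hk, one_pow]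
          · exact h
        have := conj_of_odd_prod hdd (hinv e he) 1 h3
        exact isConj_iff.mpr ⟨(d * e) ^ 1, this⟩
      · intro he
        obtain ⟨g, rfl⟩ := isConj_iff.mp he
        exact hDconj g d hd
    have hprod : ∀ a ∈ conjugatesOf d, ∀ b ∈ conjugatesOf d, ∃ k : ℕ, orderOf (a * b) = 3 ^ k := by
      rw [← hDd]; exact hord
    exact sup_pCore_of_zstar hZ h3p (by norm_num) d (hD3.1 d hd) hprod (hDd ▸ hDgen)
  · intro hsup
    have hKn : (Cfsg.pCore 3 G).Normal := Subgroup.sSup_normal _ (fun _ hH => hH.1)
    have hKp : IsPGroup 3 (Cfsg.pCore 3 G) :=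
      Sylow.sSup_of_normal _ (fun _ hH => hH.2) (fun _ hH => hH.1)
    obtain ⟨T, hT⟩ := h2.exists_le_sylow
    have hdT : d ∈ T := hT (Subgroup.mem_zpowers d)
    rw [← (Cfsg.Agent.S5345.result hD' T).2]
    have hset : {e : G | e ∈ D ∧ e ∈ T} = {d} := by
      ext e
      constructor
      · rintro ⟨heD, heT⟩
        have hx : e ∈ ((Subgroup.zpowers d ⊔ Cfsg.pCore 3 G : Subgroup G) : Set G) := by
          rw [hsup]; trivial
        rw [Subgroup.mul_normal] at hx
        obtain ⟨y, hy, z, hz, hyz⟩ := Set.mem_mul.mp hx
        -- elements of the 3-core of 2-power order are trivial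
        have htriv : ∀ w : G, w ∈ Cfsg.pCore 3 G → w ∈ (T : Subgroup G) → w = 1 := by
          intro w hwK hwT
          obtain ⟨k, hk⟩ := hKp ⟨w, hwK⟩
          obtain ⟨l, hl⟩ := T.isPGroup' ⟨w, hwT⟩
          have hk' : w ^ 3 ^ k = 1 := by
            have := congrArg Subtype.val hk
            simpa using this
          have hl' : w ^ 2 ^ l = 1 := by
            have := congrArg Subtype.val hl
            simpa using this
          have h1 : orderOf w ∣ 3 ^ k := orderOf_dvd_of_pow_eq_one hk'
          have h2' : orderOf w ∣ 2 ^ l := orderOf_dvd_of_pow_eq_one hl'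
          have hcop' : Nat.Coprime (3 ^ k) (2 ^ l) := Nat.Coprime.pow _ _ (by norm_num)
          exact orderOf_eq_one_iff.mp (Nat.eq_one_of_dvd_coprimes hcop' h1 h2')
        rcases zpowers_two hdd hy with rfl | rfl
        · rw [one_mul] at hyz
          subst hyz
          have he1 := htriv z hz heT
          have := hD3.1 z heD
          rw [he1, orderOf_one] at this
          exact absurd this (by norm_num)
        · have hzT : z ∈ (T : Subgroup G) := by
            have : z = y⁻¹ * e := by rw [← hyz]; group
            rw [this]
            exact mul_mem (inv_mem hdT) heT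
          have hz1 := htriv z hz hzT
          rw [hz1, mul_one] at hyz
          exact hyz.symm
      · intro he
        rw [Set.mem_singleton_iff] at he
        subst he
        exact ⟨hd, hdT⟩
    rw [hset, Set.ncard_singleton]

/-- width one (statement of S5346) from the Z*-type statement `TP G 3` -/
theorem width_one_iff_of_tp [Finite G] (hT : TP G 3) {D : Set G}
    (hD : Cfsg.IsThreeTranspositionGroup D) {d : G} (hd : d ∈ D) :
    Cfsg.commutingWidth D = 1 ↔ Subgroup.zpowers d ⊔ Cfsg.pCore 3 G = ⊤ := by
  have hD' := hD
  obtain ⟨hD3, hDconj, hDgen⟩ := hD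
  have hinv : ∀ e ∈ D, e * e = 1 := by
    intro e he
    rw [← pow_two, ← hD3.1 e he, pow_orderOf_eq_one]
  have hdd := hinv d hd
  have h2 : IsPGroup 2 (Subgroup.zpowers d) :=
    IsPGroup.of_card (n := 1) (by rw [Nat.card_zpowers, hD3.1 d hd, pow_one])
  have h3p : Nat.Prime 3 := by norm_num
  have : Fact (Nat.Prime 3) := ⟨h3p⟩
  constructor
  · intro hw
    -- no two different members of D commute
    have hnc : ∀ a ∈ D, ∀ b ∈ D, a * b = b * a → a = b := by
      intro a ha b hb hab
      by_contra hne
      -- the subgroup generated by a and b is a 2-group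
      have hsq : ∀ x ∈ Subgroup.closure ({a, b} : Set G), x ^ 2 = 1 := by
        intro x hx
        have hcomm : IsMulCommutative (Subgroup.closure ({a, b} : Set G)) :=
          Subgroup.isMulCommutative_closure (by
            intro u hu v hv
            rcases hu with rfl | rfl <;> rcases hv with rfl | rfl
            · rfl
            · exact hab
            · exact hab.symm
            · rfl)
        induction hx using Subgroup.closure_induction with
        | mem x hx =>
          rcases hx with rfl | rfl
          · rw [pow_two]; exact hinv _ ha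
          · rw [pow_two]; exact hinv _ hb
        | one => simp
        | mul x y hx hy ihx ihy =>
          have hc : Commute x y := by
            have := mul_comm' (⟨x, hx⟩ : Subgroup.closure ({a, b} : Set G)) ⟨y, hy⟩
            exact congrArg Subtype.val this
          rw [hc.mul_pow, ihx, ihy, one_mul]
        | inv x hx ih => rw [inv_pow, ih, inv_one]
      have hp : IsPGroup 2 (Subgroup.closure ({a, b} : Set G)) := by
        intro x
        refine ⟨1, ?_⟩
        apply Subtype.ext
        have := hsq x x.2
        simpa using this
      obtain ⟨T, hT⟩ := hp.exists_le_sylow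
      have hres := (Cfsg.Agent.S5345.result hD' T).2
      rw [hw] at hres
      have haT : a ∈ {d : G | d ∈ D ∧ d ∈ T} :=
        ⟨ha, hT (Subgroup.subset_closure (Set.mem_insert _ _))⟩
      have hbT : b ∈ {d : G | d ∈ D ∧ d ∈ T} :=
        ⟨hb, hT (Subgroup.subset_closure (Set.mem_insert_of_mem _ rfl))⟩
      obtain ⟨c, hc⟩ := Set.ncard_eq_one.mp hres
      rw [hc] at haT hbT
      exact hne (haT.trans hbT.symm)
    -- all products have 3-power order
    have hord : ∀ a ∈ D, ∀ b ∈ D, ∃ k : ℕ, orderOf (a * b) = 3 ^ k := by
      intro a ha b hb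
      by_cases hab : a = b
      · subst hab
        exact ⟨0, by rw [hinv a ha, orderOf_one, pow_zero]⟩
      · have h3 : (a * b) ^ 3 = 1 := by
          rcases hD3.2 a ha b hb with h | h
          · exfalso
            apply hab
            apply hnc a ha b hb
            have h5 : a * b * (a * b) = 1 := by rw [← pow_two]; exact h
            calc a * b = a * b * (a * b) * (b * a) := by
                  rw [show a * b * (a * b) * (b * a) = a * b * (a * (b * b) * a) by group,
                    hinv b hb, mul_one, hinv a ha, mul_one]
              _ = b * a := by rw [h5, one_mul]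
          · exact h
        have hdvd : orderOf (a * b) ∣ 3 ^ 1 := by
          rw [pow_one]; exact orderOf_dvd_of_pow_eq_one h3
        obtain ⟨k, -, hk⟩ := (Nat.dvd_prime_pow h3p).mp hdvd
        exact ⟨k, hk⟩
    -- D is the class of d
    have hDd : D = conjugatesOf d := by
      ext e
      constructor
      · intro he
        have h3 : (d * e) ^ (2 * 1 + 1) = 1 := by
          obtain ⟨k, hk⟩ := hord d hd e he
          rcases hD3.2 d hd e he with h | h
          · have h1 : orderOf (d * e) ∣ 2 := orderOf_dvd_of_pow_eq_one h
            rw [hk] at h1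
            have h4 : 3 ^ k = 1 := by
              have hcop' : Nat.Coprime (3 ^ k) 2 := Nat.Coprime.pow_left _ (by norm_num)
              exact Nat.eq_one_of_dvd_coprimes hcop' dvd_rfl h1
            rw [h4] at hk
            rw [orderOf_eq_one_iff.mp hk, one_pow]
          · exact h
        have := conj_of_odd_prod hdd (hinv e he) 1 h3
        exact isConj_iff.mpr ⟨(d * e) ^ 1, this⟩
      · intro he
        obtain ⟨g, rfl⟩ := isConj_iff.mp he
        exact hDconj g d hd
    have hprod : ∀ a ∈ conjugatesOf d, ∀ b ∈ conjugatesOf d, ∃ k : ℕ, orderOf (a * b) = 3 ^ k := by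
      rw [← hDd]; exact hord
    exact sup_pCore_of_tp hT d (hD3.1 d hd) hprod (hDd ▸ hDgen)
  · intro hsup
    have hKn : (Cfsg.pCore 3 G).Normal := Subgroup.sSup_normal _ (fun _ hH => hH.1)
    have hKp : IsPGroup 3 (Cfsg.pCore 3 G) :=
      Sylow.sSup_of_normal _ (fun _ hH => hH.2) (fun _ hH => hH.1)
    obtain ⟨T, hT⟩ := h2.exists_le_sylow
    have hdT : d ∈ T := hT (Subgroup.mem_zpowers d)
    rw [← (Cfsg.Agent.S5345.result hD' T).2]
    have hset : {e : G | e ∈ D ∧ e ∈ T} = {d} := by
      ext e
      constructor
      · rintro ⟨heD, heT⟩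
        have hx : e ∈ ((Subgroup.zpowers d ⊔ Cfsg.pCore 3 G : Subgroup G) : Set G) := by
          rw [hsup]; trivial
        rw [Subgroup.mul_normal] at hx
        obtain ⟨y, hy, z, hz, hyz⟩ := Set.mem_mul.mp hx
        -- elements of the 3-core of 2-power order are trivial
        have htriv : ∀ w : G, w ∈ Cfsg.pCore 3 G → w ∈ (T : Subgroup G) → w = 1 := by
          intro w hwK hwT
          obtain ⟨k, hk⟩ := hKp ⟨w, hwK⟩
          obtain ⟨l, hl⟩ := T.isPGroup' ⟨w, hwT⟩
          have hk' : w ^ 3 ^ k = 1 := by
            have := congrArg Subtype.val hk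
            simpa using this
          have hl' : w ^ 2 ^ l = 1 := by
            have := congrArg Subtype.val hl
            simpa using this
          have h1 : orderOf w ∣ 3 ^ k := orderOf_dvd_of_pow_eq_one hk'
          have h2' : orderOf w ∣ 2 ^ l := orderOf_dvd_of_pow_eq_one hl'
          have hcop' : Nat.Coprime (3 ^ k) (2 ^ l) := Nat.Coprime.pow _ _ (by norm_num)
          exact orderOf_eq_one_iff.mp (Nat.eq_one_of_dvd_coprimes hcop' h1 h2')
        rcases zpowers_two hdd hy with rfl | rfl
        · rw [one_mul] at hyz
          subst hyz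
          have he1 := htriv z hz heT
          have := hD3.1 z heD
          rw [he1, orderOf_one] at this
          exact absurd this (by norm_num)
        · have hzT : z ∈ (T : Subgroup G) := by
            have : z = y⁻¹ * e := by rw [← hyz]; group
            rw [this]
            exact mul_mem (inv_mem hdT) heT
          have hz1 := htriv z hz hzT
          rw [hz1, mul_one] at hyz
          exact hyz.symm
      · intro he
        rw [Set.mem_singleton_iff] at he
        subst he
        exact ⟨hd, hdT⟩
    rw [hset, Set.ncard_singleton]

end width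

end Cfsg.Agent.H91
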