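import Mathlib
import Cfsg.Agent.H74.TsDefs

/-!
# TS-TRC (piece of S2948): transport to `G` of the 2-core of `K`
-/

set_option autoImplicit false
open Cfsg

namespace Cfsg.Agent.H91.Ts

universe u

open Cfsg.Agent.H74.Ts

theorem trC_pCore_isPGroup {X : Type u} [Group X] [Finite X] :
    IsPGroup 2 ↥(pCore 2 X) :=
  haveI : Fact (Nat.Prime 2) := ⟨Nat.prime_two⟩
  Sylow.sSup_of_normal _ (fun _ hH => hH.2) (fun _ hH => hH.1)

theorem trC_pCore_normal {X : Type u} [Group X] : (pCore 2 X).Normal :=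
  Subgroup.sSup_normal _ (fun _ hH => hH.1)

theorem trC : StTrC.{u} := by
  intro G _ _ L K' h3
  obtain ⟨K, hK⟩ : ∃ K : Subgroup G, K = K'.map L.subtype := ⟨_, rfl⟩
  obtain ⟨P, hP⟩ : ∃ P : Subgroup G, P = (K' ⊓ pCore 2 ↥L).map L.subtype := ⟨_, rfl⟩
  rw [← hK]
  have hPK : P ≤ K := by rw [hP, hK]; exact Subgroup.map_mono inf_le_left
  have hPidx : P.relIndex K = 3 := by
    rw [hP, hK, Subgroup.relIndex_map_map_of_injective _ _ L.subtype_injective]
    exact h3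
  have hP2 : IsPGroup 2 ↥P := by
    rw [hP]
    exact (trC_pCore_isPGroup.to_le inf_le_right).map _
  have hnL : (pCore 2 ↥L).Normal := trC_pCore_normal
  have hPn : (P.subgroupOf K).Normal := by
    constructor
    intro n hn g
    rw [Subgroup.mem_subgroupOf] at hn ⊢
    rw [hP] at hn ⊢
    obtain ⟨x, hx0, hxe⟩ := Subgroup.mem_map.mp hn
    have hx := Subgroup.mem_inf.mp hx0
    have hg : (g : G) ∈ K'.map L.subtype := by rw [← hK]; exact g.2
    obtain ⟨k, hk, hke⟩ := Subgroup.mem_map.mp hg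
    refine Subgroup.mem_map.mpr ⟨k * x * k⁻¹, ⟨?_, ?_⟩, ?_⟩
    · exact K'.mul_mem (K'.mul_mem hk hx.1) (K'.inv_mem hk)
    · exact hnL.conj_mem x hx.2 k
    · simp only [map_mul, map_inv, hxe, hke, Subgroup.coe_mul, Subgroup.coe_inv]
  have hPsub2 : IsPGroup 2 ↥(P.subgroupOf K) := hP2.comap_subtype
  have hPle : P.subgroupOf K ≤ pCore 2 ↥K := le_sSup ⟨hPn, hPsub2⟩
  obtain ⟨O, hO⟩ : ∃ O : Subgroup G, O = pCoreOf 2 K := ⟨_, rfl⟩
  rw [← hO]
  have hOK : O ≤ K := by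
    rw [hO]; unfold pCoreOf; exact Subgroup.map_subtype_le _
  have hPO : P ≤ O := by
    intro x hx
    rw [hO]; unfold pCoreOf
    exact Subgroup.mem_map.mpr ⟨⟨x, hPK hx⟩, hPle (Subgroup.mem_subgroupOf.mpr hx), rfl⟩
  have hO2 : IsPGroup 2 ↥O := by
    rw [hO]; unfold pCoreOf
    exact trC_pCore_isPGroup.map _
  have hmul : P.relIndex O * O.relIndex K = 3 := by
    rw [Subgroup.relIndex_mul_relIndex P O K hPO hOK, hPidx]
  have hdvd : P.relIndex O ∣ Nat.card ↥O := Subgroup.relIndex_dvd_card P O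
  obtain ⟨n, hn⟩ := hO2.exists_card_eq
  rw [hn] at hdvd
  obtain ⟨m, -, hm⟩ := (Nat.dvd_prime_pow Nat.prime_two).mp hdvd
  have hm0 : m = 0 := by
    by_contra hne
    have h2 : 2 ∣ P.relIndex O := by
      rw [hm]; exact dvd_pow_self 2 hne
    have h23 : 2 ∣ 3 := by
      rw [← hmul]; exact Dvd.dvd.mul_right h2 _
    omega
  rw [hm0, pow_zero] at hm
  have hOP : O ≤ P := Subgroup.relIndex_eq_one.mp hm
  rw [hm, one_mul] at hmul
  refine ⟨hmul, ?_⟩
  intro x hx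
  have hxP : x ∈ P := hOP hx
  rw [hP] at hxP
  unfold pCoreOf
  exact Subgroup.map_mono inf_le_right hxP

example : Cfsg.Agent.H74.Ts.StTrC.{u} := trC

end Cfsg.Agent.H91.Ts
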