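import Mathlib
import Cfsg.Agent.H74.TsDefs

/-!
# TS-TRN (piece of S2948): transport to `G` of `Q ≤ N(K)` and `K ≰ C(V)`
-/

set_option autoImplicit false
open Cfsg

namespace Cfsg.Agent.H91.Ts

universe u

open Cfsg.Agent.H74.Ts

theorem trN : StTrN.{u} := by
  intro G _ _ L K' hN hC
  refine ⟨?_, ?_⟩
  · intro g hg
    unfold pCoreOf at hg
    obtain ⟨q, hq, rfl⟩ := Subgroup.mem_map.mp hg
    have hqN : q ∈ Subgroup.normalizer (K' : Set ↥L) := hN hq
    have hqN' : q⁻¹ ∈ Subgroup.normalizer (K' : Set ↥L) := inv_mem hqN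
    rw [Subgroup.mem_normalizer_iff] at hqN hqN' ⊢
    intro h
    constructor
    · intro hh
      obtain ⟨k, hk, rfl⟩ := Subgroup.mem_map.mp hh
      exact Subgroup.mem_map.mpr ⟨q * k * q⁻¹, (hqN k).mp hk, by simp⟩
    · intro hh
      obtain ⟨k, hk, hke⟩ := Subgroup.mem_map.mp hh
      refine Subgroup.mem_map.mpr ⟨q⁻¹ * k * q⁻¹⁻¹, (hqN' k).mp hk, ?_⟩
      have : h = (L.subtype q)⁻¹ * (L.subtype q * h * (L.subtype q)⁻¹) * (L.subtype q) := by
        group
      rw [this, ← hke]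
      simp
  · intro hle
    apply hC
    intro k hk
    rw [Subgroup.mem_centralizer_iff]
    intro z hz
    have hz' : (z : G) ∈ omegaCenterOf (pCoreOf 2 L) := Subgroup.mem_subgroupOf.mp hz
    have hkK : (k : G) ∈ K'.map L.subtype := Subgroup.mem_map.mpr ⟨k, hk, rfl⟩
    have := Subgroup.mem_centralizer_iff.mp (hle hkK) (z : G) hz'
    exact Subtype.ext this

example : Cfsg.Agent.H74.Ts.StTrN.{u} := trN

end Cfsg.Agent.H91.Ts
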