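import Mathlib
import Cfsg.Agent.H91.U62Defs
import Cfsg.Agent.S0279

/-!
# helper91: S5452 assembly lemma

If `ρ : D ↠ PSU₆(2)` has central kernel of exponent 2, then every `y : D` with `ρ y` of order
dividing 2 has `y * y = 1` (from the pieces EA3, FUS1, FUS2, FUS3, WITT, SPAN).
-/

set_option autoImplicit false

namespace Cfsg.Agent.H91.U62

open Subgroup

universe u

theorem card_center_su (K : Type) [Field K] [Fintype K] (hK : Fintype.card K = 4) :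
    Nat.card (center (Cfsg.SU 6 K 2)) = 3 := by
  have h := Cfsg.Agent.S0279.result (F := K) (q := 2) (by rw [hK]; norm_num) 6 (by norm_num)
  rw [h]
  decide

/-- Commuting involutions of `SU₆(2)` with the same image in `PSU₆(2)` are equal. -/
theorem eq_of_mk_eq (K : Type) [Field K] [Fintype K] (hK : Fintype.card K = 4)
    (s t : ↥(Cfsg.SU 6 K 2)) (hs : s * s = 1) (ht : t * t = 1) (hc : Commute s t)
    (h : (QuotientGroup.mk s : Cfsg.PSU 6 K 2) = QuotientGroup.mk t) : s = t := by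
  have hz : s⁻¹ * t ∈ center (Cfsg.SU 6 K 2) := QuotientGroup.eq.mp h
  have h3 : (s⁻¹ * t) ^ 3 = 1 := by
    have := pow_card_eq_one' (G := center (Cfsg.SU 6 K 2)) (x := ⟨s⁻¹ * t, hz⟩)
    rw [card_center_su K hK] at this
    exact congrArg Subtype.val this
  have hsinv : s⁻¹ = s := inv_eq_of_mul_eq_one_left hs
  have h2 : (s⁻¹ * t) ^ 2 = 1 := by
    rw [hsinv, pow_two]
    calc s * t * (s * t) = s * (t * s) * t := by group
      _ = s * (s * t) * t := by rw [hc.eq]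
      _ = (s * s) * (t * t) := by group
      _ = 1 := by rw [hs, ht, one_mul]
  have h1 : s⁻¹ * t = 1 := by
    have : (s⁻¹ * t) ^ 3 = (s⁻¹ * t) ^ 2 * (s⁻¹ * t) := pow_succ _ 2
    rw [h3, h2, one_mul] at this
    exact this.symm
  exact (inv_mul_eq_one.mp h1)

theorem lift_invol (hea : Ea3Stmt.{u, 0, 0}) (hf1 : Fus1Stmt.{0}) (hf2 : Fus2Stmt.{0})
    (hf3 : Fus3Stmt.{0}) (hw : WittStmt.{0}) (hsp : SpanStmt.{0})
    {K : Type} [Field K] [Fintype K] (hK : Fintype.card K = 4)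
    {D : Type u} [Group D] (ρ : D →* Cfsg.PSU 6 K 2) (hsurj : Function.Surjective ρ)
    (hker : ρ.ker ≤ center D) (hexp : ∀ z ∈ ρ.ker, z * z = 1) :
    ∀ y : D, ρ y * ρ y = 1 → y * y = 1 := by
  obtain ⟨hcomm, hinv⟩ := hf1 hK
  obtain ⟨hfa, hfb⟩ := hf2 hK
  obtain ⟨hfc, hfd⟩ := hf3 hK
  let mk : ↥(Cfsg.SU 6 K 2) →* Cfsg.PSU 6 K 2 := QuotientGroup.mk' (center (Cfsg.SU 6 K 2))
  have hmksurj : Function.Surjective mk := QuotientGroup.mk'_surjective _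
  let p : ↥(pts K) → Cfsg.PSU 6 K 2 := fun s => mk s.1
  have hpne : ∀ s t : ↥(pts K), s.1 ≠ t.1 → p s ≠ p t := by
    intro s t hst h
    exact hst (eq_of_mk_eq K hK s.1 t.1 (hinv _ s.2) (hinv _ t.2) (hcomm _ s.2 _ t.2) h)
  have hpne' : ∀ s t : ↥(pts K), p s ≠ p t → s.1 ≠ t.1 := by
    intro s t h hst
    exact h (by show mk s.1 = mk t.1; rw [hst])
  have key : ∀ y : D, ρ y ∈ closure (Set.range p) → y * y = 1 := by
    refine hea ρ hsurj hker hexp p ?_ ?_ ?_ ?_ ?_ ?_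
    · intro i j
      exact (hcomm _ i.2 _ j.2).map mk
    · intro i
      show mk i.1 * mk i.1 = 1
      rw [← map_mul, hinv _ i.2, map_one]
    · intro i j
      exact mk.map_isConj (hfa _ i.2 _ j.2)
    · intro i j i' j' hij hij'
      have := mk.map_isConj (hfb _ i.2 _ j.2 _ i'.2 _ j'.2 (hpne' i j hij) (hpne' i' j' hij'))
      simpa only [map_mul] using this
    · obtain ⟨s, hs, t, ht, r, hr, hst, hrs, hrt, hc⟩ := hfc
      refine ⟨⟨s, hs⟩, ⟨t, ht⟩, ⟨r, hr⟩, hpne _ _ hst, hpne _ _ hrs, hpne _ _ hrt, ?_⟩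
      have := mk.map_isConj hc
      simpa only [map_mul] using this
    · obtain ⟨s₁, h₁, s₂, h₂, s₃, h₃, s₄, h₄, s₅, h₅, s₆, h₆, hprod, n1, n2, n3, n4, n5⟩ := hfd
      refine ⟨⟨s₁, h₁⟩, ⟨s₂, h₂⟩, ⟨s₃, h₃⟩, ⟨s₄, h₄⟩, ⟨s₅, h₅⟩, ⟨s₆, h₆⟩, ?_, hpne _ _ n1,
        hpne _ _ n2, hpne _ _ n3, hpne _ _ n4, hpne _ _ n5⟩
      show mk s₁ * mk s₂ * mk s₃ * mk s₄ * mk s₅ = 1
      rw [← map_mul, ← map_mul, ← map_mul, ← map_mul, hprod, map_one]
  intro y hy
  obtain ⟨s₀, hs₀⟩ := hmksurj (ρ y)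
  have hz : s₀ * s₀ ∈ center (Cfsg.SU 6 K 2) := by
    have : mk (s₀ * s₀) = 1 := by rw [map_mul, hs₀, hy]
    exact (QuotientGroup.eq_one_iff _).mp this
  have h6 : (s₀ * s₀) ^ 3 = 1 := by
    have := pow_card_eq_one' (G := center (Cfsg.SU 6 K 2)) (x := ⟨s₀ * s₀, hz⟩)
    rw [card_center_su K hK] at this
    exact congrArg Subtype.val this
  set s : ↥(Cfsg.SU 6 K 2) := s₀ ^ 3 with hs
  have hss : s * s = 1 := by
    rw [hs, ← pow_add]
    have : s₀ ^ (3 + 3) = (s₀ * s₀) ^ 3 := by rw [← pow_two, ← pow_mul]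
    rw [this, h6]
  have hmks : mk s = ρ y := by
    rw [hs, map_pow, hs₀, pow_succ, pow_two, hy, one_mul]
  obtain ⟨g, M, hM, hgM⟩ := hw hK s hss
  have hcl : g * s * g⁻¹ ∈ closure (pts K) := hsp hK _ ⟨M, hM, hgM⟩
  have hcl' : mk (g * s * g⁻¹) ∈ closure (Set.range p) := by
    have h1 : mk (g * s * g⁻¹) ∈ (closure (pts K)).map mk := Subgroup.mem_map_of_mem mk hcl
    rw [MonoidHom.map_closure] at h1
    have h2 : (mk '' pts K) = Set.range p := by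
      ext x
      constructor
      · rintro ⟨s', hs', rfl⟩
        exact ⟨⟨s', hs'⟩, rfl⟩
      · rintro ⟨s', rfl⟩
        exact ⟨s'.1, s'.2, rfl⟩
    rw [h2] at h1
    exact h1
  obtain ⟨c, hc⟩ := hsurj (mk g)
  have h3 : ρ (c * y * c⁻¹) = mk (g * s * g⁻¹) := by
    rw [map_mul, map_mul, map_inv, hc, ← hmks, map_mul, map_mul, map_inv]
  have h4 := key (c * y * c⁻¹) (by rw [h3]; exact hcl')
  have h5 : c * y * c⁻¹ * (c * y * c⁻¹) = c * (y * y) * c⁻¹ := by group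
  rw [h5] at h4
  have h6' : y * y = c⁻¹ * (c * (y * y) * c⁻¹) * c := by group
  rw [h6', h4]
  group

end Cfsg.Agent.H91.U62
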