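import Mathlib
import Cfsg.Agent.H58.UqDefs
import Cfsg.Agent.H79.SyIfChar
import Cfsg.Agent.H91.FratCore

/-!
# UQ-FRAT (piece of S2950): Frattini argument `L = ⟨J(T)^L⟩ N_L(J(T))`
-/

set_option autoImplicit false
open Cfsg

namespace Cfsg.Agent.H91.Uq

universe u

theorem frat : Cfsg.Agent.H58.Uq.StFrat.{u} := by
  intro G _ _ T L U hT hconj hnorm
  have hTL : T ≤ L := hT.1
  have hT2 : IsPGroup 2 ↥T := hT.2.1
  have hTodd : Odd (T.relIndex L) := hT.2.2
  obtain ⟨J, hJ⟩ : ∃ J : Subgroup G, J = thompsonSubgroupOf 2 T := ⟨_, rfl⟩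
  rw [← hJ] at hconj hnorm
  have hJT : J ≤ T := by
    rw [hJ]; unfold thompsonSubgroupOf
    exact Subgroup.map_subtype_le _
  have hJL : J ≤ L := le_trans hJT hTL
  -- inside `↥L`
  have hTX2 : IsPGroup 2 ↥(T.subgroupOf L) := hT2.comap_subtype
  have hTXodd : Odd (T.subgroupOf L).index := hTodd
  have hJTX : J.subgroupOf L ≤ T.subgroupOf L := by
    intro x hx
    exact Subgroup.mem_subgroupOf.mpr (hJT (Subgroup.mem_subgroupOf.mp hx))
  have hchar : ∀ S : Subgroup ↥L, J.subgroupOf L ≤ S → S ≤ T.subgroupOf L →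
      Subgroup.normalizer (S : Set ↥L) ≤
        Subgroup.normalizer ((J.subgroupOf L : Subgroup ↥L) : Set ↥L) := by
    intro S h1 h2
    have := Cfsg.Agent.H79.Sy.ifChar T L hT S (by rw [← hJ]; exact h1) h2
    rw [← hJ] at this
    exact this
  have htop := Cfsg.Agent.H91.Frat.normalClosure_sup_normalizer (T.subgroupOf L)
    (J.subgroupOf L) hTX2 hTXodd hJTX hchar
  -- both factors normalize `U`
  have h1 : Subgroup.normalClosure ((J.subgroupOf L : Subgroup ↥L) : Set ↥L) ≤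
      (Subgroup.normalizer (U : Set G)).subgroupOf L := by
    unfold Subgroup.normalClosure
    rw [Subgroup.closure_le]
    intro a ha
    obtain ⟨b, hb, hba⟩ := Group.mem_conjugatesOfSet_iff.mp ha
    obtain ⟨c, hc⟩ := isConj_iff.mp hba
    have hbJ : (b : G) ∈ J := Subgroup.mem_subgroupOf.mp hb
    have hmem : (a : G) ∈ J.map (MulAut.conj (c : G)).toMonoidHom := by
      refine Subgroup.mem_map.mpr ⟨(b : G), hbJ, ?_⟩
      rw [← hc]; rfl
    exact Subgroup.mem_subgroupOf.mpr (hconj (c : G) c.2 hmem)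
  have h2 : Subgroup.normalizer ((J.subgroupOf L : Subgroup ↥L) : Set ↥L) ≤
      (Subgroup.normalizer (U : Set G)).subgroupOf L := by
    intro n hn
    rw [Subgroup.mem_subgroupOf]
    apply hnorm
    refine Subgroup.mem_inf.mpr ⟨n.2, ?_⟩
    rw [Subgroup.mem_normalizer_iff]
    intro x
    have hn' := Subgroup.mem_normalizer_iff.mp hn
    constructor
    · intro hx
      have hxL : x ∈ L := hJL hx
      have h3 := (hn' ⟨x, hxL⟩).mp (Subgroup.mem_subgroupOf.mpr hx)
      exact Subgroup.mem_subgroupOf.mp h3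
    · intro hx
      have hxL : x ∈ L := by
        have h4 : (n : G) * x * (n : G)⁻¹ ∈ L := hJL hx
        have h5 : x = (n : G)⁻¹ * ((n : G) * x * (n : G)⁻¹) * (n : G) := by group
        rw [h5]
        exact L.mul_mem (L.mul_mem (L.inv_mem n.2) h4) n.2
      have h3 := (hn' ⟨x, hxL⟩).mpr (Subgroup.mem_subgroupOf.mpr hx)
      exact Subgroup.mem_subgroupOf.mp h3
  intro l hl
  have h3 : (⟨l, hl⟩ : ↥L) ∈ Subgroup.normalClosure ((J.subgroupOf L : Subgroup ↥L) : Set ↥L) ⊔
      Subgroup.normalizer ((J.subgroupOf L : Subgroup ↥L) : Set ↥L) := by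
    rw [htop]; exact Subgroup.mem_top _
  have h4 := (sup_le h1 h2) h3
  exact Subgroup.mem_subgroupOf.mp h4

example : Cfsg.Agent.H58.Uq.StFrat.{u} := frat

end Cfsg.Agent.H91.Uq
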